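/-
Coset-graph axioms for an amalgam of two finite groups over a common subgroup of index 3 in both.
-/
import Mathlib
import Cfsg.Agent.Lib.TwoGroups.NormalAbelian

set_option autoImplicit false

namespace CfsgLib.CubicAmalgam

open MulAction

section Group

variable {G : Type*} [Group G]

theorem card_le_two_mul_inf {H K : Subgroup G} [Finite H]
    (h : ∀ x ∈ H, ∀ y ∈ H, x ∉ K → y ∉ K → x⁻¹ * y ∈ K) :
    Nat.card H ≤ 2 * Nat.card (H ⊓ K : Subgroup G) := by
  classical
  by_cases hHK : H ≤ K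
  · rw [inf_eq_left.mpr hHK]; omega
  obtain ⟨a, haH, haK⟩ := SetLike.not_le_iff_exists.mp hHK
  have : Finite (H ⊓ K : Subgroup G) := Finite.of_injective
    (Subgroup.inclusion (inf_le_left : H ⊓ K ≤ H)) (Subgroup.inclusion_injective _)
  let f : H → Bool × (H ⊓ K : Subgroup G) := fun x =>
    if hx : (x : G) ∈ K then (false, ⟨x, x.2, hx⟩)
    else (true, ⟨a⁻¹ * x, H.mul_mem (H.inv_mem haH) x.2, h a haH x x.2 haK hx⟩)
  have hf : Function.Injective f := by
    intro x y hxy
    by_cases hx : (x : G) ∈ K <;> by_cases hy : (y : G) ∈ K <;>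
      simp only [f, dif_pos, dif_neg, hx, hy, not_false_eq_true, Prod.mk.injEq,
        Bool.true_eq_false, Bool.false_eq_true, false_and, true_and] at hxy <;>
      have := congrArg Subtype.val hxy <;>
      exact Subtype.ext (by simpa using this)
  refine (Nat.card_le_card_of_injective f hf).trans (le_of_eq ?_)
  rw [Nat.card_prod, Nat.card_eq_fintype_card (α := Bool), Fintype.card_bool]

theorem mem_normalizer_of_conj {N : Subgroup G} [Finite N] {g : G}
    (h : ∀ n ∈ N, g * n * g⁻¹ ∈ N) : g ∈ Subgroup.normalizer (N : Set G) := by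
  rw [Subgroup.mem_normalizer_iff]
  intro x
  refine ⟨h x, fun hx => ?_⟩
  let f : N → N := fun n => ⟨g * n * g⁻¹, h n n.2⟩
  have hf : Function.Injective f := fun a b hab => by
    have h1 : g * (a : G) * g⁻¹ = g * b * g⁻¹ := congrArg Subtype.val hab
    exact Subtype.ext (mul_left_cancel (mul_right_cancel h1))
  obtain ⟨n, hn⟩ := Finite.surjective_of_injective hf ⟨_, hx⟩
  have : g * (n : G) * g⁻¹ = g * x * g⁻¹ := congrArg Subtype.val hn
  rw [mul_left_inj, mul_right_inj] at this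
  exact this ▸ n.2

/-- A nontrivial normalised subgroup of a finite 2-group contains a central involution. -/
theorem exists_central_involution {S K : Subgroup G} [Finite S] (hS : IsPGroup 2 S) (hKS : K ≤ S)
    (hnorm : ∀ s ∈ S, ∀ k ∈ K, s * k * s⁻¹ ∈ K) (hK : K ≠ ⊥) :
    ∃ k ∈ K, k ≠ 1 ∧ k * k = 1 ∧ ∀ s ∈ S, s * k = k * s := by
  have : Fact (Nat.Prime 2) := ⟨Nat.prime_two⟩
  have hN : (K.subgroupOf S).Normal := ⟨fun n hn s => by
    rw [Subgroup.mem_subgroupOf] at hn ⊢
    simpa using hnorm s s.2 n hn⟩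
  have hne : K.subgroupOf S ≠ ⊥ := fun h0 => hK <| by
    rw [Subgroup.subgroupOf_eq_bot] at h0
    exact h0.eq_bot_of_le hKS
  obtain ⟨z, hz, hz1, hzc⟩ := CfsgLib.TwoGroups.exists_mem_center_of_normal hS hne
  obtain ⟨k, hk⟩ := hS z
  have hex : ∃ n, z ^ 2 ^ n = 1 := ⟨k, hk⟩
  classical
  set n := Nat.find hex with hn
  have hn0 : n ≠ 0 := by
    intro h0
    have := Nat.find_spec hex
    rw [← hn, h0, pow_zero, pow_one] at this
    exact hz1 this
  refine ⟨((z ^ 2 ^ (n - 1) : S) : G), ?_, ?_, ?_, ?_⟩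
  · rw [Subgroup.coe_pow]; exact K.pow_mem hz _
  · intro h1
    have h1' : z ^ 2 ^ (n - 1) = 1 := Subtype.ext h1
    have := Nat.find_min' hex h1'
    omega
  · rw [← Subgroup.coe_mul, ← Subgroup.coe_one S, Subtype.coe_inj, ← pow_add,
      ← two_mul, ← pow_succ', Nat.sub_add_cancel (Nat.one_le_iff_ne_zero.mpr hn0)]
    exact Nat.find_spec hex
  · intro s hs
    have := Subgroup.mem_center_iff.mp (Subgroup.pow_mem _ hzc (2 ^ (n - 1))) ⟨s, hs⟩
    simpa using congrArg Subtype.val this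

theorem prod_three {α : Type*} {b c d x y w : α} (f : α → G)
    (hbc : f b * f c = f c * f b) (hbd : f b * f d = f d * f b) (hcd : f c * f d = f d * f c)
    (hx : x = b ∨ x = c ∨ x = d) (hy : y = b ∨ y = c ∨ y = d) (hw : w = b ∨ w = c ∨ w = d)
    (hxy : x ≠ y) (hxw : x ≠ w) (hyw : y ≠ w) : f x * f y * f w = f b * f c * f d := by
  have l1 : ∀ r, f c * (f b * r) = f b * (f c * r) := fun r => by
    rw [← mul_assoc, ← hbc, mul_assoc]
  have l2 : ∀ r, f d * (f b * r) = f b * (f d * r) := fun r => by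
    rw [← mul_assoc, ← hbd, mul_assoc]
  have l3 : ∀ r, f d * (f c * r) = f c * (f d * r) := fun r => by
    rw [← mul_assoc, ← hcd, mul_assoc]
  rcases hx with hx | hx | hx <;> rcases hy with hy | hy | hy <;> rcases hw with hw | hw | hw <;>
    subst x y w <;>
    first
    | exact absurd rfl hxy
    | exact absurd rfl hxw
    | exact absurd rfl hyw
    | simp only [mul_assoc, ← hbc, ← hbd, ← hcd, l1, l2, l3]

end Group

/-- A group acting on a bipartite cubic graph with finite vertex stabilisers inducing `S₃` on the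
neighbours, edge stabilisers 2-groups, and no nontrivial subgroup of an edge stabiliser normal in
both vertex stabilisers. -/
structure Cubic (G : Type*) [Group G] (V : Type*) [MulAction G V] where
  Adj : V → V → Prop
  typ : V → Bool
  symm : ∀ {a b : V}, Adj a b → Adj b a
  flip : ∀ {a b : V}, Adj a b → typ b = !typ a
  smul_adj : ∀ (g : G) {a b : V}, Adj a b → Adj (g • a) (g • b)
  typ_smul : ∀ (g : G) (a : V), typ (g • a) = typ a
  trans : ∀ a b : V, typ a = typ b → ∃ g : G, g • a = b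
  three : ∀ a : V, ∃ b c d : V, Adj a b ∧ Adj a c ∧ Adj a d ∧ b ≠ c ∧ b ≠ d ∧ c ≠ d ∧
    ∀ x, Adj a x → x = b ∨ x = c ∨ x = d
  finite_stab : ∀ a : V, Finite (stabilizer G a)
  two_group : ∀ {a b : V}, Adj a b → IsPGroup 2 (stabilizer G a ⊓ stabilizer G b : Subgroup G)
  trans_nbr : ∀ {a b c : V}, Adj a b → Adj a c → ∃ g : G, g • a = a ∧ g • b = c
  exists_swap : ∀ {a b : V}, Adj a b →
    ∃ g : G, g • a = a ∧ g • b = b ∧ ∀ c, Adj a c → c ≠ b → g • c ≠ c
  faith : ∀ {a b : V}, Adj a b → ∀ N : Subgroup G,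
    N ≤ stabilizer G a ⊓ stabilizer G b → stabilizer G a ≤ Subgroup.normalizer (N : Set G) →
    stabilizer G b ≤ Subgroup.normalizer (N : Set G) → N = ⊥

namespace Cubic

variable {G : Type*} [Group G] {V : Type*} [MulAction G V] (C : Cubic G V)

/-- The edge stabiliser. -/
def S (_C : Cubic G V) (a b : V) : Subgroup G := stabilizer G a ⊓ stabilizer G b

/-- The kernel of a vertex stabiliser on the neighbours. -/
def Q (a : V) : Subgroup G where
  carrier := {g | g • a = a ∧ ∀ x, C.Adj a x → g • x = x}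
  one_mem' := ⟨one_smul _ _, fun x _ => one_smul _ _⟩
  mul_mem' := fun {g h} hg hh =>
    ⟨by rw [mul_smul, hh.1, hg.1], fun x hx => by rw [mul_smul, hh.2 x hx, hg.2 x hx]⟩
  inv_mem' := fun {g} hg =>
    ⟨by rw [inv_smul_eq_iff, hg.1], fun x hx => by rw [inv_smul_eq_iff, hg.2 x hx]⟩

variable {C}

theorem mem_S {a b : V} {g : G} : g ∈ C.S a b ↔ g • a = a ∧ g • b = b := by
  simp [S, mem_stabilizer_iff]

theorem mem_Q {a : V} {g : G} : g ∈ C.Q a ↔ g • a = a ∧ ∀ x, C.Adj a x → g • x = x := Iff.rfl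

theorem smul_of_mem_Q {a : V} {g : G} (hg : g ∈ C.Q a) : g • a = a := hg.1

theorem smul_nbr_of_mem_Q {a x : V} {g : G} (hg : g ∈ C.Q a) (hx : C.Adj a x) : g • x = x :=
  hg.2 x hx

theorem S_comm (a b : V) : C.S a b = C.S b a := inf_comm _ _

theorem Q_le_S {a b : V} (h : C.Adj a b) : C.Q a ≤ C.S a b := fun _ hg =>
  mem_S.mpr ⟨hg.1, hg.2 b h⟩

theorem Q_le_S' {a b : V} (h : C.Adj a b) : C.Q a ≤ C.S b a := fun _ hg =>
  mem_S.mpr ⟨hg.2 b h, hg.1⟩

theorem S_le_left {a b : V} : C.S a b ≤ stabilizer G a := inf_le_left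

theorem S_le_right {a b : V} : C.S a b ≤ stabilizer G b := inf_le_right

theorem ne_of_adj {a b : V} (h : C.Adj a b) : a ≠ b := fun hab => by
  have := C.flip h
  rw [hab] at this
  cases h' : C.typ b <;> simp [h'] at this

theorem smul_adj_iff (g : G) {a b : V} : C.Adj (g • a) (g • b) ↔ C.Adj a b :=
  ⟨fun h => by simpa using C.smul_adj g⁻¹ h, C.smul_adj g⟩

theorem conj_mem_Q {a : V} {g q : G} (hq : q ∈ C.Q a) : g * q * g⁻¹ ∈ C.Q (g • a) := by
  refine ⟨by rw [mul_smul, inv_smul_smul, mul_smul, hq.1], fun x hx => ?_⟩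
  have : C.Adj a (g⁻¹ • x) := by simpa using C.smul_adj g⁻¹ hx
  rw [mul_smul, mul_smul, hq.2 _ this, smul_inv_smul]

theorem conj_mem_Q_iff {a : V} {g q : G} : g * q * g⁻¹ ∈ C.Q (g • a) ↔ q ∈ C.Q a :=
  ⟨fun h => by simpa [mul_assoc] using conj_mem_Q (g := g⁻¹) h, conj_mem_Q⟩

theorem conj_mem_Q_self {a : V} {g q : G} (hg : g • a = a) (hq : q ∈ C.Q a) :
    g * q * g⁻¹ ∈ C.Q a := by
  have := conj_mem_Q (g := g) hq; rwa [hg] at this

theorem conj_mem_S {a b : V} {g s : G} (hs : s ∈ C.S a b) :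
    g * s * g⁻¹ ∈ C.S (g • a) (g • b) := by
  rw [mem_S] at hs ⊢
  constructor
  · rw [mul_smul, inv_smul_smul, mul_smul, hs.1]
  · rw [mul_smul, inv_smul_smul, mul_smul, hs.2]

theorem finite_S (C : Cubic G V) (a b : V) : Finite (C.S a b) :=
  have := C.finite_stab a
  Finite.of_injective (Subgroup.inclusion S_le_left) (Subgroup.inclusion_injective _)

theorem finite_of_le (C : Cubic G V) {H : Subgroup G} {a : V} (h : H ≤ stabilizer G a) :
    Finite H :=
  have := C.finite_stab a
  Finite.of_injective (Subgroup.inclusion h) (Subgroup.inclusion_injective h)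

theorem exists_others (C : Cubic G V) {a b : V} (h : C.Adj a b) :
    ∃ c d, C.Adj a c ∧ C.Adj a d ∧ c ≠ b ∧ d ≠ b ∧ c ≠ d ∧
      ∀ x, C.Adj a x → x = b ∨ x = c ∨ x = d := by
  obtain ⟨p, q, r, hp, hq, hr, hpq, hpr, hqr, hall⟩ := C.three a
  rcases hall b h with rfl | rfl | rfl
  · exact ⟨q, r, hq, hr, hpq.symm, hpr.symm, hqr, hall⟩
  · exact ⟨p, r, hp, hr, hpq, hqr.symm, hpr, fun x hx => by
      rcases hall x hx with h | h | h <;> simp [h]⟩
  · exact ⟨p, q, hp, hq, hpr, hqr, hpq, fun x hx => by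
      rcases hall x hx with h | h | h <;> simp [h]⟩

theorem exists_third (C : Cubic G V) {a b c : V} (hb : C.Adj a b) (hc : C.Adj a c) (hbc : b ≠ c) :
    ∃ d, C.Adj a d ∧ d ≠ b ∧ d ≠ c ∧ ∀ x, C.Adj a x → x = b ∨ x = c ∨ x = d := by
  obtain ⟨p, q, hp, hq, hpb, hqb, hpq, hall⟩ := C.exists_others hb
  rcases hall c hc with rfl | rfl | rfl
  · exact absurd rfl hbc
  · exact ⟨q, hq, hqb, hpq.symm, hall⟩
  · exact ⟨p, hp, hpb, hpq, fun x hx => by rcases hall x hx with h | h | h <;> simp [h]⟩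

theorem eq_third {a b c x y : V} (hb : C.Adj a b) (hc : C.Adj a c) (hbc : b ≠ c)
    (hx : C.Adj a x) (hxb : x ≠ b) (hxc : x ≠ c) (hy : C.Adj a y) (hyb : y ≠ b) (hyc : y ≠ c) :
    x = y := by
  obtain ⟨d, -, -, -, hall⟩ := C.exists_third hb hc hbc
  rcases hall x hx with h | h | h <;> rcases hall y hy with h' | h' | h' <;> simp_all

/-- An element of an edge stabiliser outside the kernel moves the other two neighbours. -/
theorem smul_ne_of_notMem_Q {a b c : V} {g : G} (hab : C.Adj a b) (hg : g ∈ C.S a b)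
    (hgQ : g ∉ C.Q a) (hc : C.Adj a c) (hcb : c ≠ b) : g • c ≠ c := by
  intro hgc
  rw [mem_S] at hg
  obtain ⟨d, hd, hdb, hdc, hall⟩ := C.exists_third hab hc hcb.symm
  refine hgQ ⟨hg.1, fun x hx => ?_⟩
  rcases hall x hx with rfl | rfl | rfl
  · exact hg.2
  · exact hgc
  · have hgd : C.Adj a (g • x) := by simpa [hg.1] using C.smul_adj g hd
    refine eq_third hab hc hcb.symm hgd (fun h => hdb ?_) (fun h => hdc ?_) hd hdb hdc
    · exact smul_left_cancel g (h.trans hg.2.symm)
    · exact smul_left_cancel g (h.trans hgc.symm)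

/-- An element of an edge stabiliser outside the kernel swaps the other two neighbours. -/
theorem smul_eq_of_notMem_Q {a b c d : V} {g : G} (hab : C.Adj a b) (hg : g ∈ C.S a b)
    (hgQ : g ∉ C.Q a) (hc : C.Adj a c) (hcb : c ≠ b) (hd : C.Adj a d) (hdb : d ≠ b)
    (hcd : c ≠ d) : g • c = d := by
  have h1 := smul_ne_of_notMem_Q hab hg hgQ hc hcb
  rw [mem_S] at hg
  have hgc : C.Adj a (g • c) := by simpa [hg.1] using C.smul_adj g hc
  exact eq_third hab hc hcb.symm hgc (fun h => hcb (smul_left_cancel g (h.trans hg.2.symm))) h1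
    hd hdb hcd.symm

theorem inv_mul_mem_Q {a b : V} {g h : G} (hab : C.Adj a b) (hg : g ∈ C.S a b)
    (hgQ : g ∉ C.Q a) (hh : h ∈ C.S a b) (hhQ : h ∉ C.Q a) : g⁻¹ * h ∈ C.Q a := by
  obtain ⟨c, d, hc, hd, hcb, hdb, hcd, -⟩ := C.exists_others hab
  have hgh : g⁻¹ * h ∈ C.S a b := mul_mem (inv_mem hg) hh
  by_contra hnot
  refine smul_ne_of_notMem_Q hab hgh hnot hc hcb ?_
  rw [mul_smul, inv_smul_eq_iff, smul_eq_of_notMem_Q hab hg hgQ hc hcb hd hdb hcd,
    smul_eq_of_notMem_Q hab hh hhQ hc hcb hd hdb hcd]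

theorem mul_self_mem_Q {a b : V} {g : G} (hab : C.Adj a b) (hg : g ∈ C.S a b) :
    g * g ∈ C.Q a := by
  by_cases hgQ : g ∈ C.Q a
  · exact mul_mem hgQ hgQ
  · have hi : g⁻¹ ∉ C.Q a := fun h => hgQ (by simpa using inv_mem h)
    simpa using inv_mul_mem_Q hab (inv_mem hg) hi hg hgQ

theorem mul_mem_Q {a b : V} {g h : G} (hab : C.Adj a b) (hg : g ∈ C.S a b)
    (hgQ : g ∉ C.Q a) (hh : h ∈ C.S a b) (hhQ : h ∉ C.Q a) : g * h ∈ C.Q a := by
  have hi : g⁻¹ ∉ C.Q a := fun h' => hgQ (by simpa using inv_mem h')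
  simpa using inv_mul_mem_Q hab (inv_mem hg) hi hh hhQ

theorem card_S_le (C : Cubic G V) {a b : V} (hab : C.Adj a b) :
    Nat.card (C.S a b) ≤ 2 * Nat.card (C.Q a) := by
  have := C.finite_S a b
  have h := card_le_two_mul_inf (H := C.S a b) (K := C.Q a) fun x hx y hy hxQ hyQ =>
    inv_mul_mem_Q hab hx hxQ hy hyQ
  rwa [inf_eq_right.mpr (Q_le_S hab)] at h

/-- An edge stabiliser and one element moving the other end generate the vertex stabiliser. -/
theorem stab_le_of_S_le {a b : V} (hab : C.Adj a b) {K : Subgroup G} (hS : C.S a b ≤ K) {g : G}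
    (hgK : g ∈ K) (hga : g • a = a) (hgb : g • b ≠ b) : stabilizer G a ≤ K := by
  have hb' : C.Adj a (g • b) := by simpa [hga] using C.smul_adj g hab
  have hS' : C.S a (g • b) ≤ K := by
    intro x hx
    have h1 : g⁻¹ * x * g⁻¹⁻¹ ∈ C.S (g⁻¹ • a) (g⁻¹ • (g • b)) := conj_mem_S hx
    rw [inv_smul_smul, inv_smul_eq_iff.mpr hga.symm] at h1
    have h2 := K.mul_mem (K.mul_mem hgK (hS h1)) (K.inv_mem hgK)
    simpa [mul_assoc] using h2
  intro h hh
  rw [mem_stabilizer_iff] at hh
  obtain ⟨c, hc, hcb, hcb', hall⟩ := C.exists_third hab hb' hgb.symm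
  have hhb : C.Adj a (h • b) := by simpa [hh] using C.smul_adj h hab
  have key : ∀ k ∈ K, k • a = a → k • b = h • b → h ∈ K := fun k hk hka hkb => by
    have : k⁻¹ * h ∈ C.S a b := mem_S.mpr
      ⟨by rw [mul_smul, hh, inv_smul_eq_iff, hka],
        by rw [mul_smul, inv_smul_eq_iff, hkb]⟩
    simpa using K.mul_mem hk (hS this)
  rcases hall (h • b) hhb with e | e | e
  · exact key 1 K.one_mem (one_smul _ _) (by rw [one_smul, e])
  · exact key g hgK hga e.symm
  · obtain ⟨k, hka, hkb', hk⟩ := C.exists_swap hb'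
    refine key k (hS' (mem_S.mpr ⟨hka, hkb'⟩)) hka ?_
    rw [e]
    refine smul_eq_of_notMem_Q hb' (mem_S.mpr ⟨hka, hkb'⟩) (fun hq => hk b hab hgb.symm
      (hq.2 b hab)) hab hgb.symm hc hcb' hcb.symm

/-- Two edge stabilisers at a vertex generate the vertex stabiliser. -/
theorem stab_le_of_S_S {a b c : V} (hab : C.Adj a b) (hac : C.Adj a c) (hbc : b ≠ c)
    {K : Subgroup G} (hb : C.S a b ≤ K) (hc : C.S a c ≤ K) : stabilizer G a ≤ K := by
  obtain ⟨g, hga, hgc, hg⟩ := C.exists_swap hac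
  exact stab_le_of_S_le hab hb (hc (mem_S.mpr ⟨hga, hgc⟩)) hga (hg b hab hbc)

/-- The kernel and one element of an edge stabiliser outside it generate the edge stabiliser. -/
theorem S_le_of_Q_le {a b : V} (hab : C.Adj a b) {K : Subgroup G} (hQ : C.Q a ≤ K) {g : G}
    (hg : g ∈ C.S a b) (hgQ : g ∉ C.Q a) (hgK : g ∈ K) : C.S a b ≤ K := by
  intro x hx
  by_cases hxQ : x ∈ C.Q a
  · exact hQ hxQ
  · simpa using K.mul_mem hgK (hQ (inv_mul_mem_Q hab hg hgQ hx hxQ))

theorem central_of_S {a b : V} (hab : C.Adj a b) {x g : G}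
    (hS : ∀ s ∈ C.S a b, s * x = x * s) (hgx : g * x = x * g) (hga : g • a = a)
    (hgb : g • b ≠ b) : ∀ h : G, h • a = a → h * x = x * h := fun h hh =>
  Subgroup.mem_centralizer_singleton_iff.mp (stab_le_of_S_le hab
    (fun s hs => Subgroup.mem_centralizer_singleton_iff.mpr (hS s hs))
    (Subgroup.mem_centralizer_singleton_iff.mpr hgx) hga hgb (mem_stabilizer_iff.mpr hh))

theorem central_of_S_S {a b c : V} (hab : C.Adj a b) (hac : C.Adj a c) (hbc : b ≠ c) {x : G}
    (hb : ∀ s ∈ C.S a b, s * x = x * s) (hc : ∀ s ∈ C.S a c, s * x = x * s) :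
    ∀ h : G, h • a = a → h * x = x * h := fun h hh =>
  Subgroup.mem_centralizer_singleton_iff.mp (stab_le_of_S_S hab hac hbc
    (fun s hs => Subgroup.mem_centralizer_singleton_iff.mpr (hb s hs))
    (fun s hs => Subgroup.mem_centralizer_singleton_iff.mpr (hc s hs)) (mem_stabilizer_iff.mpr hh))

/-- A subgroup of an edge stabiliser stabilised by both vertex groups is trivial. -/
theorem eq_bot_of_conj (C : Cubic G V) {a b : V} (hab : C.Adj a b) {N : Subgroup G}
    (hN : N ≤ C.S a b) (ha : ∀ g : G, g • a = a → ∀ n ∈ N, g * n * g⁻¹ ∈ N)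
    (hb : ∀ g : G, g • b = b → ∀ n ∈ N, g * n * g⁻¹ ∈ N) : N = ⊥ := by
  have : Finite N := C.finite_of_le (hN.trans S_le_left)
  exact C.faith hab N hN (fun g hg => mem_normalizer_of_conj (ha g (mem_stabilizer_iff.mp hg)))
    (fun g hg => mem_normalizer_of_conj (hb g (mem_stabilizer_iff.mp hg)))

/-- An element of an edge stabiliser centralised by both vertex groups is trivial. -/
theorem eq_one_of_central (C : Cubic G V) {a b : V} (hab : C.Adj a b) {x : G}
    (hx : x ∈ C.S a b) (ha : ∀ g : G, g • a = a → g * x = x * g)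
    (hb : ∀ g : G, g • b = b → g * x = x * g) : x = 1 := by
  have key : ∀ g : G, g * x = x * g → ∀ n ∈ Subgroup.zpowers x,
      g * n * g⁻¹ ∈ Subgroup.zpowers x := by
    intro g hg n hn
    obtain ⟨i, rfl⟩ := Subgroup.mem_zpowers_iff.mp hn
    rw [(Commute.zpow_right (show Commute g x from hg) i).eq, mul_inv_cancel_right]
    exact hn
  have := C.eq_bot_of_conj hab (N := Subgroup.zpowers x) (Subgroup.zpowers_le.mpr hx)
    (fun g hg => key g (ha g hg)) (fun g hg => key g (hb g hg))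
  simpa using this

/-- Walks, allowing backtracking. -/
inductive Walk (C : Cubic G V) : ℕ → V → V → Prop
  | nil (a : V) : Walk C 0 a a
  | cons {n : ℕ} {a b c : V} : C.Adj a b → Walk C n b c → Walk C (n + 1) a c

theorem Walk.single {a b : V} (h : C.Adj a b) : C.Walk 1 a b := .cons h (.nil b)

theorem Walk.concat {n : ℕ} {a b c : V} (h : C.Walk n a b) (h' : C.Adj b c) :
    C.Walk (n + 1) a c := by
  induction h with
  | nil => exact .single h'
  | cons hab _ ih => exact .cons hab (ih h')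

theorem Walk.trans {m n : ℕ} {a b c : V} (h : C.Walk m a b) (h' : C.Walk n b c) :
    C.Walk (m + n) a c := by
  induction h with
  | nil => simpa using h'
  | cons hab _ ih =>
    rw [Nat.add_right_comm]
    exact .cons hab (ih h')

theorem Walk.rev {n : ℕ} {a b : V} (h : C.Walk n a b) : C.Walk n b a := by
  induction h with
  | nil => exact .nil _
  | cons hab _ ih => exact ih.concat (C.symm hab)

theorem Walk.unsnoc {n : ℕ} {a c : V} (h : C.Walk (n + 1) a c) :
    ∃ d, C.Walk n a d ∧ C.Adj d c := by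
  induction n generalizing a with
  | zero => cases h with | cons hab h' => cases h'; exact ⟨a, .nil a, hab⟩
  | succ n ih =>
    cases h with
    | cons hab h' =>
      obtain ⟨d, hd, hdc⟩ := ih h'
      exact ⟨d, .cons hab hd, hdc⟩

theorem Walk.smul (g : G) {n : ℕ} {a b : V} (h : C.Walk n a b) :
    C.Walk n (g • a) (g • b) := by
  induction h with
  | nil => exact .nil _
  | cons hab _ ih => exact .cons (C.smul_adj g hab) ih

theorem walk_of_adj {p : ℕ → V} {i n : ℕ} (h : ∀ j, i ≤ j → j < i + n → C.Adj (p j) (p (j + 1))) :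
    C.Walk n (p i) (p (i + n)) := by
  induction n with
  | zero => exact .nil _
  | succ n ih =>
    exact (ih fun j h1 h2 => h j h1 (by omega)).concat (h (i + n) (by omega) (by omega))

theorem Walk.exists_fun {n : ℕ} {a c : V} (h : C.Walk n a c) :
    ∃ p : ℕ → V, p 0 = a ∧ p n = c ∧ ∀ i, i < n → C.Adj (p i) (p (i + 1)) := by
  induction h with
  | nil a => exact ⟨fun _ => a, rfl, rfl, fun i hi => absurd hi (Nat.not_lt_zero i)⟩
  | @cons n a b c hab _ ih =>
    obtain ⟨p, h0, hn, hp⟩ := ih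
    refine ⟨fun i => if i = 0 then a else p (i - 1), by simp, by simp [hn], fun i hi => ?_⟩
    cases i with
    | zero => simpa [h0] using hab
    | succ i => simpa using hp i (by omega)

/-- An element fixing everything reachable from a vertex is trivial. -/
theorem eq_one_of_fix_component (C : Cubic G V) {a : V} {x : G}
    (hx : ∀ n c, C.Walk n a c → x • c = c) : x = 1 := by
  obtain ⟨b, -, -, hab, -⟩ := C.three a
  let N : Subgroup G :=
    { carrier := {g | ∀ n c, C.Walk n a c → g • c = c}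
      one_mem' := fun _ c _ => one_smul _ c
      mul_mem' := fun {g h} hg hh n c hc => by rw [mul_smul, hh n c hc, hg n c hc]
      inv_mem' := fun {g} hg n c hc => by rw [inv_smul_eq_iff, hg n c hc] }
  have hN : N = ⊥ := by
    refine C.eq_bot_of_conj hab (fun g hg => mem_S.mpr ⟨hg 0 a (.nil a), hg 1 b (.single hab)⟩)
      (fun g hg n hn m c hc => ?_) (fun g hg n hn m c hc => ?_)
    · have h' := hc.smul g⁻¹
      rw [inv_smul_eq_iff.mpr hg.symm] at h'
      rw [mul_smul, mul_smul, hn m _ h', smul_inv_smul]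
    · have h' := ((Walk.cons (C.symm hab) hc).smul g⁻¹)
      rw [inv_smul_eq_iff.mpr hg.symm] at h'
      rw [mul_smul, mul_smul, hn _ _ (.cons hab h'), smul_inv_smul]
  have : x ∈ N := hx
  rwa [hN, Subgroup.mem_bot] at this

/-- A path without backtracking. -/
structure IsPath (C : Cubic G V) (m : ℕ) (p : ℕ → V) : Prop where
  adj : ∀ i, i < m → C.Adj (p i) (p (i + 1))
  ne : ∀ i, i + 2 ≤ m → p i ≠ p (i + 2)

theorem IsPath.mono {m k : ℕ} {p : ℕ → V} (h : C.IsPath m p) (hk : k ≤ m) : C.IsPath k p :=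
  ⟨fun i hi => h.adj i (by omega), fun i hi => h.ne i (by omega)⟩

theorem IsPath.shift {m k i : ℕ} {p : ℕ → V} (h : C.IsPath m p) (hi : i + k ≤ m) :
    C.IsPath k fun j => p (i + j) :=
  ⟨fun j hj => by rw [← Nat.add_assoc]; exact h.adj _ (by omega),
   fun j hj => by rw [← Nat.add_assoc]; exact h.ne _ (by omega)⟩

theorem IsPath.revSeg {m k i : ℕ} {p : ℕ → V} (h : C.IsPath m p) (hk : k ≤ i) (hi : i ≤ m) :
    C.IsPath k fun j => p (i - j) := by
  refine ⟨fun j hj => ?_, fun j hj => ?_⟩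
  · have := C.symm (h.adj (i - (j + 1)) (by omega))
    rwa [show i - (j + 1) + 1 = i - j by omega] at this
  · have := h.ne (i - (j + 2)) (by omega)
    rw [show i - (j + 2) + 2 = i - j by omega] at this
    exact this.symm

theorem typ_path {m : ℕ} {p : ℕ → V} (h : ∀ i, i < m → C.Adj (p i) (p (i + 1))) :
    ∀ i, i ≤ m → (Even i → C.typ (p i) = C.typ (p 0)) ∧ (Odd i → C.typ (p i) = !C.typ (p 0)) := by
  intro i
  induction i with
  | zero => exact fun _ => ⟨fun _ => rfl, fun h => by simp at h⟩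
  | succ i ih =>
    intro hi
    obtain ⟨he, ho⟩ := ih (by omega)
    have hf := C.flip (h i (by omega))
    rcases Nat.even_or_odd i with e | o
    · exact ⟨fun h' => absurd e (Nat.even_add_one.mp h'), fun _ => by rw [hf, he e]⟩
    · exact ⟨fun _ => by rw [hf, ho o, Bool.not_not],
        fun h' => absurd o (by
          rw [Nat.odd_iff] at h' ⊢
          omega)⟩

/-- Transit lemma: paths with a common type of start are conjugate as soon as every shorter
model path has a stabiliser element moving its continuations. -/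
theorem transit (C : Cubic G V) {τ : Bool} : ∀ m : ℕ,
    (∀ i, 1 ≤ i → i < m → ∃ (r : ℕ → V) (h : G), C.IsPath i r ∧ C.typ (r 0) = τ ∧
      (∀ j, j ≤ i → h • r j = r j) ∧ h ∉ C.Q (r i)) →
    ∀ p q : ℕ → V, C.IsPath m p → C.IsPath m q → C.typ (p 0) = τ → C.typ (q 0) = τ →
      ∃ g : G, ∀ i, i ≤ m → g • p i = q i := by
  intro m
  induction m with
  | zero =>
    intro _ p q _ _ hp hq
    obtain ⟨g, hg⟩ := C.trans (p 0) (q 0) (hp.trans hq.symm)
    exact ⟨g, fun i hi => by obtain rfl : i = 0 := (by omega); exact hg⟩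
  | succ m ih =>
    intro hmod p q hp hq hpt hqt
    obtain ⟨g, hg⟩ := ih (fun i h1 h2 => hmod i h1 (by omega)) p q (hp.mono (by omega))
      (hq.mono (by omega)) hpt hqt
    have hgp : C.Adj (q m) (g • p (m + 1)) := by
      simpa [hg m le_rfl] using C.smul_adj g (hp.adj m (by omega))
    have hqq : C.Adj (q m) (q (m + 1)) := hq.adj m (by omega)
    rcases Nat.eq_zero_or_pos m with rfl | hm
    · obtain ⟨k, hk0, hk1⟩ := C.trans_nbr hgp hqq
      refine ⟨k * g, fun i hi => ?_⟩
      rw [mul_smul]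
      interval_cases i
      · rw [hg 0 le_rfl, hk0]
      · exact hk1
    · by_cases heq : g • p (m + 1) = q (m + 1)
      · refine ⟨g, fun i hi => ?_⟩
        rcases Nat.lt_or_ge i (m + 1) with h | h
        · exact hg i (by omega)
        · obtain rfl : i = m + 1 := by omega
          exact heq
      obtain ⟨r, h, hr, hrt, hfix, hmove⟩ := hmod m hm (by omega)
      obtain ⟨k, hk⟩ := ih (fun i h1 h2 => hmod i h1 (by omega)) r q hr (hq.mono (by omega))
        hrt hqt
      have hfix' : ∀ j, j ≤ m → (k * h * k⁻¹) • q j = q j := fun j hj => by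
        rw [← hk j hj, mul_smul, inv_smul_smul, mul_smul, hfix j hj]
      have hmove' : k * h * k⁻¹ ∉ C.Q (q m) := by
        rw [← hk m le_rfl, conj_mem_Q_iff]; exact hmove
      obtain ⟨m', rfl⟩ : ∃ m', m = m' + 1 := ⟨m - 1, by omega⟩
      have hprev : C.Adj (q (m' + 1)) (q m') := C.symm (hq.adj m' (by omega))
      have h1 : g • p (m' + 1 + 1) ≠ q m' := by
        rw [← hg m' (by omega)]
        exact fun h => hp.ne m' (by omega) (smul_left_cancel g h).symm
      have hswap := smul_eq_of_notMem_Q hprev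
        (mem_S.mpr ⟨hfix' _ le_rfl, hfix' m' (by omega)⟩) hmove' hgp h1 hqq
        (hq.ne m' (by omega)).symm heq
      refine ⟨k * h * k⁻¹ * g, fun i hi => ?_⟩
      rw [mul_smul]
      rcases Nat.lt_or_ge i (m' + 1 + 1) with h | h
      · rw [hg i (by omega), hfix' i (by omega)]
      · obtain rfl : i = m' + 1 + 1 := by omega
        exact hswap

end Cubic

end CfsgLib.CubicAmalgam
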