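/-
The degenerate case and the case without a central involution in a vertex stabiliser.
-/
import Cfsg.Agent.Lib.CubicAmalgam.Basic

set_option autoImplicit false

namespace CfsgLib.CubicAmalgam.Cubic

open MulAction

variable {G : Type*} [Group G] {V : Type*} [MulAction G V] {C : Cubic G V}

/-- The bound to be proved. -/
def Bound (C : Cubic G V) : Prop := ∀ a b, C.Adj a b → Nat.card (C.S a b) ≤ 128

/-- Every vertex stabiliser is 2-constrained. -/
def Char2 (C : Cubic G V) : Prop :=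
  ∀ (v : V) (x : G), x • v = v → (∀ q ∈ C.Q v, q * x = x * q) → x ∈ C.Q v

/-- No vertex stabiliser centralises an involution of an edge stabiliser at it. -/
def NoCentral (C : Cubic G V) : Prop :=
  ∀ a b, C.Adj a b → ∀ z ∈ C.S a b, z * z = 1 → (∀ g : G, g • a = a → g * z = z * g) → z = 1

theorem bound_of_edge {a b : V} (hab : C.Adj a b) (h : Nat.card (C.S a b) ≤ 128) : C.Bound := by
  intro c d hcd
  have key : ∀ g : G, g • a = c ∧ g • b = d ∨ g • a = d ∧ g • b = c →
      Nat.card (C.S c d) ≤ 128 := by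
    intro g hg
    have hmem : ∀ x ∈ C.S c d, g⁻¹ * x * g ∈ C.S a b := by
      intro x hx
      have h1 := conj_mem_S (g := g⁻¹) hx
      rw [inv_inv] at h1
      rcases hg with ⟨ha, hb⟩ | ⟨ha, hb⟩
      · rwa [← ha, ← hb, inv_smul_smul, inv_smul_smul] at h1
      · rwa [← ha, ← hb, inv_smul_smul, inv_smul_smul, S_comm] at h1
    have := C.finite_S a b
    refine (Nat.card_le_card_of_injective
      (fun x : C.S c d => (⟨g⁻¹ * x * g, hmem x x.2⟩ : C.S a b)) fun x y hxy => ?_).trans h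
    exact Subtype.ext (mul_left_cancel (mul_right_cancel (congrArg Subtype.val hxy :)))
  by_cases ht : C.typ a = C.typ c
  · obtain ⟨g, hg⟩ := C.trans a c ht
    have hb' : C.Adj c (g • b) := by simpa [hg] using C.smul_adj g hab
    obtain ⟨k, hkc, hkd⟩ := C.trans_nbr hb' hcd
    exact key (k * g) (Or.inl ⟨by rw [mul_smul, hg, hkc], by rw [mul_smul, hkd]⟩)
  · have ht' : C.typ a = C.typ d := by
      rw [C.flip hcd]
      cases ha : C.typ a <;> cases hc : C.typ c <;> simp_all
    obtain ⟨g, hg⟩ := C.trans a d ht'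
    have hb' : C.Adj d (g • b) := by simpa [hg] using C.smul_adj g hab
    obtain ⟨k, hkd, hkc⟩ := C.trans_nbr hb' (C.symm hcd)
    exact key (k * g) (Or.inr ⟨by rw [mul_smul, hg, hkd], by rw [mul_smul, hkc]⟩)

theorem bound_of_not_char2 (h : ¬ C.Char2) : C.Bound := by
  simp only [Char2, not_forall] at h
  obtain ⟨v, x, hxv, hxc, hxQ⟩ := h
  obtain ⟨y, hy, hxy⟩ : ∃ y, C.Adj v y ∧ x • y ≠ y := by
    by_contra hcon
    push Not at hcon
    exact hxQ ⟨hxv, hcon⟩
  obtain ⟨w, -, -, hvw, -⟩ := C.three v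
  obtain ⟨g, hgv, hgy⟩ := C.trans_nbr hy hvw
  have hgv' : g⁻¹ • v = v := by rw [inv_smul_eq_iff, hgv]
  have hdv : (g * x * g⁻¹) • v = v := by rw [mul_smul, mul_smul, hgv', hxv, hgv]
  have hdw : (g * x * g⁻¹) • w ≠ w := by
    rw [← hgy, mul_smul, inv_smul_smul, mul_smul]
    exact fun h => hxy (smul_left_cancel g h)
  have hdc : ∀ q ∈ C.Q v, q * (g * x * g⁻¹) = (g * x * g⁻¹) * q := by
    intro q hq
    have h1 := hxc _ (conj_mem_Q_self hgv' hq)
    rw [inv_inv] at h1
    calc q * (g * x * g⁻¹) = g * ((g⁻¹ * q * g) * x) * g⁻¹ := by group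
      _ = g * (x * (g⁻¹ * q * g)) * g⁻¹ := by rw [h1]
      _ = (g * x * g⁻¹) * q := by group
  let D : Subgroup G :=
    { carrier := {n | n ∈ C.Q w ∧ ∀ c, C.Adj w c → n ∈ C.Q c}
      one_mem' := ⟨one_mem _, fun _ _ => one_mem _⟩
      mul_mem' := fun hm hn => ⟨mul_mem hm.1 hn.1, fun c hc => mul_mem (hm.2 c hc) (hn.2 c hc)⟩
      inv_mem' := fun hm => ⟨inv_mem hm.1, fun c hc => inv_mem (hm.2 c hc)⟩ }
  have hwv := C.symm hvw
  have hDS : D ≤ C.S v w := fun n hn => Q_le_S' hwv hn.1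
  have hconj : ∀ h : G, h • w = w → ∀ n ∈ D, h * n * h⁻¹ ∈ D := by
    intro h hh n hn
    refine ⟨conj_mem_Q_self hh hn.1, fun c hc => ?_⟩
    have hc' : C.Adj w (h⁻¹ • c) := by
      simpa [inv_smul_eq_iff.mpr hh.symm] using C.smul_adj h⁻¹ hc
    simpa using conj_mem_Q (g := h) (hn.2 _ hc')
  have : Finite D := C.finite_of_le (hDS.trans S_le_left)
  have hD : D = ⊥ := by
    refine C.faith hvw D hDS ?_ (fun h hh => mem_normalizer_of_conj
      (hconj h (mem_stabilizer_iff.mp hh)))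
    refine stab_le_of_S_le hvw (fun s hs => mem_normalizer_of_conj
      (hconj s (mem_S.mp hs).2)) (mem_normalizer_of_conj fun n hn => ?_) hdv hdw
    have := hdc n (hn.2 v hwv)
    rw [← this, mul_inv_cancel_right]
    exact hn
  obtain ⟨c, d, hwc, hwd, -, -, -, hall⟩ := C.exists_others hwv
  have step : ∀ (H : Subgroup G) (e : V), C.Adj w e → H ≤ C.Q w →
      Nat.card H ≤ 2 * Nat.card (H ⊓ C.Q e : Subgroup G) := by
    intro H e he hH
    have : Finite H := C.finite_of_le fun n hn => mem_stabilizer_iff.mpr (hH hn).1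
    exact card_le_two_mul_inf fun x hx y hy hxQ hyQ => inv_mul_mem_Q (C.symm he)
      (Q_le_S' he (hH hx)) hxQ (Q_le_S' he (hH hy)) hyQ
  have h1 := step (C.Q w) v hwv le_rfl
  have h2 := step (C.Q w ⊓ C.Q v) c hwc inf_le_left
  have h3 := step (C.Q w ⊓ C.Q v ⊓ C.Q c) d hwd (inf_le_left.trans inf_le_left)
  have h4 : C.Q w ⊓ C.Q v ⊓ C.Q c ⊓ C.Q d = ⊥ := by
    rw [eq_bot_iff, ← hD]
    rintro n ⟨⟨⟨hn1, hn2⟩, hn3⟩, hn4⟩
    refine ⟨hn1, fun e he => ?_⟩
    rcases hall e he with rfl | rfl | rfl <;> assumption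
  rw [h4, Subgroup.card_bot] at h3
  refine bound_of_edge hwv ?_
  have h5 := C.card_S_le hwv
  omega

section Residual

/-- Central elements of an edge stabiliser squaring to one. -/
def ZE (C : Cubic G V) (a b : V) : Set G :=
  {x | x ∈ C.S a b ∧ x * x = 1 ∧ ∀ s ∈ C.S a b, s * x = x * s}

theorem ZE_comm (a b : V) : C.ZE a b = C.ZE b a := by simp [ZE, S_comm (C := C) a b]

theorem conj_mem_ZE {a b : V} {g x : G} (hx : x ∈ C.ZE a b) :
    g * x * g⁻¹ ∈ C.ZE (g • a) (g • b) := by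
  refine ⟨conj_mem_S hx.1, by rw [show g * x * g⁻¹ * (g * x * g⁻¹) = g * (x * x) * g⁻¹ by group,
    hx.2.1, mul_one, mul_inv_cancel], fun s hs => ?_⟩
  have h1 := conj_mem_S (g := g⁻¹) hs
  rw [inv_inv, inv_smul_smul, inv_smul_smul] at h1
  have h2 := hx.2.2 _ h1
  calc s * (g * x * g⁻¹) = g * ((g⁻¹ * s * g) * x) * g⁻¹ := by group
    _ = g * (x * (g⁻¹ * s * g)) * g⁻¹ := by rw [h2]
    _ = (g * x * g⁻¹) * s := by group

/-- The subgroup generated by the central involutions of the edge stabilisers at a vertex. -/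
def ZV (C : Cubic G V) (a : V) : Subgroup G :=
  Subgroup.closure {x | ∃ c, C.Adj a c ∧ x ∈ C.ZE a c}

theorem ZE_le_Q (h2 : C.Char2) {a b : V} (hab : C.Adj a b) {x : G} (hx : x ∈ C.ZE a b) :
    x ∈ C.Q a :=
  h2 a x (mem_S.mp hx.1).1 fun q hq => hx.2.2 q (Q_le_S hab hq)

theorem ZV_le_Q (h2 : C.Char2) (a : V) : C.ZV a ≤ C.Q a :=
  (Subgroup.closure_le _).mpr fun _ ⟨_, hc, hx⟩ => ZE_le_Q h2 hc hx

theorem comm_ZV {a : V} {q x : G} (hq : q ∈ C.Q a) (hx : x ∈ C.ZV a) : q * x = x * q := by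
  have : C.ZV a ≤ Subgroup.centralizer {q} := (Subgroup.closure_le _).mpr
    fun y ⟨c, hc, hy⟩ => Subgroup.mem_centralizer_singleton_iff.mpr
      (hy.2.2 q (Q_le_S hc hq)).symm
  exact (Subgroup.mem_centralizer_singleton_iff.mp (this hx)).symm

theorem ZV_mul_self (h2 : C.Char2) {a : V} {x : G} (hx : x ∈ C.ZV a) : x * x = 1 := by
  induction hx using Subgroup.closure_induction with
  | mem y hy => obtain ⟨c, -, hy⟩ := hy; exact hy.2.1
  | one => exact mul_one 1
  | mul y z hy hz ihy ihz =>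
    have := comm_ZV (ZV_le_Q h2 a hy) hz
    rw [show y * z * (y * z) = y * (z * y) * z by group, ← this, ← mul_assoc, ihy, one_mul, ihz]
  | inv y _ ih => rw [← mul_inv_rev, ih, inv_one]

theorem conj_mem_ZV {a : V} {g x : G} (hx : x ∈ C.ZV a) : g * x * g⁻¹ ∈ C.ZV (g • a) := by
  induction hx using Subgroup.closure_induction with
  | mem y hy =>
    obtain ⟨c, hc, hy⟩ := hy
    exact Subgroup.subset_closure ⟨g • c, C.smul_adj g hc, conj_mem_ZE hy⟩
  | one => simp
  | mul y z _ _ ihy ihz => simpa [mul_assoc] using mul_mem ihy ihz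
  | inv y _ ih => simpa [mul_assoc] using inv_mem ih

theorem exists_ZE {a b : V} (hab : C.Adj a b) : ∃ x ∈ C.ZE a b, x ≠ 1 := by
  have := C.finite_S a b
  have hne : C.S a b ≠ ⊥ := by
    intro h
    obtain ⟨g, hga, hgb, hg⟩ := C.exists_swap hab
    obtain ⟨c, -, hc, -, hcb, -⟩ := C.exists_others hab
    have : g ∈ C.S a b := mem_S.mpr ⟨hga, hgb⟩
    rw [h, Subgroup.mem_bot] at this
    exact hg c hc hcb (by rw [this, one_smul])
  obtain ⟨k, hk, hk1, hk2, hkc⟩ := exists_central_involution (S := C.S a b) (K := C.S a b)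
    (C.two_group hab) le_rfl (fun s hs k hk => mul_mem (mul_mem hs hk) (inv_mem hs)) hne
  exact ⟨k, ⟨hk, hk2, hkc⟩, hk1⟩

theorem centralizer_ZV (h2 : C.Char2) (hnc : C.NoCentral) {a : V} {g : G} (hga : g • a = a)
    (hc : ∀ x ∈ C.ZV a, g * x = x * g) : g ∈ C.Q a := by
  refine ⟨hga, fun c hac => by_contra fun hgc => ?_⟩
  obtain ⟨x, hx, hx1⟩ := exists_ZE hac
  exact hx1 (hnc a c hac x hx.1 hx.2.1 (central_of_S hac hx.2.2
    (hc x (Subgroup.subset_closure ⟨c, hac, hx⟩)) hga hgc))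

theorem ZE_inter (hnc : C.NoCentral) {a b c : V} (hab : C.Adj a b) (hac : C.Adj a c)
    (hbc : b ≠ c) {x : G} (hx : x ∈ C.ZE a b) (hx' : x ∈ C.ZE a c) : x = 1 :=
  hnc a b hab x hx.1 hx.2.1 (central_of_S_S hab hac hbc hx.2.2 hx'.2.2)

/-- The length of a shortest walk along which the `ZV` of the start is not in the kernel at the
end. -/
noncomputable def bR (C : Cubic G V) : ℕ :=
  sInf {n | ∃ a c, C.Walk n a c ∧ ¬ C.ZV a ≤ C.Q c}

theorem bR_le {n : ℕ} {a c : V} (h : C.Walk n a c) (hn : n < C.bR) : C.ZV a ≤ C.Q c :=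
  by_contra fun hc => Nat.notMem_of_lt_sInf hn ⟨a, c, h, hc⟩

theorem bR_fix (h2 : C.Char2) {n : ℕ} {a c : V} (h : C.Walk n a c) (hn : n ≤ C.bR) {x : G}
    (hx : x ∈ C.ZV a) : x • c = c := by
  cases n with
  | zero => cases h; exact (ZV_le_Q h2 a hx).1
  | succ n =>
    obtain ⟨d, hd, hdc⟩ := h.unsnoc
    exact (bR_le hd (by omega) hx).2 c hdc

theorem exists_crit_residual (h2 : C.Char2) {a b : V} (hab : C.Adj a b) :
    1 ≤ C.bR ∧ ∃ p : ℕ → V, (∀ i, i < C.bR → C.Adj (p i) (p (i + 1))) ∧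
      ¬ C.ZV (p 0) ≤ C.Q (p C.bR) := by
  have hne : {n | ∃ a c, C.Walk n a c ∧ ¬ C.ZV a ≤ C.Q c}.Nonempty := by
    by_contra hcon
    obtain ⟨x, hx, hx1⟩ := exists_ZE hab
    refine hx1 (C.eq_one_of_fix_component (a := a) fun n c hc => ?_)
    by_contra hxc
    exact hcon ⟨n, a, c, hc, fun hle =>
      hxc (hle (Subgroup.subset_closure ⟨b, hab, hx⟩)).1⟩
  obtain ⟨a', c', hw, hnle⟩ := Nat.sInf_mem hne
  refine ⟨?_, ?_⟩
  · by_contra h0
    have h0' : C.bR = 0 := by omega
    change C.Walk C.bR a' c' at hw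
    rw [h0'] at hw
    cases hw
    exact hnle (ZV_le_Q h2 _)
  · obtain ⟨p, hp0, hpn, hp⟩ := hw.exists_fun
    exact ⟨p, hp, by rw [hp0, show p C.bR = c' from hpn]; exact hnle⟩

/-- Every edge has exactly one central involution. -/
theorem ZE_unique (h2 : C.Char2) (hnc : C.NoCentral) {a b : V} (hab : C.Adj a b) {x y : G}
    (hx : x ∈ C.ZE a b) (hy : y ∈ C.ZE a b) (hx1 : x ≠ 1) (hy1 : y ≠ 1) : x = y := by
  obtain ⟨hb1, p, hp, hnle⟩ := exists_crit_residual h2 hab
  obtain ⟨t, ht, htQ⟩ := SetLike.not_le_iff_exists.mp hnle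
  have hlast : C.Adj (p (C.bR - 1)) (p C.bR) := by
    simpa [Nat.sub_add_cancel hb1] using hp (C.bR - 1) (by omega)
  have hw : C.Walk C.bR (p 0) (p C.bR) := by
    simpa using walk_of_adj (i := 0) (n := C.bR) fun j _ hj => hp j (by omega)
  have htb : t • p C.bR = p C.bR := bR_fix h2 hw le_rfl ht
  obtain ⟨v, hv, hvt⟩ : ∃ v ∈ C.ZV (p C.bR), t * v ≠ v * t := by
    by_contra hcon
    push Not at hcon
    exact htQ (centralizer_ZV h2 hnc htb hcon)
  have h01 : C.Adj (p 0) (p 1) := hp 0 (by omega)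
  have hw1 : C.Walk (C.bR - 1) (p C.bR) (p 1) := by
    have h := walk_of_adj (i := 1) (n := C.bR - 1) fun j _ hj => hp j (by omega)
    rw [Nat.add_sub_cancel' hb1] at h
    exact h.rev
  have hv1 := bR_le hw1 (by omega) hv
  have hvS : v ∈ C.S (p 0) (p 1) := mem_S.mpr ⟨hv1.2 _ (C.symm h01), hv1.1⟩
  have hvQ : v ∉ C.Q (p 0) := fun h => hvt (comm_ZV h ht).symm
  set K := C.ZV (p 0) ⊓ Subgroup.centralizer {v} with hK
  have hKS : ∀ z ∈ K, ∀ s ∈ C.S (p 0) (p 1), s * z = z * s := by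
    intro z hz s hs
    exact Subgroup.mem_centralizer_singleton_iff.mp (S_le_of_Q_le h01
      (fun q hq => Subgroup.mem_centralizer_singleton_iff.mpr (comm_ZV hq hz.1)) hvS hvQ
      (Subgroup.mem_centralizer_singleton_iff.mpr
        (Subgroup.mem_centralizer_singleton_iff.mp hz.2).symm) hs)
  have : Finite (C.ZV (p 0)) :=
    C.finite_of_le fun z hz => mem_stabilizer_iff.mpr (ZV_le_Q h2 _ hz).1
  have hfinK : Finite K := Finite.of_injective (Subgroup.inclusion inf_le_left)
    (Subgroup.inclusion_injective (inf_le_left : K ≤ C.ZV (p 0)))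
  have hidx : Nat.card (C.ZV (p 0)) ≤ 2 * Nat.card K := by
    refine card_le_two_mul_inf fun z hz z' hz' hzc hzc' =>
      Subgroup.mem_centralizer_singleton_iff.mpr ?_
    have hS : ∀ z ∈ C.ZV (p 0), z ∈ C.S (p C.bR) (p (C.bR - 1)) := fun z hz =>
      mem_S.mpr ⟨bR_fix h2 hw le_rfl hz, bR_fix h2 (n := C.bR - 1) (by
        simpa using walk_of_adj (i := 0) (n := C.bR - 1) fun j _ hj => hp j (by omega))
        (by omega) hz⟩
    have hnQ : ∀ z, z ∉ Subgroup.centralizer {v} → z ∉ C.Q (p C.bR) := fun z hzc h =>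
      hzc (Subgroup.mem_centralizer_singleton_iff.mpr (comm_ZV h hv))
    exact comm_ZV (inv_mul_mem_Q (C.symm hlast) (hS z hz) (hnQ z hzc) (hS z' hz')
      (hnQ z' hzc')) hv
  obtain ⟨g, hg0, hg1⟩ : ∃ g : G, g • p 0 = p 0 ∧ g • p 1 ≠ p 1 := by
    obtain ⟨c, -, hc, -, hc1, -⟩ := C.exists_others h01
    obtain ⟨g, hga, hgb⟩ := C.trans_nbr h01 hc
    exact ⟨g, hga, fun h => hc1 (hgb.symm.trans h)⟩
  let f : K × K → C.ZV (p 0) := fun z => ⟨z.1 * (g * z.2 * g⁻¹), mul_mem z.1.2.1 (by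
    have := conj_mem_ZV (g := g) z.2.2.1
    rwa [hg0] at this)⟩
  have hf : Function.Injective f := by
    intro z z' h
    have h : (z.1 : G) * (g * z.2 * g⁻¹) = z'.1 * (g * z'.2 * g⁻¹) := congrArg Subtype.val h
    set w : G := (z'.1 : G)⁻¹ * z.1 with hw'
    have hw2 : w = g * ((z'.2 : G) * (z.2 : G)⁻¹) * g⁻¹ := by
      rw [hw', eq_comm, inv_mul_eq_iff_eq_mul.mpr]
      rw [show (z'.1 : G) * (g * ((z'.2 : G) * (z.2 : G)⁻¹) * g⁻¹) =
        z'.1 * (g * z'.2 * g⁻¹) * (g * z.2 * g⁻¹)⁻¹ by group, ← h, mul_inv_cancel_right]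
    have hwK : w ∈ K := K.mul_mem (K.inv_mem z'.1.2) z.1.2
    have hu : (z'.2 : G) * (z.2 : G)⁻¹ ∈ K := K.mul_mem z'.2.2 (K.inv_mem z.2.2)
    have hZE : ∀ u ∈ K, u ∈ C.ZE (p 0) (p 1) := fun u hu =>
      ⟨Q_le_S h01 (ZV_le_Q h2 _ hu.1), ZV_mul_self h2 hu.1, hKS u hu⟩
    have hw1' : w = 1 := by
      have h' := conj_mem_ZE (g := g) (hZE _ hu)
      rw [← hw2, hg0] at h'
      exact ZE_inter hnc h01 (by simpa [hg0] using C.smul_adj g h01) hg1.symm (hZE w hwK) h'
    have e1 : z.1 = z'.1 := Subtype.ext (inv_mul_eq_one.mp (hw'.symm.trans hw1')).symm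
    refine Prod.ext e1 (Subtype.ext ?_)
    rw [e1] at h
    exact mul_left_cancel (mul_right_cancel (mul_left_cancel h))
  have hcard := Nat.card_le_card_of_injective f hf
  rw [Nat.card_prod] at hcard
  have hK2 : Nat.card K ≤ 2 := by
    have : 0 < Nat.card K := Nat.card_pos
    nlinarith
  have huniq : ∀ u w, u ∈ C.ZE (p 0) (p 1) → w ∈ C.ZE (p 0) (p 1) → u ≠ 1 → w ≠ 1 → u = w := by
    intro u w hu hw hu1 hw1
    by_contra hne
    have hmem : ∀ u ∈ C.ZE (p 0) (p 1), u ∈ K := fun u hu =>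
      ⟨Subgroup.subset_closure ⟨p 1, h01, hu⟩,
        Subgroup.mem_centralizer_singleton_iff.mpr (hu.2.2 v hvS).symm⟩
    have h3 : ({1, ⟨u, hmem u hu⟩, ⟨w, hmem w hw⟩} : Set K).ncard = 3 :=
      Set.ncard_eq_three.mpr ⟨_, _, _, by simpa [Subtype.ext_iff] using Ne.symm hu1,
        by simpa [Subtype.ext_iff] using Ne.symm hw1, by simpa [Subtype.ext_iff] using hne, rfl⟩
    have := Set.ncard_le_card ({1, ⟨u, hmem u hu⟩, ⟨w, hmem w hw⟩} : Set K)
    omega
  have key : ∀ g : G, ∀ x y, x ∈ C.ZE (g • p 0) (g • p 1) → y ∈ C.ZE (g • p 0) (g • p 1) →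
      x ≠ 1 → y ≠ 1 → x = y := by
    intro g x y hx hy hx1 hy1
    have h := huniq (g⁻¹ * x * g) (g⁻¹ * y * g) (by simpa using conj_mem_ZE (g := g⁻¹) hx)
      (by simpa using conj_mem_ZE (g := g⁻¹) hy)
      (fun h => hx1 (by simpa [mul_assoc] using congrArg (fun e => g * e * g⁻¹) h))
      (fun h => hy1 (by simpa [mul_assoc] using congrArg (fun e => g * e * g⁻¹) h))
    exact mul_left_cancel (mul_right_cancel h)
  by_cases hty : C.typ (p 0) = C.typ a
  · obtain ⟨g, hg⟩ := C.trans _ _ hty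
    obtain ⟨k, hka, hkb⟩ := C.trans_nbr (show C.Adj a (g • p 1) by
      simpa [hg] using C.smul_adj g h01) hab
    apply key (k * g) <;> simpa [mul_smul, hg, hka, hkb]
  · have hty' : C.typ (p 0) = C.typ b := by
      rw [C.flip hab]
      cases ha : C.typ a <;> cases hc : C.typ (p 0) <;> simp_all
    obtain ⟨g, hg⟩ := C.trans _ _ hty'
    obtain ⟨k, hkb, hka⟩ := C.trans_nbr (show C.Adj b (g • p 1) by
      simpa [hg] using C.smul_adj g h01) (C.symm hab)
    rw [ZE_comm] at hx hy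
    apply key (k * g) <;> simpa [mul_smul, hg, hka, hkb]

theorem ZV_cases (h2 : C.Char2) (hnc : C.NoCentral) {a : V} {x : G} (hx : x ∈ C.ZV a) :
    x = 1 ∨ ∃ c, C.Adj a c ∧ x ∈ C.ZE a c := by
  induction hx using Subgroup.closure_induction with
  | mem y hy => exact Or.inr hy
  | one => exact Or.inl rfl
  | inv y hy ih =>
    have : y⁻¹ = y := inv_eq_of_mul_eq_one_right (ZV_mul_self h2 hy)
    rwa [this]
  | mul y z hy hz ihy ihz =>
    rcases eq_or_ne y 1 with rfl | hy1
    · rwa [one_mul]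
    rcases eq_or_ne z 1 with rfl | hz1
    · rwa [mul_one]
    obtain ⟨c, hc, hyc⟩ := ihy.resolve_left hy1
    obtain ⟨d, hd, hzd⟩ := ihz.resolve_left hz1
    rcases eq_or_ne c d with rfl | hcd
    · rw [ZE_unique h2 hnc hc hyc hzd hy1 hz1]
      exact Or.inl hzd.2.1
    obtain ⟨e, he, hec, hed, hall⟩ := C.exists_third hc hd hcd
    obtain ⟨w, hw, hw1⟩ := exists_ZE he
    classical
    let f : V → G := fun i => if i = c then y else if i = d then z else w
    have hfm : ∀ i, C.Adj a i → f i ∈ C.ZE a i ∧ f i ≠ 1 := by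
      intro i hi
      rcases hall i hi with rfl | rfl | rfl
      · simp [f, hyc, hy1]
      · simp [f, hcd.symm, hzd, hz1]
      · simp [f, hec, hed, hw, hw1]
    have hcomm : ∀ i j, C.Adj a i → C.Adj a j → f i * f j = f j * f i := fun i j hi hj =>
      comm_ZV (ZE_le_Q h2 hi (hfm i hi).1) (Subgroup.subset_closure ⟨j, hj, (hfm j hj).1⟩)
    have hprod : f c * f d * f e = 1 := by
      have hmem : f c * f d * f e ∈ C.ZV a := mul_mem (mul_mem
        (Subgroup.subset_closure ⟨c, hc, (hfm c hc).1⟩)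
        (Subgroup.subset_closure ⟨d, hd, (hfm d hd).1⟩))
        (Subgroup.subset_closure ⟨e, he, (hfm e he).1⟩)
      refine hnc a c hc _ (Q_le_S hc (ZV_le_Q h2 a hmem)) (ZV_mul_self h2 hmem) fun g hg => ?_
      have hnb : ∀ i, C.Adj a i → C.Adj a (g • i) := fun i hi => by
        simpa [hg] using C.smul_adj g hi
      have hconj : ∀ i, C.Adj a i → g * f i * g⁻¹ = f (g • i) := by
        intro i hi
        refine ZE_unique h2 hnc (hnb i hi) (by simpa [hg] using conj_mem_ZE (g := g) (hfm i hi).1)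
          (hfm _ (hnb i hi)).1 (fun h => (hfm i hi).2 (conj_eq_one_iff.mp h))
          (hfm _ (hnb i hi)).2
      have h3 := prod_three f (hcomm c d hc hd) (hcomm c e hc he) (hcomm d e hd he)
        (hall _ (hnb c hc)) (hall _ (hnb d hd)) (hall _ (hnb e he))
        (fun h => hcd (smul_left_cancel g h)) (fun h => hec (smul_left_cancel g h).symm)
        (fun h => hed (smul_left_cancel g h).symm)
      rw [← hconj c hc, ← hconj d hd, ← hconj e he] at h3
      have h3' : g * (f c * f d * f e) * g⁻¹ = f c * f d * f e := by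
        conv_rhs => rw [← h3]
        group
      calc g * (f c * f d * f e) = g * (f c * f d * f e) * g⁻¹ * g := by group
        _ = _ := by rw [h3']
    refine Or.inr ⟨e, he, ?_⟩
    have hfc : f c = y := by simp [f]
    have hfd : f d = z := by simp [f, hcd.symm]
    have hfe : f e = w := by simp [f, hec, hed]
    rw [hfc, hfd, hfe] at hprod
    rwa [mul_eq_one_iff_eq_inv.mp hprod, inv_eq_of_mul_eq_one_right hw.2.1]

/-- An element of an edge stabiliser acts on `ZV` modulo the central involution of the edge. -/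
theorem conj_ZV (h2 : C.Char2) (hnc : C.NoCentral) {a c : V} (hac : C.Adj a c) {g x u : G}
    (hg : g ∈ C.S a c) (hx : x ∈ C.ZV a) (hu : u ∈ C.ZE a c) (hu1 : u ≠ 1) :
    g * x * g⁻¹ = x ∨ g * x * g⁻¹ = x * u := by
  obtain ⟨hga, hgc⟩ := mem_S.mp hg
  rcases ZV_cases h2 hnc hx with rfl | ⟨d, hd, hxd⟩
  · simp
  rcases eq_or_ne x 1 with rfl | hx1
  · simp
  have hne : g * x * g⁻¹ ≠ 1 := fun h => hx1 (conj_eq_one_iff.mp h)
  have hz : g * x * g⁻¹ ∈ C.ZV a := by
    have := conj_mem_ZV (g := g) hx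
    rwa [hga] at this
  have hgx : g * x * g⁻¹ ∈ C.ZE a (g • d) := by
    have := conj_mem_ZE (g := g) hxd
    rwa [hga] at this
  have hgd : C.Adj a (g • d) := by simpa [hga] using C.smul_adj g hd
  by_cases heq : g • d = d
  · rw [heq] at hgx
    exact Or.inl (ZE_unique h2 hnc hd hgx hxd hne hx1)
  have hdc : d ≠ c := fun h => heq (by rw [h, hgc])
  have hgdc : g • d ≠ c := fun h => hdc (smul_left_cancel g (h.trans hgc.symm))
  right
  have hxu : x * u ∈ C.ZV a := mul_mem hx (Subgroup.subset_closure ⟨c, hac, hu⟩)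
  rcases ZV_cases h2 hnc hxu with h | ⟨e, he, hxe⟩
  · exfalso
    have : x = u := by rw [mul_eq_one_iff_eq_inv.mp h, inv_eq_of_mul_eq_one_right hu.2.1]
    exact hx1 (ZE_inter hnc hd hac hdc hxd (this ▸ hu))
  have hxu1 : x * u ≠ 1 := fun h => hx1 (ZE_inter hnc hd hac hdc hxd (by
    rwa [show x = u by rw [mul_eq_one_iff_eq_inv.mp h, inv_eq_of_mul_eq_one_right hu.2.1]]))
  have hec : e ≠ c := fun h => by
    subst h
    have := ZE_unique h2 hnc hac hxe hu hxu1 hu1
    exact hx1 (mul_eq_right.mp this)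
  have hed : e ≠ d := fun h => by
    subst h
    have := ZE_unique h2 hnc hd hxe hxd hxu1 hx1
    exact hu1 (mul_eq_left.mp this)
  obtain rfl : g • d = e := eq_third hac hd hdc.symm hgd hgdc heq he hec hed
  exact ZE_unique h2 hnc hgd hgx hxe hne hxu1

theorem bound_of_noCentral (h2 : C.Char2) (hnc : C.NoCentral) {a₀ b₀ : V}
    (hab : C.Adj a₀ b₀) : C.Bound := by
  obtain ⟨hb1, p, hp, hnle⟩ := exists_crit_residual h2 hab
  obtain ⟨t, ht, htQ⟩ := SetLike.not_le_iff_exists.mp hnle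
  have hwalk : ∀ n i, i + n ≤ C.bR → C.Walk n (p i) (p (i + n)) := fun n i h =>
    walk_of_adj fun j _ hj => hp j (by omega)
  have hw : C.Walk C.bR (p 0) (p C.bR) := by simpa using hwalk C.bR 0 (by omega)
  have h01 : C.Adj (p 0) (p 1) := hp 0 (by omega)
  obtain ⟨u, hu, hu1⟩ := exists_ZE h01
  rcases Nat.lt_or_ge C.bR 2 with hb | hb
  · have hb' : C.bR = 1 := by omega
    rw [hb'] at htQ
    have htS : t ∈ C.S (p 1) (p 0) := by
      rw [S_comm]; exact Q_le_S h01 (ZV_le_Q h2 _ ht)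
    obtain ⟨c, -, hc, -, hc0, -⟩ := C.exists_others (C.symm h01)
    obtain ⟨g, hg1, hg0⟩ := C.trans_nbr (C.symm h01) hc
    have hq : ∀ q ∈ C.Q (p 1), ∀ k ∈ C.Q (p 1), k * t = t * k →
        k * (q⁻¹ * t * q) = q⁻¹ * t * q * k := by
      intro q hq k hk hkt
      have hqS : q⁻¹ ∈ C.S (p 0) (p 1) := inv_mem (Q_le_S' (C.symm h01) hq)
      rcases conj_ZV h2 hnc h01 hqS ht hu hu1 with h | h <;> rw [inv_inv] at h <;> rw [h]
      · exact hkt
      · rw [← mul_assoc, hkt, mul_assoc, hu.2.2 k (Q_le_S' (C.symm h01) hk), ← mul_assoc]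
    set t' := g * t * g⁻¹ with ht'
    have hq' : ∀ q ∈ C.Q (p 1), ∀ k ∈ C.Q (p 1), k * t' = t' * k →
        k * (q⁻¹ * t' * q) = q⁻¹ * t' * q * k := by
      intro q hq0 k hk hkt
      have hgi : g⁻¹ • p 1 = p 1 := by rw [inv_smul_eq_iff, hg1]
      have h := hq _ (conj_mem_Q_self hgi hq0) _ (conj_mem_Q_self hgi hk) (by
        rw [inv_inv]
        calc g⁻¹ * k * g * t = g⁻¹ * (k * t') * g := by rw [ht']; group
          _ = g⁻¹ * (t' * k) * g := by rw [hkt]
          _ = t * (g⁻¹ * k * g) := by rw [ht']; group)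
      have := congrArg (fun z => g * z * g⁻¹) h
      simp only [ht'] at this ⊢
      group at this ⊢
      exact this
    let K : Subgroup G :=
      C.Q (p 1) ⊓ Subgroup.centralizer {t} ⊓ Subgroup.centralizer {t'}
    have hKn : ∀ q ∈ C.Q (p 1), ∀ k ∈ K, q * k * q⁻¹ ∈ K := by
      intro q hq0 k hk
      obtain ⟨⟨hkQ, hkt⟩, hkt'⟩ := hk
      have key : ∀ z, k * (q⁻¹ * z * q) = q⁻¹ * z * q * k →
          q * k * q⁻¹ ∈ Subgroup.centralizer {z} := by
        intro z hz
        rw [Subgroup.mem_centralizer_singleton_iff]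
        calc q * k * q⁻¹ * z = q * (k * (q⁻¹ * z * q)) * q⁻¹ := by group
          _ = q * (q⁻¹ * z * q * k) * q⁻¹ := by rw [hz]
          _ = z * (q * k * q⁻¹) := by group
      exact ⟨⟨(C.Q (p 1)).mul_mem ((C.Q (p 1)).mul_mem hq0 hkQ) ((C.Q (p 1)).inv_mem hq0),
        key t (hq q hq0 k hkQ (Subgroup.mem_centralizer_singleton_iff.mp hkt))⟩,
        key t' (hq' q hq0 k hkQ (Subgroup.mem_centralizer_singleton_iff.mp hkt'))⟩
    have : Finite (C.Q (p 1)) := C.finite_of_le fun x hx => mem_stabilizer_iff.mpr hx.1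
    have hK : K = ⊥ := by
      by_contra hK
      obtain ⟨k, hk, hk1, hk2, hkc⟩ := exists_central_involution
        ((C.two_group (C.symm h01)).to_le (Q_le_S (C.symm h01)))
        (inf_le_left.trans inf_le_left) hKn hK
      obtain ⟨⟨hkQ, hkt⟩, hkt'⟩ := hk
      have hS : ∀ s ∈ C.S (p 1) (p 0), s * k = k * s := fun s hs =>
        Subgroup.mem_centralizer_singleton_iff.mp (S_le_of_Q_le (C.symm h01)
          (fun q hq => Subgroup.mem_centralizer_singleton_iff.mpr (hkc q hq)) htS htQ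
          (Subgroup.mem_centralizer_singleton_iff.mpr
            (Subgroup.mem_centralizer_singleton_iff.mp hkt).symm) hs)
      have ht'Q : t' ∉ C.Q (p 1) := fun h => htQ (by
        have h' : g * t * g⁻¹ ∈ C.Q (g • p 1) := by rw [hg1]; exact h
        exact conj_mem_Q_iff.mp h')
      have ht'S : t' ∈ C.S (p 1) c := by
        have := conj_mem_S (g := g) htS
        rwa [hg1, hg0] at this
      exact hk1 (hnc _ _ (C.symm h01) k (Q_le_S (C.symm h01) hkQ) hk2 (central_of_S
        (C.symm h01) hS (Subgroup.mem_centralizer_singleton_iff.mp hkt').symm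
        (mem_S.mp ht'S).1 (smul_ne_of_notMem_Q hc ht'S ht'Q (C.symm h01) hc0.symm)))
    have step1 : Nat.card (C.Q (p 1)) ≤
        2 * Nat.card (C.Q (p 1) ⊓ Subgroup.centralizer {t} : Subgroup G) := by
      refine card_le_two_mul_inf fun x hx y hy hxt hyt =>
        Subgroup.mem_centralizer_singleton_iff.mpr ?_
      have key : ∀ z ∈ C.Q (p 1), z ∉ Subgroup.centralizer {t} → z * t * z⁻¹ = t * u :=
        fun z hz hzt => (conj_ZV h2 hnc h01 (Q_le_S' (C.symm h01) hz) ht hu hu1).resolve_left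
          fun h => hzt (Subgroup.mem_centralizer_singleton_iff.mpr
            (mul_inv_eq_iff_eq_mul.mp h))
      have h := (key y hy hyt).trans (key x hx hxt).symm
      calc x⁻¹ * y * t = x⁻¹ * (y * t * y⁻¹) * y := by group
        _ = x⁻¹ * (x * t * x⁻¹) * y := by rw [h]
        _ = t * (x⁻¹ * y) := by group
    have step2 : Nat.card (C.Q (p 1) ⊓ Subgroup.centralizer {t} : Subgroup G) ≤
        2 * Nat.card K := by
      have : Finite (C.Q (p 1) ⊓ Subgroup.centralizer {t} : Subgroup G) :=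
        C.finite_of_le fun x hx => mem_stabilizer_iff.mpr hx.1.1
      refine card_le_two_mul_inf fun x hx y hy hxt hyt =>
        Subgroup.mem_centralizer_singleton_iff.mpr ?_
      have hgu := conj_mem_ZE (g := g) hu
      have hgu1 : g * u * g⁻¹ ≠ 1 := fun h => hu1 (conj_eq_one_iff.mp h)
      rw [hg1, hg0] at hgu
      have key : ∀ z ∈ C.Q (p 1), z ∉ Subgroup.centralizer {t'} →
          z * t' * z⁻¹ = t' * (g * u * g⁻¹) :=
        fun z hz hzt => (conj_ZV h2 hnc (C.symm hc) (Q_le_S' hc hz)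
          (by have := conj_mem_ZV (g := g) ht; rwa [hg0] at this)
          hgu hgu1).resolve_left
          fun h => hzt (Subgroup.mem_centralizer_singleton_iff.mpr
            (mul_inv_eq_iff_eq_mul.mp h))
      have h := (key y hy.1 hyt).trans (key x hx.1 hxt).symm
      calc x⁻¹ * y * t' = x⁻¹ * (y * t' * y⁻¹) * y := by group
        _ = x⁻¹ * (x * t' * x⁻¹) * y := by rw [h]
        _ = t' * (x⁻¹ * y) := by group
    rw [hK, Subgroup.card_bot] at step2
    refine bound_of_edge (C.symm h01) ?_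
    have := C.card_S_le (C.symm h01)
    omega
  · exfalso
    set n := C.bR with hn
    have hlast : C.Adj (p (n - 1)) (p n) := by
      simpa [Nat.sub_add_cancel hb1] using hp (n - 1) (by omega)
    obtain ⟨v, hv, hvt⟩ : ∃ v ∈ C.ZV (p n), t * v ≠ v * t := by
      by_contra hcon
      push Not at hcon
      exact htQ (centralizer_ZV h2 hnc (bR_fix h2 hw le_rfl ht) hcon)
    have hwrev : ∀ i, i ≤ n → C.Walk (n - i) (p n) (p i) := fun i hi => by
      have := (hwalk (n - i) i (by omega)).rev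
      rwa [Nat.add_sub_cancel' hi] at this
    have hv1 := bR_le (hwrev 1 (by omega)) (by omega) hv
    have hv0 : v • p 0 = p 0 := hv1.2 _ (C.symm h01)
    have hvS : v ∈ C.S (p 0) (p 1) := mem_S.mpr ⟨hv0, hv1.1⟩
    have hvQ : v ∉ C.Q (p 0) := fun h => hvt (comm_ZV h ht).symm
    obtain ⟨e, he, he1⟩ := exists_ZE hlast
    have hvmid := bR_le (hwrev (n - 1) (by omega)) (by omega) hv
    -- the common commutator
    have hwu : v * t * v⁻¹ = t * u :=
      (conj_ZV h2 hnc h01 hvS ht hu hu1).resolve_left fun h =>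
        hvt (mul_inv_eq_iff_eq_mul.mp h).symm
    obtain ⟨δ, -, hδ, -, hδ1, -⟩ := C.exists_others h01
    have hvδ : v • δ ≠ δ := smul_ne_of_notMem_Q h01 hvS hvQ hδ hδ1
    obtain ⟨f, hf, hf1⟩ := exists_ZE hδ
    have hfvf : v * f * v⁻¹ ≠ f := by
      intro h
      have h' := conj_mem_ZE (g := v) hf
      rw [hv0, h] at h'
      exact hf1 (ZE_inter hnc hδ (by simpa [hv0] using C.smul_adj v hδ) hvδ.symm hf h')
    have hwδ : ∀ i, i + 1 ≤ n → C.Walk (i + 1) δ (p i) := fun i hi => by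
      have := Walk.cons (C.symm hδ) (by simpa using hwalk i 0 (by omega))
      exact this
    by_cases hcase : C.ZV δ ≤ C.Q (p (n - 1))
    · -- `ZV δ` is normalised by `v` modulo `ZV (p 0)`
      have hfix : ∀ z ∈ C.ZV δ, z ∈ C.S (p n) (p (n - 1)) := fun z hz =>
        mem_S.mpr ⟨(hcase hz).2 _ hlast, (hcase hz).1⟩
      have htS : t ∈ C.S (p n) (p (n - 1)) :=
        mem_S.mpr ⟨bR_fix h2 hw le_rfl ht,
          bR_fix h2 (by simpa using hwalk (n - 1) 0 (by omega)) (by omega) ht⟩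
      let Y := C.ZV (p 0) ⊔ C.ZV δ
      have huY : u ∈ Y := Subgroup.mem_sup_left (Subgroup.subset_closure ⟨p 1, h01, hu⟩)
      have hvδY : ∀ z ∈ C.ZV δ, v * z * v⁻¹ ∈ Y := by
        intro z hz
        by_cases hzQ : z ∈ C.Q (p n)
        · rw [← comm_ZV hzQ hv, mul_inv_cancel_right]
          exact Subgroup.mem_sup_right hz
        · have h := comm_ZV (inv_mul_mem_Q (C.symm hlast) htS htQ (hfix z hz) hzQ) hv
          have hz' : v * z * v⁻¹ = v * t * v⁻¹ * (t⁻¹ * z) := by
            calc v * z * v⁻¹ = v * t * ((t⁻¹ * z) * v⁻¹) := by group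
              _ = v * t * (v⁻¹ * (t⁻¹ * z)) := by
                rw [(Commute.inv_right (show Commute (t⁻¹ * z) v from h)).eq]
              _ = _ := by group
          rw [hz', hwu]
          exact mul_mem (mul_mem (Subgroup.mem_sup_left ht) huY) (mul_mem
            (inv_mem (Subgroup.mem_sup_left ht)) (Subgroup.mem_sup_right hz))
      have hYS : Y ≤ C.S (p 0) δ := sup_le (fun z hz => Q_le_S hδ (ZV_le_Q h2 _ hz))
        fun z hz => Q_le_S' (C.symm hδ) (ZV_le_Q h2 _ hz)
      have : Finite Y := C.finite_of_le (hYS.trans S_le_left)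
      have hnY : stabilizer G (p 0) ≤ Subgroup.normalizer (Y : Set G) := by
        refine stab_le_of_S_le hδ (fun s hs => mem_normalizer_of_conj ?_)
          (mem_normalizer_of_conj ?_) hv0 hvδ
        · have hsub : Y ≤ Y.comap (MulAut.conj s).toMonoidHom := sup_le
            (fun z hz => Subgroup.mem_sup_left (by
              simpa [(mem_S.mp hs).1] using conj_mem_ZV (g := s) hz))
            (fun z hz => Subgroup.mem_sup_right (by
              simpa [(mem_S.mp hs).2] using conj_mem_ZV (g := s) hz))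
          exact fun z hz => hsub hz
        · have hsub : Y ≤ Y.comap (MulAut.conj v).toMonoidHom := sup_le
            (fun z hz => Subgroup.mem_sup_left (by
              simpa [hv0] using conj_mem_ZV (g := v) hz))
            hvδY
          exact fun z hz => hsub hz
      -- `Q (p 0)` centralises `ZV δ`
      have hcen : ∀ q ∈ C.Q (p 0), ∀ z ∈ Y,
          q * z * q⁻¹ = z ∨ q * z * q⁻¹ = z * f := by
        intro q hq
        have hqS : q ∈ C.S δ (p 0) := Q_le_S' hδ hq
        have hfc : ∀ z ∈ Y, z * f = f * z := fun z hz => hf.2.2 z (hYS hz)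
        have hqf : q * f * q⁻¹ = f := by rw [hf.2.2 q (Q_le_S hδ hq), mul_inv_cancel_right]
        let M : Subgroup G :=
          { carrier := {z | z * f = f * z ∧ (q * z * q⁻¹ = z ∨ q * z * q⁻¹ = z * f)}
            one_mem' := by simp
            mul_mem' := by
              intro x y hx hy
              refine ⟨by rw [mul_assoc, hy.1, ← mul_assoc, hx.1, mul_assoc], ?_⟩
              have e : q * (x * y) * q⁻¹ = q * x * q⁻¹ * (q * y * q⁻¹) := by group
              have e2 : x * f * (y * f) = x * y := by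
                rw [mul_assoc x f, ← mul_assoc f y f, ← hy.1, mul_assoc y f f, hf.2.1, mul_one]
              rcases hx.2 with h | h <;> rcases hy.2 with h' | h' <;> rw [e, h, h']
              · exact Or.inl rfl
              · exact Or.inr (by rw [mul_assoc])
              · exact Or.inr (by rw [mul_assoc, ← hy.1, mul_assoc])
              · exact Or.inl e2
            inv_mem' := by
              intro x hx
              refine ⟨((show Commute x f from hx.1).inv_left).eq, ?_⟩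
              have e : q * x⁻¹ * q⁻¹ = (q * x * q⁻¹)⁻¹ := by group
              rcases hx.2 with h | h <;> rw [e, h]
              · exact Or.inl rfl
              · refine Or.inr ?_
                rw [mul_inv_rev, inv_eq_of_mul_eq_one_right hf.2.1,
                  ((show Commute x f from hx.1).inv_left).eq] }
        have hYM : Y ≤ M := sup_le
          (fun z hz => ⟨hfc z (Subgroup.mem_sup_left hz), Or.inl (by
            rw [comm_ZV hq hz, mul_inv_cancel_right])⟩)
          (fun z hz => ⟨hfc z (Subgroup.mem_sup_right hz),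
            conj_ZV h2 hnc (C.symm hδ) hqS hz (by rwa [ZE_comm]) hf1⟩)
        exact fun z hz => (hYM hz).2
      obtain ⟨q, hqQ, hqδ⟩ : ∃ q ∈ C.Q (p 0), q ∉ C.Q δ := by
        by_contra hcon
        push Not at hcon
        refine (fun hle => ?_) (show C.Q (p 0) ≤ C.Q δ from hcon)
        obtain ⟨s, hsδ, hs0, hs⟩ := C.exists_swap (C.symm hδ)
        obtain ⟨r, hr0, hrδ, hr⟩ := C.exists_swap hδ
        obtain ⟨e', -, he', -, he0, -⟩ := C.exists_others (C.symm hδ)
        by_cases hsQ : s ∈ C.Q (p 0)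
        · exact hs e' he' he0 ((hle hsQ).2 e' he')
        -- `s ∉ Q (p 0)`, so the two kernels coincide
        have heq : C.Q δ = C.Q (p 0) := by
          refine le_antisymm (fun x hx => by_contra fun hx0 => ?_) hle
          have hsS : s ∈ C.S (p 0) δ := mem_S.mpr ⟨hs0, hsδ⟩
          have h := inv_mul_mem_Q hδ (Q_le_S' (C.symm hδ) hx) hx0 hsS hsQ
          have : s ∈ C.Q δ := by simpa using mul_mem hx (hle h)
          exact hs e' he' he0 (this.2 e' he')
        have hbot : C.Q (p 0) = ⊥ := C.eq_bot_of_conj hδ (Q_le_S hδ)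
          (fun g hg n hn => conj_mem_Q_self hg hn)
          (fun g hg n hn => by rw [← heq] at hn ⊢; exact conj_mem_Q_self hg hn)
        have hr' := h2 (p 0) r hr0 (by rw [hbot]; simp)
        obtain ⟨e'', -, he'', -, he''δ, -⟩ := C.exists_others hδ
        exact hr e'' he'' he''δ (hr'.2 e'' he'')
      refine hqδ (centralizer_ZV h2 hnc ((hqQ).2 δ hδ) fun z hz => ?_)
      have hzY : z ∈ Y := Subgroup.mem_sup_right hz
      rcases hcen q hqQ z hzY with h | h
      · exact mul_inv_eq_iff_eq_mul.mp h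
      · exfalso
        have hz' : v * z * v⁻¹ ∈ Y :=
          ((Subgroup.mem_normalizer_iff.mp (hnY (mem_stabilizer_iff.mpr hv0))) z).mp hzY
        have hq' := conj_mem_Q_self hv0 hqQ
        have e : v * q * v⁻¹ * (v * z * v⁻¹) * (v * q * v⁻¹)⁻¹ =
            v * (q * z * q⁻¹) * v⁻¹ := by group
        rw [h, show v * (z * f) * v⁻¹ = v * z * v⁻¹ * (v * f * v⁻¹) by group] at e
        rcases hcen _ hq' _ hz' with h' | h'
        · have h1 := (h'.symm.trans e)
          have : v * f * v⁻¹ = 1 := mul_eq_left.mp h1.symm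
          exact hf1 (conj_eq_one_iff.mp this)
        · exact hfvf (mul_left_cancel (h'.symm.trans e)).symm
    · -- a critical walk starting at `δ`
      obtain ⟨t', ht', ht'Q⟩ := SetLike.not_le_iff_exists.mp hcase
      have hw' : C.Walk n δ (p (n - 1)) := by
        simpa [Nat.sub_add_cancel hb1] using hwδ (n - 1) (by omega)
      have hpm : C.Adj (p (n - 2)) (p (n - 1)) := by
        have := hp (n - 2) (by omega)
        rwa [show n - 2 + 1 = n - 1 by omega] at this
      obtain ⟨e₂, he₂, he₂1⟩ := exists_ZE hpm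
      obtain ⟨v', hv', hv't⟩ : ∃ v' ∈ C.ZV (p (n - 1)), t' * v' ≠ v' * t' := by
        by_contra hcon
        push Not at hcon
        exact ht'Q (centralizer_ZV h2 hnc (bR_fix h2 hw' le_rfl ht') hcon)
      have hw0' : C.Walk (n - 1) (p (n - 1)) (p 0) := by
        simpa using (hwalk (n - 1) 0 (by omega)).rev
      have hv'0 := bR_le hw0' (by omega) hv'
      have hv'S : v' ∈ C.S δ (p 0) := mem_S.mpr ⟨hv'0.2 _ hδ, hv'0.1⟩
      have h1 : v' * t' * v'⁻¹ = t' * f :=
        (conj_ZV h2 hnc (C.symm hδ) hv'S ht' (by rwa [ZE_comm]) hf1).resolve_left fun h =>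
          hv't (mul_inv_eq_iff_eq_mul.mp h).symm
      have ht'm := bR_le (hwδ (n - 2) (by omega)) (by omega) ht'
      have ht'S : t' ∈ C.S (p (n - 1)) (p (n - 2)) :=
        mem_S.mpr ⟨bR_fix h2 hw' le_rfl ht', ht'm.1⟩
      have h2' : t' * v' * t'⁻¹ = v' * e₂ :=
        (conj_ZV h2 hnc (C.symm hpm) ht'S hv' (by rwa [ZE_comm]) he₂1).resolve_left fun h =>
          hv't (mul_inv_eq_iff_eq_mul.mp h)
      have hfe : f = e₂ := by
        have i1 : t'⁻¹ = t' := inv_eq_of_mul_eq_one_right (ZV_mul_self h2 ht')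
        have i2 : v'⁻¹ = v' := inv_eq_of_mul_eq_one_right (ZV_mul_self h2 hv')
        have a1 : f = t' * v' * t' * v' := by
          rw [show f = t'⁻¹ * (t' * f) by group, ← h1, i1, i2]; group
        have a2 : e₂ = v' * t' * v' * t' := by
          rw [show e₂ = v'⁻¹ * (v' * e₂) by group, ← h2', i1, i2]; group
        have a3 : f⁻¹ = v' * t' * v' * t' := by
          rw [a1]; simp [mul_inv_rev, i1, i2, mul_assoc]
        rw [a2, ← a3, inv_eq_of_mul_eq_one_right hf.2.1]
      have hvm : v ∈ C.S (p (n - 2)) (p (n - 1)) :=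
        mem_S.mpr ⟨hvmid.2 _ (C.symm hpm), hvmid.1⟩
      apply hfvf
      rw [hfe, he₂.2.2 v hvm, mul_inv_cancel_right]

end Residual

end CfsgLib.CubicAmalgam.Cubic
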