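/-
Central involutions of one type of vertex and the modules they generate at the other type.
-/
import Cfsg.Agent.Lib.CubicAmalgam.Small

set_option autoImplicit false

namespace CfsgLib.CubicAmalgam

open MulAction

variable {G : Type*} [Group G] {V : Type*} [MulAction G V]

/-- An equivariant choice of a central involution in the stabilisers of one type of vertex. -/
structure Choice (C : Cubic G V) where
  char2 : C.Char2
  β : Bool
  z : V → G
  z_smul : ∀ (g : G) (y : V), C.typ y = β → z (g • y) = g * z y * g⁻¹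
  z_mul_self : ∀ y : V, C.typ y = β → z y * z y = 1
  z_ne_one : ∀ y : V, C.typ y = β → z y ≠ 1
  z_mem : ∀ y : V, C.typ y = β → z y ∈ C.Q y

namespace Choice

open Cubic

variable {C : Cubic G V} (X : Choice C)

/-- The other type of vertex. -/
def IsA (a : V) : Prop := C.typ a = !X.β

/-- The type of vertex with chosen involution. -/
def IsB (y : V) : Prop := C.typ y = X.β

theorem choice_of_central (h2 : C.Char2) {a b : V} (hab : C.Adj a b) {z : G}
    (hzS : z ∈ C.S a b) (hz2 : z * z = 1) (hzc : ∀ g : G, g • a = a → g * z = z * g)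
    (hz1 : z ≠ 1) : ∃ X : Choice C, X.β = C.typ a ∧ X.z a = z := by
  have hzQ : z ∈ C.Q a := by
    refine ⟨(mem_S.mp hzS).1, fun c hc => ?_⟩
    obtain ⟨g, hga, hgc⟩ := C.trans_nbr hab hc
    rw [← hgc, ← mul_smul, ← hzc g hga, mul_smul, (mem_S.mp hzS).2]
  classical
  let zf : V → G := fun y => if h : C.typ a = C.typ y then
    Classical.choose (C.trans a y h) * z * (Classical.choose (C.trans a y h))⁻¹ else 1
  have key : ∀ g : G, zf (g • a) = g * z * g⁻¹ := by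
    intro g
    have h : C.typ a = C.typ (g • a) := (C.typ_smul g a).symm
    simp only [zf, dif_pos h]
    set k := Classical.choose (C.trans a (g • a) h)
    have hk : k • a = g • a := Classical.choose_spec (C.trans a (g • a) h)
    have h' := hzc (g⁻¹ * k) (by rw [mul_smul, hk, inv_smul_smul])
    calc k * z * k⁻¹ = g * (g⁻¹ * k * z) * k⁻¹ := by group
      _ = g * (z * (g⁻¹ * k)) * k⁻¹ := by rw [h']
      _ = g * z * g⁻¹ := by group
  refine ⟨⟨h2, C.typ a, zf, ?_, ?_, ?_, ?_⟩, rfl, by simpa using key 1⟩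
  · intro g y hy
    obtain ⟨k, rfl⟩ := C.trans a y hy.symm
    rw [← mul_smul, key, key]; group
  · intro y hy
    obtain ⟨k, rfl⟩ := C.trans a y hy.symm
    rw [key, show k * z * k⁻¹ * (k * z * k⁻¹) = k * (z * z) * k⁻¹ by group, hz2, mul_one,
      mul_inv_cancel]
  · intro y hy
    obtain ⟨k, rfl⟩ := C.trans a y hy.symm
    rw [key]
    exact fun h => hz1 (conj_eq_one_iff.mp h)
  · intro y hy
    obtain ⟨k, rfl⟩ := C.trans a y hy.symm
    rw [key]
    exact conj_mem_Q hzQ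

theorem exists_choice (h2 : C.Char2) (h : ¬ C.NoCentral) : Nonempty (Choice C) := by
  simp only [Cubic.NoCentral, not_forall] at h
  obtain ⟨a, b, hab, z, hzS, hz2, hzc, hz1⟩ := h
  obtain ⟨X, -, -⟩ := choice_of_central h2 hab hzS hz2 hzc hz1
  exact ⟨X⟩

variable {X}

theorem IsA.nbr {a y : V} (ha : X.IsA a) (h : C.Adj a y) : X.IsB y := by
  rw [IsB, C.flip h, ha, Bool.not_not]

theorem IsB.nbr {a y : V} (hy : X.IsB y) (h : C.Adj y a) : X.IsA a := by
  rw [IsA, C.flip h, hy]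

theorem IsA.smul {a : V} (ha : X.IsA a) (g : G) : X.IsA (g • a) := by
  rwa [IsA, C.typ_smul]

theorem IsB.smul {a : V} (ha : X.IsB a) (g : G) : X.IsB (g • a) := by
  rwa [IsB, C.typ_smul]

theorem z_inv {y : V} (hy : X.IsB y) : (X.z y)⁻¹ = X.z y :=
  inv_eq_of_mul_eq_one_right (X.z_mul_self y hy)

theorem z_comm {y : V} {g : G} (hy : X.IsB y) (hg : g • y = y) : g * X.z y = X.z y * g := by
  have h := X.z_smul g y hy
  rw [hg] at h
  conv_rhs => rw [h]
  group

theorem z_mem_Q_nbr {y a : V} (hy : X.IsB y) (h : C.Adj y a) : X.z y ∈ C.Q a :=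
  X.char2 a _ ((X.z_mem y hy).2 a h) fun _ hq => z_comm hy (hq.2 y (C.symm h))

theorem z_comm_z {a b c : V} (ha : X.IsA a) (hb : C.Adj a b) (hc : C.Adj a c) :
    X.z b * X.z c = X.z c * X.z b :=
  z_comm (ha.nbr hc) ((z_mem_Q_nbr (ha.nbr hb) (C.symm hb)).2 c hc)

theorem z_ne {a b c : V} (ha : X.IsA a) (hb : C.Adj a b) (hc : C.Adj a c) (hbc : b ≠ c) :
    X.z b ≠ X.z c := by
  intro h
  refine X.z_ne_one b (ha.nbr hb) (C.eq_one_of_central hb
    (Q_le_S hb (z_mem_Q_nbr (ha.nbr hb) (C.symm hb))) (fun g hg => ?_)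
    (fun g hg => z_comm (ha.nbr hb) hg))
  refine central_of_S_S hb hc hbc (fun s hs => z_comm (ha.nbr hb) (mem_S.mp hs).2)
    (fun s hs => ?_) g hg
  rw [h]
  exact z_comm (ha.nbr hc) (mem_S.mp hs).2

variable (X)

/-- The subgroup generated by the involutions of the neighbours. -/
def Z (a : V) : Subgroup G := Subgroup.closure {x | ∃ y, C.Adj a y ∧ x = X.z y}

variable {X}

theorem z_mem_Z {a y : V} (h : C.Adj a y) : X.z y ∈ X.Z a :=
  Subgroup.subset_closure ⟨y, h, rfl⟩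

theorem Z_le {a : V} {H : Subgroup G} (h : ∀ y, C.Adj a y → X.z y ∈ H) : X.Z a ≤ H :=
  (Subgroup.closure_le _).mpr fun _ ⟨y, hy, e⟩ => e ▸ h y hy

theorem Z_le_Q {a : V} (ha : X.IsA a) : X.Z a ≤ C.Q a :=
  Z_le fun _ hy => z_mem_Q_nbr (ha.nbr hy) (C.symm hy)

theorem comm_Z {a : V} (ha : X.IsA a) {q x : G} (hq : q ∈ C.Q a) (hx : x ∈ X.Z a) :
    q * x = x * q := by
  have : X.Z a ≤ Subgroup.centralizer {q} := Z_le fun y hy =>
    Subgroup.mem_centralizer_singleton_iff.mpr (z_comm (ha.nbr hy) (hq.2 y hy)).symm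
  exact (Subgroup.mem_centralizer_singleton_iff.mp (this hx)).symm

theorem Z_comm {a : V} (ha : X.IsA a) {x y : G} (hx : x ∈ X.Z a) (hy : y ∈ X.Z a) :
    x * y = y * x := comm_Z ha (Z_le_Q ha hx) hy

theorem Z_mul_self {a : V} (ha : X.IsA a) {x : G} (hx : x ∈ X.Z a) : x * x = 1 := by
  induction hx using Subgroup.closure_induction with
  | mem y hy => obtain ⟨c, hc, rfl⟩ := hy; exact X.z_mul_self c (ha.nbr hc)
  | one => exact mul_one 1
  | mul y z hy hz ihy ihz =>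
    rw [show y * z * (y * z) = y * (z * y) * z by group, ← Z_comm ha hy hz, ← mul_assoc, ihy,
      one_mul, ihz]
  | inv y _ ih => rw [← mul_inv_rev, ih, inv_one]

theorem Z_inv {a : V} (ha : X.IsA a) {x : G} (hx : x ∈ X.Z a) : x⁻¹ = x :=
  inv_eq_of_mul_eq_one_right (Z_mul_self ha hx)

theorem conj_mem_Z {a : V} (ha : X.IsA a) {g x : G} (hx : x ∈ X.Z a) :
    g * x * g⁻¹ ∈ X.Z (g • a) := by
  induction hx using Subgroup.closure_induction with
  | mem y hy =>
    obtain ⟨c, hc, rfl⟩ := hy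
    rw [← X.z_smul g c (ha.nbr hc)]
    exact z_mem_Z (C.smul_adj g hc)
  | one => simp
  | mul y z _ _ ihy ihz => simpa [mul_assoc] using mul_mem ihy ihz
  | inv y _ ih => simpa [mul_assoc] using inv_mem ih

theorem conj_mem_Z_self {a : V} (ha : X.IsA a) {g x : G} (hg : g • a = a) (hx : x ∈ X.Z a) :
    g * x * g⁻¹ ∈ X.Z a := by
  have := conj_mem_Z ha (g := g) hx
  rwa [hg] at this

theorem mem_Q_of_comm_Z {a : V} (ha : X.IsA a) {g : G} (hga : g • a = a)
    (h : ∀ x ∈ X.Z a, g * x = x * g) : g ∈ C.Q a := by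
  refine ⟨hga, fun y hy => by_contra fun hgy => ?_⟩
  have hgy' : C.Adj a (g • y) := by simpa [hga] using C.smul_adj g hy
  refine z_ne ha hgy' hy hgy ?_
  rw [X.z_smul g y (ha.nbr hy), h _ (z_mem_Z hy), mul_inv_cancel_right]

theorem Z_ne {a a' y : V} (hy : X.IsB y) (ha : C.Adj y a) (ha' : C.Adj y a') (hne : a ≠ a') :
    X.Z a ≠ X.Z a' := by
  intro h
  have hA : X.IsA a := hy.nbr ha
  have hle : X.Z a ≤ C.S a y := (Z_le_Q hA).trans (Q_le_S (C.symm ha))
  have hfin : Finite (X.Z a) := C.finite_of_le (hle.trans S_le_left)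
  have hbot : X.Z a = ⊥ := by
    refine C.faith (C.symm ha) (X.Z a) hle (fun g hg => mem_normalizer_of_conj fun n hn =>
      conj_mem_Z_self hA (mem_stabilizer_iff.mp hg) hn) ?_
    refine stab_le_of_S_S ha ha' hne (fun g hg => mem_normalizer_of_conj fun n hn =>
      conj_mem_Z_self hA (mem_S.mp hg).2 hn) (fun g hg => mem_normalizer_of_conj fun n hn => ?_)
    rw [h] at hn ⊢
    exact conj_mem_Z_self (hy.nbr ha') (mem_S.mp hg).2 hn
  have hz := z_mem_Z (X := X) (C.symm ha)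
  rw [hbot, Subgroup.mem_bot] at hz
  exact X.z_ne_one y hy hz

variable (X)

/-- The product of the involutions of the three neighbours. -/
noncomputable def phi (a : V) : G :=
  X.z (C.three a).choose * X.z (C.three a).choose_spec.choose *
    X.z (C.three a).choose_spec.choose_spec.choose

variable {X}

theorem phi_eq {a b c d : V} (ha : X.IsA a) (hb : C.Adj a b) (hc : C.Adj a c) (hd : C.Adj a d)
    (hbc : b ≠ c) (hbd : b ≠ d) (hcd : c ≠ d) : X.phi a = X.z b * X.z c * X.z d := by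
  obtain ⟨h1, h2, h3, h12, h13, h23, hall⟩ :=
    (C.three a).choose_spec.choose_spec.choose_spec
  exact (prod_three X.z (z_comm_z ha h1 h2) (z_comm_z ha h1 h3) (z_comm_z ha h2 h3)
    (hall b hb) (hall c hc) (hall d hd) hbc hbd hcd).symm

theorem phi_mem_Z {a : V} (ha : X.IsA a) : X.phi a ∈ X.Z a := by
  obtain ⟨b, c, d, hb, hc, hd, hbc, hbd, hcd, -⟩ := C.three a
  rw [phi_eq ha hb hc hd hbc hbd hcd]
  exact mul_mem (mul_mem (z_mem_Z hb) (z_mem_Z hc)) (z_mem_Z hd)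

theorem phi_smul {a : V} (ha : X.IsA a) (g : G) : X.phi (g • a) = g * X.phi a * g⁻¹ := by
  obtain ⟨b, c, d, hb, hc, hd, hbc, hbd, hcd, -⟩ := C.three a
  rw [phi_eq ha hb hc hd hbc hbd hcd, phi_eq (ha.smul g) (C.smul_adj g hb) (C.smul_adj g hc)
    (C.smul_adj g hd) (fun h => hbc (smul_left_cancel g h)) (fun h => hbd (smul_left_cancel g h))
    (fun h => hcd (smul_left_cancel g h)), X.z_smul g b (ha.nbr hb), X.z_smul g c (ha.nbr hc),
    X.z_smul g d (ha.nbr hd)]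
  group

variable (X)

/-- All the modules `Z a` have order four. -/
def Dim2 : Prop := ∀ a, X.IsA a → X.phi a = 1

/-- The choice given by the products `phi`, when these are nontrivial. -/
noncomputable def phiChoice (h : ¬ X.Dim2) : Choice C where
  char2 := X.char2
  β := !X.β
  z := X.phi
  z_smul g _ hy := phi_smul hy g
  z_mul_self _ hy := Z_mul_self hy (phi_mem_Z hy)
  z_ne_one y hy := fun h1 => h fun a ha => by
    obtain ⟨g, rfl⟩ := C.trans y a (hy.trans ha.symm)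
    rw [phi_smul hy, h1, mul_one, mul_inv_cancel]
  z_mem _ hy := Z_le_Q hy (phi_mem_Z hy)

variable {X}

/-- An element of an edge stabiliser moves `Z` only along `z * phi`. -/
theorem conj_Z {a y : V} (ha : X.IsA a) (hy : C.Adj a y) {g x : G} (hg : g ∈ C.S a y)
    (hx : x ∈ X.Z a) :
    g * x * g⁻¹ = x ∨ g * x * g⁻¹ = x * (X.z y * X.phi a) := by
  obtain ⟨c, d, hc, hd, hcy, hdy, hcd, hall⟩ := C.exists_others hy
  have hw : X.z y * X.phi a = X.z c * X.z d := by
    rw [phi_eq ha hy hc hd hcy.symm hdy.symm hcd, ← mul_assoc, ← mul_assoc,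
      X.z_mul_self y (ha.nbr hy), one_mul]
  rw [hw]
  set w := X.z c * X.z d
  have hwZ : w ∈ X.Z a := mul_mem (z_mem_Z hc) (z_mem_Z hd)
  obtain ⟨hga, hgy⟩ := mem_S.mp hg
  by_cases hgQ : g ∈ C.Q a
  · exact Or.inl (by rw [comm_Z ha hgQ hx, mul_inv_cancel_right])
  have hgcd := smul_eq_of_notMem_Q hy hg hgQ hc hcy hd hdy hcd
  have hgdc := smul_eq_of_notMem_Q hy hg hgQ hd hdy hc hcy hcd.symm
  induction hx using Subgroup.closure_induction with
  | mem x hx =>
    obtain ⟨e, he, rfl⟩ := hx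
    rw [← X.z_smul g e (ha.nbr he)]
    rcases hall e he with rfl | rfl | rfl
    · exact Or.inl (by rw [hgy])
    · right
      rw [hgcd, show X.z e * w = X.z e * X.z e * X.z d by rw [mul_assoc],
        X.z_mul_self e (ha.nbr he), one_mul]
    · right
      rw [hgdc, show X.z e * w = X.z e * (X.z c * X.z e) from rfl, z_comm_z ha hc he,
        ← mul_assoc, X.z_mul_self e (ha.nbr he), one_mul]
  | one => simp
  | mul x x' hx hx' ih ih' =>
    have e : g * (x * x') * g⁻¹ = g * x * g⁻¹ * (g * x' * g⁻¹) := by group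
    rcases ih with h | h <;> rcases ih' with h' | h' <;> rw [e, h, h']
    · exact Or.inl rfl
    · exact Or.inr (by rw [mul_assoc])
    · exact Or.inr (by rw [mul_assoc, Z_comm ha hwZ hx', mul_assoc])
    · left
      rw [mul_assoc x w, ← mul_assoc w x' w, Z_comm ha hwZ hx', mul_assoc x' w w,
        Z_mul_self ha hwZ, mul_one]
  | inv x hx ih => rwa [Z_inv ha hx]

theorem conj_Z_ne {a y : V} (ha : X.IsA a) (hy : C.Adj a y) {g x : G} (hg : g ∈ C.S a y)
    (hx : x ∈ X.Z a) (h : g * x ≠ x * g) : g * x * g⁻¹ = x * (X.z y * X.phi a) :=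
  (conj_Z ha hy hg hx).resolve_left fun he => h (mul_inv_eq_iff_eq_mul.mp he)

section Dim2

theorem z_mul (h2 : X.Dim2) {a b c d : V} (ha : X.IsA a) (hb : C.Adj a b) (hc : C.Adj a c)
    (hd : C.Adj a d) (hbc : b ≠ c) (hbd : b ≠ d) (hcd : c ≠ d) : X.z b * X.z c = X.z d := by
  have h := phi_eq ha hb hc hd hbc hbd hcd
  rw [h2 a ha] at h
  rw [mul_eq_one_iff_eq_inv.mp h.symm, z_inv (ha.nbr hd)]

theorem Z_cases (h2 : X.Dim2) {a : V} (ha : X.IsA a) {x : G} (hx : x ∈ X.Z a) :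
    x = 1 ∨ ∃ y, C.Adj a y ∧ x = X.z y := by
  induction hx using Subgroup.closure_induction with
  | mem y hy => exact Or.inr hy
  | one => exact Or.inl rfl
  | inv y hy ih => rwa [Z_inv ha hy]
  | mul y z _ _ ihy ihz =>
    rcases ihy with rfl | ⟨c, hc, rfl⟩
    · rwa [one_mul]
    rcases ihz with rfl | ⟨d, hd, rfl⟩
    · exact Or.inr ⟨c, hc, mul_one _⟩
    rcases eq_or_ne c d with rfl | hcd
    · exact Or.inl (X.z_mul_self c (ha.nbr hc))
    obtain ⟨e, he, hec, hed, -⟩ := C.exists_third hc hd hcd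
    exact Or.inr ⟨e, he, z_mul h2 ha hc hd he hcd hec.symm hed.symm⟩

theorem Z_le_of_mem (h2 : X.Dim2) {a y : V} (ha : X.IsA a) (hy : C.Adj a y) {H : Subgroup G}
    (hyH : X.z y ∈ H) {x : G} (hx : x ∈ X.Z a) (hxH : x ∈ H) (hx1 : x ≠ 1) (hxy : x ≠ X.z y) :
    X.Z a ≤ H := by
  obtain ⟨c, hc, rfl⟩ := (Z_cases h2 ha hx).resolve_left hx1
  have hcy : c ≠ y := fun h => hxy (by rw [h])
  obtain ⟨d, hd, hdy, hdc, hall⟩ := C.exists_third hy hc hcy.symm
  refine Z_le fun e he => ?_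
  rcases hall e he with rfl | rfl | rfl
  · exact hyH
  · exact hxH
  · rw [← z_mul h2 ha hy hc he hcy.symm hdy.symm hdc.symm]
    exact mul_mem hyH hxH

theorem Z_inter (h2 : X.Dim2) {a y : V} (ha : X.IsA a) (hy : C.Adj a y) {H : Subgroup G}
    (hyH : X.z y ∈ H) (hH : ¬ X.Z a ≤ H) {x : G} (hx : x ∈ X.Z a) (hxH : x ∈ H) :
    x = 1 ∨ x = X.z y := by
  by_contra hcon
  rw [not_or] at hcon
  exact hH (Z_le_of_mem h2 ha hy hyH hx hxH hcon.1 hcon.2)

theorem Z_not_le (h2 : X.Dim2) {a a' y : V} (hy : X.IsB y) (ha : C.Adj y a) (ha' : C.Adj y a')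
    (hne : a ≠ a') : ¬ X.Z a ≤ X.Z a' := by
  intro hle
  obtain ⟨c, -, hc, -, hcy, -⟩ := C.exists_others (C.symm ha)
  refine Z_ne hy ha ha' hne (le_antisymm hle ?_)
  exact Z_le_of_mem h2 (hy.nbr ha') (C.symm ha') (z_mem_Z (C.symm ha)) (hle (z_mem_Z hc))
    (z_mem_Z hc) (X.z_ne_one c ((hy.nbr ha).nbr hc)) (z_ne (hy.nbr ha) hc (C.symm ha) hcy)

theorem eq_z_of_fixed (h2 : X.Dim2) {a y : V} (ha : X.IsA a) (hy : C.Adj a y) {g : G}
    (hg : g ∈ C.S a y) (hgQ : g ∉ C.Q a) {x : G} (hx : x ∈ X.Z a) (hfix : g * x = x * g) :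
    x = 1 ∨ x = X.z y := by
  rcases Z_cases h2 ha hx with h | ⟨c, hc, rfl⟩
  · exact Or.inl h
  rcases eq_or_ne c y with rfl | hcy
  · exact Or.inr rfl
  have hgc : C.Adj a (g • c) := by simpa [(mem_S.mp hg).1] using C.smul_adj g hc
  exfalso
  refine z_ne ha hgc hc (smul_ne_of_notMem_Q hy hg hgQ hc hcy) ?_
  rw [X.z_smul g c (ha.nbr hc), hfix, mul_inv_cancel_right]

theorem conj_Z_two (h2 : X.Dim2) {a y : V} (ha : X.IsA a) (hy : C.Adj a y) {g x : G}
    (hg : g ∈ C.S a y) (hx : x ∈ X.Z a) : g * x * g⁻¹ = x ∨ g * x * g⁻¹ = x * X.z y := by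
  simpa [h2 a ha] using conj_Z ha hy hg hx

end Dim2

section Crit

variable (X)

/-- The length of a shortest walk from a vertex `a` to a vertex not in whose kernel `Z a` lies. -/
noncomputable def b : ℕ :=
  sInf {n | ∃ a c, X.IsA a ∧ C.Walk n a c ∧ ¬ X.Z a ≤ C.Q c}

/-- A critical walk. -/
structure Crit (p : ℕ → V) : Prop where
  adj : ∀ i, i < X.b → C.Adj (p i) (p (i + 1))
  isA : X.IsA (p 0)
  not_le : ¬ X.Z (p 0) ≤ C.Q (p X.b)

variable {X}

theorem Z_le_Q_of_walk {n : ℕ} {a c : V} (ha : X.IsA a) (h : C.Walk n a c) (hn : n < X.b) :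
    X.Z a ≤ C.Q c :=
  by_contra fun hc => Nat.notMem_of_lt_sInf hn ⟨a, c, ha, h, hc⟩

theorem Z_fix {n : ℕ} {a c : V} (ha : X.IsA a) (h : C.Walk n a c) (hn : n ≤ X.b) {x : G}
    (hx : x ∈ X.Z a) : x • c = c := by
  cases n with
  | zero => cases h; exact (Z_le_Q ha hx).1
  | succ n =>
    obtain ⟨d, hd, hdc⟩ := h.unsnoc
    exact (Z_le_Q_of_walk ha hd (by omega) hx).2 c hdc

theorem Z_comm_walk {n : ℕ} {a a' : V} (ha : X.IsA a) (ha' : X.IsA a') (h : C.Walk n a a')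
    (hn : n < X.b) {x x' : G} (hx : x ∈ X.Z a) (hx' : x' ∈ X.Z a') : x * x' = x' * x :=
  comm_Z ha' (Z_le_Q_of_walk ha h hn hx) hx'

theorem exists_crit (a₀ : V) : ∃ p, X.Crit p := by
  obtain ⟨a, ha⟩ : ∃ a, X.IsA a := by
    obtain ⟨c, -, -, hc, -⟩ := C.three a₀
    by_cases h : X.IsA a₀
    · exact ⟨a₀, h⟩
    · refine ⟨c, ?_⟩
      unfold IsA at h ⊢
      rw [C.flip hc]
      cases hh : C.typ a₀ <;> cases hb : X.β <;> simp_all
  have hne : {n | ∃ a c, X.IsA a ∧ C.Walk n a c ∧ ¬ X.Z a ≤ C.Q c}.Nonempty := by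
    by_contra hcon
    obtain ⟨y, -, -, hy, -⟩ := C.three a
    refine X.z_ne_one y (ha.nbr hy) (C.eq_one_of_fix_component (a := a) fun n c hc => ?_)
    by_contra hxc
    exact hcon ⟨n, a, c, ha, hc, fun hle => hxc (hle (z_mem_Z hy)).1⟩
  obtain ⟨a', c', ha', hw, hnle⟩ := Nat.sInf_mem hne
  obtain ⟨p, hp0, hpn, hp⟩ := hw.exists_fun
  exact ⟨p, hp, by rwa [hp0], by rw [hp0, show p X.b = c' from hpn]; exact hnle⟩

namespace Crit

variable {p : ℕ → V} (hp : X.Crit p)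

include hp

theorem b_pos : 1 ≤ X.b := by
  by_contra h
  have h0 : X.b = 0 := by omega
  have := hp.not_le
  rw [h0] at this
  exact this (Z_le_Q hp.isA)

theorem walk {i j : ℕ} (hij : i ≤ j) (hj : j ≤ X.b) : C.Walk (j - i) (p i) (p j) := by
  have h := walk_of_adj (C := C) (p := p) (i := i) (n := j - i) fun k _ hk =>
    hp.adj k (by omega)
  rwa [Nat.add_sub_cancel' hij] at h

theorem walk' {i j : ℕ} (hij : i ≤ j) (hj : j ≤ X.b) : C.Walk (j - i) (p j) (p i) :=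
  (hp.walk hij hj).rev

theorem isPath : C.IsPath X.b p := by
  refine ⟨hp.adj, fun i hi he => hp.not_le ?_⟩
  have h1 := hp.walk (show 0 ≤ i by omega) (show i ≤ X.b by omega)
  have h2 := hp.walk (show i + 2 ≤ X.b from hi) le_rfl
  rw [← he] at h2
  exact Z_le_Q_of_walk hp.isA (h1.trans h2) (by omega)

theorem isA_even {i : ℕ} (hi : i ≤ X.b) (he : Even i) : X.IsA (p i) := by
  rw [IsA, (typ_path hp.adj i hi).1 he]; exact hp.isA

theorem isB_odd {i : ℕ} (hi : i ≤ X.b) (ho : Odd i) : X.IsB (p i) := by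
  rw [IsB, (typ_path hp.adj i hi).2 ho, hp.isA, Bool.not_not]

theorem Z0_le {j : ℕ} (hj : j < X.b) : X.Z (p 0) ≤ C.Q (p j) :=
  Z_le_Q_of_walk hp.isA (hp.walk (Nat.zero_le j) hj.le) (by omega)

theorem Z0_fix {j : ℕ} (hj : j ≤ X.b) {x : G} (hx : x ∈ X.Z (p 0)) : x • p j = p j :=
  Z_fix hp.isA (hp.walk (Nat.zero_le j) hj) (by omega) hx

end Crit

end Crit

section Vy

variable (X)

/-- The subgroup generated by the modules of the neighbours. -/
def Vy (y : V) : Subgroup G := Subgroup.closure {x | ∃ a, C.Adj y a ∧ x ∈ X.Z a}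

variable {X}

theorem Z_le_Vy {y a : V} (h : C.Adj y a) : X.Z a ≤ X.Vy y :=
  fun _ hx => Subgroup.subset_closure ⟨a, h, hx⟩

theorem Vy_le {y : V} {H : Subgroup G} (h : ∀ a, C.Adj y a → X.Z a ≤ H) : X.Vy y ≤ H :=
  (Subgroup.closure_le _).mpr fun _ ⟨a, ha, hx⟩ => h a ha hx

theorem conj_mem_Vy {y : V} (hy : X.IsB y) {g x : G} (hx : x ∈ X.Vy y) :
    g * x * g⁻¹ ∈ X.Vy (g • y) := by
  induction hx using Subgroup.closure_induction with
  | mem x hx =>
    obtain ⟨c, hc, hxc⟩ := hx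
    exact Z_le_Vy (C.smul_adj g hc) (conj_mem_Z (hy.nbr hc) hxc)
  | one => simp
  | mul y z _ _ ihy ihz => simpa [mul_assoc] using mul_mem ihy ihz
  | inv y _ ih => simpa [mul_assoc] using inv_mem ih

theorem conj_mem_Vy_self {y : V} (hy : X.IsB y) {g x : G} (hg : g • y = y) (hx : x ∈ X.Vy y) :
    g * x * g⁻¹ ∈ X.Vy y := by
  have := conj_mem_Vy hy (g := g) hx
  rwa [hg] at this

theorem Vy_le_Q {n : ℕ} {y c : V} (hy : X.IsB y) (h : C.Walk n y c) (hn : n + 1 < X.b) :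
    X.Vy y ≤ C.Q c :=
  Vy_le fun _ ha => Z_le_Q_of_walk (hy.nbr ha) (.cons (C.symm ha) h) hn

theorem Vy_fix {n : ℕ} {y c : V} (hy : X.IsB y) (h : C.Walk n y c) (hn : n + 1 ≤ X.b) {x : G}
    (hx : x ∈ X.Vy y) : x • c = c := by
  have : X.Vy y ≤ stabilizer G c := Vy_le fun _ ha z hz => mem_stabilizer_iff.mpr
    (Z_fix (hy.nbr ha) (.cons (C.symm ha) h) hn hz)
  exact mem_stabilizer_iff.mp (this hx)

theorem Vy_comm (hb : 3 ≤ X.b) {y : V} (hy : X.IsB y) {x x' : G} (hx : x ∈ X.Vy y)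
    (hx' : x' ∈ X.Vy y) : x * x' = x' * x := by
  have key : ∀ a, C.Adj y a → ∀ u ∈ X.Z a, ∀ w ∈ X.Vy y, u * w = w * u := by
    intro a ha u hu w hw
    have : X.Vy y ≤ Subgroup.centralizer {u} := Vy_le fun a' ha' v hv =>
      Subgroup.mem_centralizer_singleton_iff.mpr (Z_comm_walk (hy.nbr ha') (hy.nbr ha)
        (.cons (C.symm ha') (.single ha)) (by omega) hv hu)
    exact (Subgroup.mem_centralizer_singleton_iff.mp (this hw)).symm
  have : X.Vy y ≤ Subgroup.centralizer {x'} := Vy_le fun a ha u hu =>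
    Subgroup.mem_centralizer_singleton_iff.mpr (key a ha u hu x' hx')
  exact Subgroup.mem_centralizer_singleton_iff.mp (this hx)

end Vy

end Choice

end CfsgLib.CubicAmalgam
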