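/-
The bound from a normal subgroup of order sixteen of the stabiliser of a vertex.
-/
import Cfsg.Agent.Lib.CubicAmalgam.Choice

set_option autoImplicit false

namespace CfsgLib.CubicAmalgam

open MulAction Cubic

variable {G : Type*} [Group G] {V : Type*} [MulAction G V] {C : Cubic G V}

theorem exists_mem_Q_notMem (h2 : C.Char2) {a b : V} (hab : C.Adj a b) :
    ∃ q ∈ C.Q a, q ∉ C.Q b := by
  by_contra hcon
  push Not at hcon
  have hle : C.Q a ≤ C.Q b := hcon
  obtain ⟨s, hsb, hsa, hs⟩ := C.exists_swap (C.symm hab)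
  obtain ⟨c, -, hc, -, hca, -⟩ := C.exists_others (C.symm hab)
  have hsQb : s ∉ C.Q b := fun h => hs c hc hca (h.2 c hc)
  have hsS : s ∈ C.S a b := mem_S.mpr ⟨hsa, hsb⟩
  by_cases hsQ : s ∈ C.Q a
  · exact hsQb (hle hsQ)
  have heq : C.Q b = C.Q a := by
    refine le_antisymm (fun x hx => by_contra fun hxa => ?_) hle
    have h := inv_mul_mem_Q hab (Q_le_S' (C.symm hab) hx) hxa hsS hsQ
    exact hsQb (by simpa using mul_mem hx (hle h))
  have hbot : C.Q a = ⊥ := C.eq_bot_of_conj hab (Q_le_S hab)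
    (fun g hg n hn => conj_mem_Q_self hg hn)
    (fun g hg n hn => by rw [← heq] at hn ⊢; exact conj_mem_Q_self hg hn)
  exact hsQ (h2 a s hsa (by rw [hbot]; simp))

theorem four_cosets {Z : Subgroup G} {a b : G} (hab : a * b = b * a)
    (ha : ∀ z ∈ Z, a * z = z * a) (hb : ∀ z ∈ Z, b * z = z * b) (ha2 : a * a ∈ Z)
    (hb2 : b * b ∈ Z) {x : G} (hx : x ∈ Subgroup.closure ((Z : Set G) ∪ {a, b})) :
    x ∈ Z ∨ a⁻¹ * x ∈ Z ∨ b⁻¹ * x ∈ Z ∨ (a * b)⁻¹ * x ∈ Z := by
  have key : ∀ {u v : G}, (∀ z ∈ Z, u * z = z * u) → (u⁻¹ * v ∈ Z) →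
      ∀ z ∈ Z, u⁻¹ * (z * v) ∈ Z := fun {u v} hu hv z hz => by
    rw [← mul_assoc, ← (show Commute z u⁻¹ from
      (Commute.inv_right (show Commute z u from (hu z hz).symm))).eq, mul_assoc]
    exact Z.mul_mem hz hv
  let T : G → Prop := fun x => x ∈ Z ∨ a⁻¹ * x ∈ Z ∨ b⁻¹ * x ∈ Z ∨ (a * b)⁻¹ * x ∈ Z
  have hab' : ∀ z ∈ Z, a * b * z = z * (a * b) := fun z hz => by
    rw [mul_assoc, hb z hz, ← mul_assoc, ha z hz, mul_assoc]
  -- left multiplication by the generators preserves the four cosets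
  have hmul : ∀ g ∈ (Z : Set G) ∪ {a, b}, ∀ x, T x → T (g * x) ∧ T (g⁻¹ * x) := by
    have hz : ∀ z ∈ Z, ∀ x, T x → T (z * x) := by
      rintro z hz x (h | h | h | h)
      · exact Or.inl (Z.mul_mem hz h)
      · exact Or.inr (Or.inl (key ha h z hz))
      · exact Or.inr (Or.inr (Or.inl (key hb h z hz)))
      · exact Or.inr (Or.inr (Or.inr (key hab' h z hz)))
    have hA : ∀ x, T x → T (a * x) := by
      rintro x (h | h | h | h)
      · exact Or.inr (Or.inl (by simpa using h))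
      · refine Or.inl ?_
        have := Z.mul_mem ha2 h
        rwa [mul_assoc, mul_inv_cancel_left] at this
      · refine Or.inr (Or.inr (Or.inr ?_))
        rwa [mul_inv_rev, mul_assoc, inv_mul_cancel_left]
      · refine Or.inr (Or.inr (Or.inl ?_))
        have := Z.mul_mem ha2 h
        have e : a * a * ((a * b)⁻¹ * x) = b⁻¹ * (a * x) := by
          rw [hab, mul_inv_rev, show a * a * (a⁻¹ * b⁻¹ * x) = a * b⁻¹ * x by group,
            (show Commute a b from hab).inv_right.eq, mul_assoc]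
        rwa [e] at this
    have hB : ∀ x, T x → T (b * x) := by
      rintro x (h | h | h | h)
      · exact Or.inr (Or.inr (Or.inl (by simpa using h)))
      · refine Or.inr (Or.inr (Or.inr ?_))
        rwa [hab, mul_inv_rev, mul_assoc, inv_mul_cancel_left]
      · refine Or.inl ?_
        have := Z.mul_mem hb2 h
        rwa [mul_assoc, mul_inv_cancel_left] at this
      · refine Or.inr (Or.inl ?_)
        have := Z.mul_mem hb2 h
        have e : b * b * ((a * b)⁻¹ * x) = a⁻¹ * (b * x) := by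
          rw [mul_inv_rev, show b * b * (b⁻¹ * a⁻¹ * x) = b * a⁻¹ * x by group,
            (show Commute b a from hab.symm).inv_right.eq, mul_assoc]
        rwa [e] at this
    rintro g (hg | rfl | rfl) x hx
    · exact ⟨hz g hg x hx, hz _ (Z.inv_mem hg) x hx⟩
    · refine ⟨hA x hx, ?_⟩
      rw [show g⁻¹ * x = (g * g)⁻¹ * (g * x) by group]
      exact hz _ (Z.inv_mem ha2) _ (hA x hx)
    · refine ⟨hB x hx, ?_⟩
      rw [show g⁻¹ * x = (g * g)⁻¹ * (g * x) by group]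
      exact hz _ (Z.inv_mem hb2) _ (hB x hx)
  have : ∀ y, T y → T (x * y) := by
    induction hx using Subgroup.closure_induction_left with
    | one => simp
    | mul_left g hg y _ ih => exact fun w hw => by rw [mul_assoc]; exact (hmul g hg _ (ih w hw)).1
    | inv_mul_cancel g hg y _ ih =>
      exact fun w hw => by rw [mul_assoc]; exact (hmul g hg _ (ih w hw)).2
  have h' := this 1 (Or.inl Z.one_mem)
  rw [mul_one] at h'
  exact h'

/-- Two involutions fixing different neighbours give an element of order three inverted by the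
first. -/
theorem exists_three {a y y' : V} (hy : C.Adj a y) (hy' : C.Adj a y') (hne : y ≠ y') {σ σ' : G}
    (hσ : σ ∈ C.S a y) (hσQ : σ ∉ C.Q a) (hσ2 : σ * σ = 1) (hσ' : σ' ∈ C.S a y')
    (hσQ' : σ' ∉ C.Q a) (hσ'2 : σ' * σ' = 1) {M : Subgroup G} (hM : σ ∈ M) (hM' : σ' ∈ M) :
    ∃ d ∈ M, d • a = a ∧ d ∉ C.Q a ∧ d ^ 3 = 1 ∧ σ * d * σ = d⁻¹ := by
  obtain ⟨y'', hy'', h1, h2, hall⟩ := C.exists_third hy hy' hne
  have hσa := (mem_S.mp hσ).1
  have hσ'a := (mem_S.mp hσ').1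
  set e := σ * σ' with he
  have hea : e • a = a := by rw [mul_smul, hσ'a, hσa]
  have e1 : e • y = y' := by
    rw [mul_smul, smul_eq_of_notMem_Q hy' hσ' hσQ' hy hne hy'' h2 h1.symm,
      smul_eq_of_notMem_Q hy hσ hσQ hy'' h1 hy' hne.symm h2]
  have e2 : e • y' = y'' := by
    rw [mul_smul, (mem_S.mp hσ').2, smul_eq_of_notMem_Q hy hσ hσQ hy' hne.symm hy'' h1 h2.symm]
  have e3 : e • y'' = y := by
    rw [mul_smul, smul_eq_of_notMem_Q hy' hσ' hσQ' hy'' h2 hy hne h1, (mem_S.mp hσ).2]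
  have he3 : e ^ 3 ∈ C.Q a := by
    refine ⟨by simp [pow_succ, mul_smul, hea], fun x hx => ?_⟩
    rcases hall x hx with rfl | rfl | rfl <;> simp [pow_succ, mul_smul, e1, e2, e3]
  obtain ⟨k, hk⟩ := (C.two_group hy) ⟨e ^ 3, Q_le_S hy he3⟩
  have hk' : (e ^ 3) ^ 2 ^ k = 1 := by simpa using congrArg Subtype.val hk
  refine ⟨e ^ 2 ^ k, M.pow_mem (M.mul_mem hM hM') _,
    mem_stabilizer_iff.mp (pow_mem (mem_stabilizer_iff.mpr hea) _), fun hd => ?_, ?_, ?_⟩
  · have hmod : e ^ 2 ^ k = (e ^ 3) ^ (2 ^ k / 3) * e ^ (2 ^ k % 3) := by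
      rw [← pow_mul, ← pow_add, Nat.div_add_mod]
    rw [hmod] at hd
    have hd' : e ^ (2 ^ k % 3) ∈ C.Q a := by
      simpa using mul_mem (inv_mem (pow_mem he3 (2 ^ k / 3))) hd
    have hm : 2 ^ k % 3 ≠ 0 := fun h => by
      have h3 := (Nat.Prime.dvd_of_dvd_pow Nat.prime_three (Nat.dvd_of_mod_eq_zero h))
      exact absurd (Nat.le_of_dvd (by norm_num) h3) (by norm_num)
    have h3 : 2 ^ k % 3 = 1 ∨ 2 ^ k % 3 = 2 := by omega
    rcases h3 with h | h <;> rw [h] at hd'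
    · rw [pow_one] at hd'
      exact hne ((hd'.2 y hy).symm.trans e1)
    · exact h1 (((hd'.2 y hy).symm.trans (by simp [pow_succ, mul_smul, e1, e2])).symm)
  · rw [← pow_mul, mul_comm, pow_mul, hk']
  · have hinv : σ * e * σ = e⁻¹ := by
      rw [he, mul_inv_rev, inv_eq_of_mul_eq_one_right hσ2, inv_eq_of_mul_eq_one_right hσ'2,
        ← mul_assoc, hσ2, one_mul]
    have hs : σ⁻¹ = σ := inv_eq_of_mul_eq_one_right hσ2
    calc σ * e ^ 2 ^ k * σ = σ * e ^ 2 ^ k * σ⁻¹ := by rw [hs]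
      _ = (σ * e * σ⁻¹) ^ 2 ^ k := conj_pow.symm
      _ = (e ^ 2 ^ k)⁻¹ := by rw [hs, hinv, inv_pow]

namespace Choice

variable {X : Choice C}

theorem exists_mem_four (h2 : X.Dim2) {a : V} (ha : X.IsA a) :
    ∃ f : Fin 4 → X.Z a, Function.Surjective f := by
  obtain ⟨b, c, d, hb, hc, hd, -, -, -, hall⟩ := C.three a
  refine ⟨![1, ⟨_, z_mem_Z hb⟩, ⟨_, z_mem_Z hc⟩, ⟨_, z_mem_Z hd⟩], fun x => ?_⟩
  rcases Z_cases h2 ha x.2 with h | ⟨e, he, h⟩
  · exact ⟨0, Subtype.ext h.symm⟩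
  · rcases hall e he with rfl | rfl | rfl
    · exact ⟨1, Subtype.ext h.symm⟩
    · exact ⟨2, Subtype.ext h.symm⟩
    · exact ⟨3, Subtype.ext h.symm⟩

/-- A subgroup of order sixteen of the kind arising for walks of length two and three excludes
central involutions. -/
theorem no_central (h2 : X.Dim2) {a : V} (ha : X.IsA a) {P : Subgroup G}
    (hPQ : P ≤ C.Q a) (hn : ∀ g : G, g • a = a → ∀ x ∈ P, g * x * g⁻¹ ∈ P)
    (hinv : ∀ x ∈ P, x * x = 1 → x ∈ X.Z a) (hout : ∀ y, C.Adj a y → ¬ P ≤ C.Q y)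
    {y : V} (hy : C.Adj a y) {u : G} (hu : u ∈ C.S a y) (hu2 : u * u = 1)
    (hc : ∀ g : G, g • a = a → g * u = u * g) : u = 1 := by
  by_contra hu1
  have huQy : u ∈ C.Q y :=
    X.char2 y u (mem_S.mp hu).2 fun q hq => hc q (hq.2 a (C.symm hy))
  have hya := C.symm hy
  obtain ⟨a₂, -, ha₂, -, ha₂ne, -⟩ := C.exists_others hya
  obtain ⟨g, hgy, hga⟩ := C.trans_nbr hya ha₂
  obtain ⟨p₀, hp₀, hp₀Q⟩ := SetLike.not_le_iff_exists.mp (hout y hy)
  set p := g * p₀ * g⁻¹ with hp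
  have hpQ : p ∈ C.Q a₂ := by rw [← hga]; exact conj_mem_Q (hPQ hp₀)
  have hpy : p ∉ C.Q y := fun h => hp₀Q (by rw [← hgy] at h; exact conj_mem_Q_iff.mp h)
  have hpS : p ∈ C.S y a₂ := Q_le_S' (C.symm ha₂) hpQ
  set a₃ := p • a with ha₃'
  have ha₃ : C.Adj y a₃ := by
    have := C.smul_adj p hya
    rwa [(mem_S.mp hpS).1] at this
  have ha₃ne : a₃ ≠ a := smul_ne_of_notMem_Q ha₂ hpS hpy hya ha₂ne.symm
  have ha₃ne₂ : a₃ ≠ a₂ := fun h => ha₂ne (smul_left_cancel p
    ((hpQ.1).trans h.symm))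
  -- central elements of two neighbours of `y` differ
  have hdist : ∀ b c : V, C.Adj y b → C.Adj y c → b ≠ c → ∀ x ∈ C.S y b, (∀ h : G, h • b = b →
      h * x = x * h) → (∀ h : G, h • c = c → h * x = x * h) → x = 1 := by
    intro b c hb hc' hbc x hx hxb hxc
    refine C.eq_one_of_central hb hx (fun h hh => ?_) hxb
    exact central_of_S_S hb hc' hbc (fun s hs => hxb s (mem_S.mp hs).2)
      (fun s hs => hxc s (mem_S.mp hs).2) h hh
  set u₃ := p * u * p⁻¹ with hu₃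
  have hc₃ : ∀ h : G, h • a₃ = a₃ → h * u₃ = u₃ * h := by
    intro h hh
    have := hc (p⁻¹ * h * p) (by rw [mul_smul, mul_smul, ← ha₃', hh, ha₃', inv_smul_smul])
    calc h * u₃ = p * (p⁻¹ * h * p * u) * p⁻¹ := by rw [hu₃]; group
      _ = p * (u * (p⁻¹ * h * p)) * p⁻¹ := by rw [this]
      _ = u₃ * h := by rw [hu₃]; group
  have hne₃ : u ≠ u₃ := fun h => hu1 (hdist a a₃ hya ha₃ ha₃ne.symm u
    (by rwa [S_comm]) hc (by rw [h]; exact hc₃))
  set e := u * u₃ with he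
  have huinv : u⁻¹ = u := inv_eq_of_mul_eq_one_right hu2
  have hcomm : u * u₃ = u₃ * u := hc₃ u (huQy.2 a₃ ha₃)
  have hu₃2 : u₃ * u₃ = 1 := by
    rw [hu₃, show p * u * p⁻¹ * (p * u * p⁻¹) = p * (u * u) * p⁻¹ by group, hu2, mul_one,
      mul_inv_cancel]
  have he2 : e * e = 1 := by
    rw [he, show u * u₃ * (u * u₃) = u * (u₃ * u) * u₃ by group, ← hcomm,
      show u * (u * u₃) * u₃ = u * u * (u₃ * u₃) by group, hu2, hu₃2, mul_one]
  have heZ : g⁻¹ * e * g ∈ X.Z a := by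
    refine hinv _ ?_ (by
      rw [show g⁻¹ * e * g * (g⁻¹ * e * g) = g⁻¹ * (e * e) * g by group, he2, mul_one,
        inv_mul_cancel])
    have h1 := hn (g⁻¹ * u * g) (by
      rw [mul_smul, mul_smul, hga, huQy.2 a₂ ha₂, inv_smul_eq_iff, hga]) p₀ hp₀
    have e' : g⁻¹ * e * g = g⁻¹ * u * g * p₀ * (g⁻¹ * u * g)⁻¹ * p₀⁻¹ := by
      rw [he, hu₃, hp, show (g⁻¹ * u * g)⁻¹ = g⁻¹ * u⁻¹ * g by group, huinv]
      group
    rw [e']
    exact mul_mem h1 (inv_mem hp₀)
  have heZ₂ : e ∈ X.Z a₂ := by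
    have := conj_mem_Z ha (g := g) heZ
    rwa [hga, show g * (g⁻¹ * e * g) * g⁻¹ = e by group] at this
  -- `e` is centralised by the edge stabiliser at `y, a₂`
  have hpe : p * e = e * p := by
    have hp2 := hc (p * p) ((mul_self_mem_Q ha₂ hpS).2 a hya)
    have : p * e * p⁻¹ = e := by
      rw [he, hu₃, show p * (u * (p * u * p⁻¹)) * p⁻¹ = p * u * p⁻¹ * (p * p * u * p⁻¹ * p⁻¹)
        by group, hp2, show u * (p * p) * p⁻¹ * p⁻¹ = u by group]
      exact hcomm.symm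
    exact mul_inv_eq_iff_eq_mul.mp this
  have heS : ∀ s ∈ C.S y a₂, s * e = e * s := fun s hs =>
    Subgroup.mem_centralizer_singleton_iff.mp (S_le_of_Q_le ha₂
      (fun q hq => Subgroup.mem_centralizer_singleton_iff.mpr (by
        rw [he, ← mul_assoc, hc q (hq.2 a hya), mul_assoc, hc₃ q (hq.2 a₃ ha₃), ← mul_assoc]))
      hpS hpy (Subgroup.mem_centralizer_singleton_iff.mpr hpe) hs)
  obtain ⟨s, hsa, hsy, hs⟩ := C.exists_swap (C.symm ha₂)
  obtain ⟨c, -, hc', -, hcy, -⟩ := C.exists_others (C.symm ha₂)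
  have hA₂ : X.IsA a₂ := by rw [← hga]; exact ha.smul g
  rcases eq_z_of_fixed h2 hA₂ (C.symm ha₂) (mem_S.mpr ⟨hsa, hsy⟩)
    (fun h => hs c hc' hcy (h.2 c hc')) heZ₂ (heS s (mem_S.mpr ⟨hsy, hsa⟩)) with h | h
  · exact hne₃ (by
      rw [he] at h
      rw [← inv_eq_of_mul_eq_one_right h, huinv])
  -- swap the two other neighbours of `y` fixing `a`
  obtain ⟨q, hq, hqy⟩ := exists_mem_Q_notMem X.char2 hy
  have hqS : q ∈ C.S y a := Q_le_S' hy hq
  have hqa₃ : q • a₃ = a₂ := smul_eq_of_notMem_Q hya hqS hqy ha₃ ha₃ne ha₂ ha₂ne ha₃ne₂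
  have hu3 : u₃ = u * X.z y := by
    rw [← h, he, ← mul_assoc, hu2, one_mul]
  have hu₂ : q * u₃ * q⁻¹ = g * u * g⁻¹ := by
    have := hc (g⁻¹ * (q * p)) (by
      rw [mul_smul, mul_smul, ← ha₃', hqa₃, inv_smul_eq_iff, hga])
    calc q * u₃ * q⁻¹ = g * (g⁻¹ * (q * p) * u) * (q * p)⁻¹ := by rw [hu₃]; group
      _ = g * (u * (g⁻¹ * (q * p))) * (q * p)⁻¹ := by rw [this]
      _ = g * u * g⁻¹ := by group
  have hsame : q * u₃ * q⁻¹ = u₃ := by
    rw [hu3, show q * (u * X.z y) * q⁻¹ = (q * u * q⁻¹) * (q * X.z y * q⁻¹) by group,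
      hc q hq.1, z_comm (ha.nbr hy) (hq.2 y hy), mul_inv_cancel_right, mul_inv_cancel_right]
  have hc₂ : ∀ h : G, h • a₂ = a₂ → h * u₃ = u₃ * h := by
    intro h hh
    rw [← hsame, hu₂]
    have := hc (g⁻¹ * h * g) (by rw [mul_smul, mul_smul, hga, hh, inv_smul_eq_iff, hga])
    calc h * (g * u * g⁻¹) = g * (g⁻¹ * h * g * u) * g⁻¹ := by group
      _ = g * (u * (g⁻¹ * h * g)) * g⁻¹ := by rw [this]
      _ = g * u * g⁻¹ * h := by group
  have hu₃S : u₃ ∈ C.S y a₃ := by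
    have := conj_mem_S (g := p) hu
    rwa [← ha₃', (mem_S.mp hpS).1, S_comm] at this
  have : u₃ = 1 := hdist a₃ a₂ ha₃ ha₂ ha₃ne₂ u₃ hu₃S hc₃ hc₂
  exact hu1 (conj_eq_one_iff.mp this)

/-- The bound from a normal subgroup of order sixteen. -/
theorem bound_of_P (h2 : X.Dim2) (hb : 2 ≤ X.b) {a : V} (ha : X.IsA a) {P : Subgroup G}
    (hPQ : P ≤ C.Q a) (hZP : X.Z a ≤ P) (hn : ∀ g : G, g • a = a → ∀ x ∈ P, g * x * g⁻¹ ∈ P)
    (hPc : ∀ x ∈ P, ∀ y ∈ P, x * y = y * x)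
    (hinv : ∀ x ∈ P, x * x = 1 → x ∈ X.Z a) (hout : ∀ y, C.Adj a y → ¬ P ≤ C.Q y)
    (hsq : ∀ x ∈ P, x * x ∈ X.Z a) (W : Fin 3 → G)
    (hcov : ∀ x ∈ P, x ∈ X.Z a ∨ ∃ i, (W i)⁻¹ * x ∈ X.Z a)
    {σ d : G} (hσa : σ • a = a) (hσQ : σ ∉ C.Q a) (hσ2 : σ * σ = 1) (hda : d • a = a)
    (hdQ : d ∉ C.Q a) (hd3 : d ^ 3 = 1) (hσd : σ * d * σ = d⁻¹)
    (hact : ∀ q ∈ C.Q a, d * q * d⁻¹ * q⁻¹ ∈ P) : C.Bound := by
  obtain ⟨y₀, -, -, hy₀, -⟩ := C.three a
  have hfinQ : Finite (C.Q a) := C.finite_of_le fun x hx => mem_stabilizer_iff.mpr hx.1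
  -- `d` moves every neighbour
  have hdmove : ∀ y, C.Adj a y → d • y ≠ y := by
    intro y hy hdy
    obtain ⟨k, hk⟩ := (C.two_group hy) ⟨d, (mem_S (C := C)).mpr ⟨hda, hdy⟩⟩
    have hk' : d ^ 2 ^ k = 1 := by simpa using congrArg Subtype.val hk
    have hcop : Nat.Coprime 3 (2 ^ k) := Nat.Coprime.pow_right k (by norm_num)
    exact hdQ (by
      rw [orderOf_eq_one_iff.mp (Nat.eq_one_of_dvd_coprimes hcop
        (orderOf_dvd_of_pow_eq_one hd3) (orderOf_dvd_of_pow_eq_one hk'))]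
      exact one_mem _)
  let D : G →* G := (MulAut.conj d).toMonoidHom
  have hD : ∀ x, D x = d * x * d⁻¹ := fun _ => rfl
  have hD3 : ∀ x, D (D (D x)) = x := fun x => by
    have h3 : d * d * d = 1 := by rw [← hd3, pow_succ, pow_two]
    calc D (D (D x)) = (d * d * d) * x * (d * d * d)⁻¹ := by simp only [hD]; group
      _ = x := by rw [h3]; group
  have hDP : ∀ x ∈ P, D x ∈ P := fun x hx => hn d hda x hx
  have hDZ : ∀ x ∈ X.Z a, D x ∈ X.Z a := fun x hx => conj_mem_Z_self ha hda hx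
  have hZfix : ∀ x ∈ X.Z a, D x = x → x = 1 := by
    intro x hx hfix
    by_contra hx1
    obtain ⟨c, hc, rfl⟩ := (Z_cases h2 ha hx).resolve_left hx1
    have hdc : C.Adj a (d • c) := by simpa [hda] using C.smul_adj d hc
    refine z_ne ha hdc hc (hdmove c hc) ?_
    rw [X.z_smul d c (ha.nbr hc)]; exact hfix
  obtain ⟨w₀, hw₀, hw₀Z⟩ : ∃ w ∈ P, w ∉ X.Z a := by
    by_contra hcon
    push Not at hcon
    exact hout y₀ hy₀ fun x hx => Z_le_Q_of_walk ha (.single hy₀) (by omega) (hcon x hx)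
  let R : G → G → Prop := fun u x => u⁻¹ * x ∈ X.Z a
  have hRsymm : ∀ {u x}, R u x → R x u := fun {u x} h => by
    have h' : (u⁻¹ * x)⁻¹ ∈ X.Z a := inv_mem h
    rwa [mul_inv_rev, inv_inv] at h'
  have hRtrans : ∀ {u x w}, R u x → R x w → R u w := fun {u x w} h h' => by
    have h'' : u⁻¹ * x * (x⁻¹ * w) ∈ X.Z a := mul_mem h h'
    rwa [mul_assoc, mul_inv_cancel_left] at h''
  have hRD : ∀ {u x}, R u x → R (D u) (D x) := fun {u x} h => by
    have h' := hDZ _ h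
    rwa [map_mul, map_inv] at h'
  have h01 : ¬ R w₀ (D w₀) := by
    intro h
    set z := w₀⁻¹ * D w₀ with hz
    have hDw : D w₀ = w₀ * z := by rw [hz, mul_inv_cancel_left]
    have hfix : D (w₀ * w₀) = w₀ * w₀ := by
      rw [map_mul, hDw, mul_assoc, ← mul_assoc z w₀ z, hPc z (hZP h) w₀ hw₀, mul_assoc,
        Z_mul_self ha h, mul_one]
    exact hw₀Z (hinv w₀ hw₀ (hZfix _ (hsq w₀ hw₀) hfix))
  have h02 : ¬ R w₀ (D (D w₀)) := fun h => by
    have := hRD h
    rw [hD3] at this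
    exact h01 (hRsymm this)
  have h12 : ¬ R (D w₀) (D (D w₀)) := fun h => h01 (by
    have := hRD (hRD h)
    rwa [hD3] at this)
  have hnZ : ∀ {x}, x ∉ X.Z a → D x ∉ X.Z a := fun {x} hx h => hx (by
    have := hDZ _ (hDZ _ h)
    rwa [hD3] at this)
  have hnormQ : ∀ c ∈ C.Q a, ∀ z ∈ X.Z a, c * z * c⁻¹ = z := fun c hc z hz => by
    rw [comm_Z ha hc hz, mul_inv_cancel_right]
  -- every element of `P` lies in one of four cosets
  have hcov' : ∀ x ∈ P, x ∉ X.Z a → R w₀ x ∨ R (D w₀) x ∨ R (D (D w₀)) x := by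
    intro x hx hxZ
    let w : Fin 3 → G := ![w₀, D w₀, D (D w₀)]
    have hw : ∀ i, w i ∈ P ∧ w i ∉ X.Z a := by
      intro i
      fin_cases i
      · exact ⟨hw₀, hw₀Z⟩
      · exact ⟨hDP _ hw₀, hnZ hw₀Z⟩
      · exact ⟨hDP _ (hDP _ hw₀), hnZ (hnZ hw₀Z)⟩
    choose f hf using fun i => (hcov (w i) (hw i).1).resolve_left (hw i).2
    have hinj : Function.Injective f := by
      intro i j hij
      have hR : R (w i) (w j) := hRtrans (hRsymm (hf i)) (by rw [hij]; exact hf j)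
      fin_cases i <;> fin_cases j <;> simp [w] at hR ⊢
      · exact h01 hR
      · exact h02 hR
      · exact h01 (hRsymm hR)
      · exact h12 hR
      · exact h02 (hRsymm hR)
      · exact h12 (hRsymm hR)
    obtain ⟨j, hj⟩ := (hcov x hx).resolve_left hxZ
    obtain ⟨i, rfl⟩ := Finite.injective_iff_surjective.mp hinj j
    have hR : R (w i) x := hRtrans (hRsymm (hf i)) hj
    fin_cases i
    · exact Or.inl hR
    · exact Or.inr (Or.inl hR)
    · exact Or.inr (Or.inr hR)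
  -- the centraliser of `d` in the kernel
  let CQ : Subgroup G := C.Q a ⊓ Subgroup.centralizer {d}
  have hdec : ∀ q ∈ C.Q a, ∃ p ∈ P, ∃ c ∈ CQ, p * c = q := by
    intro q hq
    obtain ⟨w, hw⟩ : ∃ w, w = d * q * d⁻¹ * q⁻¹ := ⟨_, rfl⟩
    have hwP : w ∈ P := hw ▸ hact q hq
    have hDq : D q = w * q := by rw [hw, hD]; group
    have hrel : D (D w) * D w * w = 1 := by
      have h3 := hD3 q
      rw [hDq, map_mul, hDq, map_mul, map_mul, hDq, ← mul_assoc, ← mul_assoc] at h3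
      exact mul_eq_right.mp h3
    have hw4 : w * w * (w * w) = 1 := Z_mul_self ha (hsq w hwP)
    have hDw4 : D w * D w * (D w * D w) = 1 := by rw [← map_mul, ← map_mul, hw4, map_one]
    have cwD : Commute w (D w) := hPc w hwP _ (hDP w hwP)
    set p := w ^ 2 * (D w) ^ 3 with hp
    have hpP : p ∈ P := mul_mem (pow_mem hwP 2) (pow_mem (hDP w hwP) 3)
    have hDDw : D (D w) = (D w * w)⁻¹ := eq_inv_of_mul_eq_one_left (by rw [← mul_assoc]; exact hrel)
    have hfix : D (p * q) = p * q := by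
      rw [map_mul, hDq, ← mul_assoc]
      congr 1
      rw [hp, map_mul, map_pow, map_pow, hDDw, mul_inv_rev,
        (cwD.inv_inv).mul_pow]
      have c1 : Commute (w ^ 3)⁻¹ ((D w ^ 3)⁻¹) := (cwD.pow_pow 3 3).inv_inv
      have e1 : (w ^ 3)⁻¹ = w := inv_eq_of_mul_eq_one_left (by
        simpa [pow_succ, mul_assoc] using hw4)
      have e2 : (D w ^ 3)⁻¹ = D w := inv_eq_of_mul_eq_one_left (by
        simpa [pow_succ, mul_assoc] using hDw4)
      rw [inv_pow, inv_pow, e1, e2]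
      calc D w ^ 2 * (w * D w) * w = D w ^ 2 * (D w * w) * w := by rw [cwD.eq]
        _ = D w ^ 3 * w ^ 2 := by simp only [pow_succ, pow_zero, one_mul, mul_assoc]
        _ = w ^ 2 * D w ^ 3 := (cwD.pow_pow 2 3).eq.symm
    refine ⟨p⁻¹, inv_mem hpP, p * q, ⟨mul_mem (hPQ hpP) hq,
      Subgroup.mem_centralizer_singleton_iff.mpr ?_⟩, inv_mul_cancel_left p q⟩
    rw [hD] at hfix
    exact (mul_inv_eq_iff_eq_mul.mp hfix).symm
  -- no element of `CQ` centralises `P`
  let K : Subgroup G := CQ ⊓ Subgroup.centralizer (P : Set G)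
  obtain ⟨y, hy, hσy⟩ : ∃ y, C.Adj a y ∧ σ • y = y := by
    by_cases h : σ • y₀ = y₀
    · exact ⟨y₀, hy₀, h⟩
    have h' : C.Adj a (σ • y₀) := by simpa [hσa] using C.smul_adj σ hy₀
    obtain ⟨y₂, hy₂, h20, h21, hall⟩ := C.exists_third hy₀ h' (Ne.symm h)
    refine ⟨y₂, hy₂, ?_⟩
    have h'' : C.Adj a (σ • y₂) := by simpa [hσa] using C.smul_adj σ hy₂
    have hσσ : ∀ x : V, σ • σ • x = x := fun x => by rw [← mul_smul, hσ2, one_smul]
    rcases hall _ h'' with h3 | h3 | h3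
    · exact absurd (show y₂ = σ • y₀ by rw [← h3, hσσ]) h21
    · exact absurd (smul_left_cancel σ h3) h20
    · exact h3
  have hKnorm : ∀ s ∈ C.S a y, ∀ k ∈ K, s * k * s⁻¹ ∈ K := by
    have hM : ∀ g : G, g • a = a → (∀ k ∈ K, g * k * g⁻¹ * d = d * (g * k * g⁻¹)) →
        ∀ k ∈ K, g * k * g⁻¹ ∈ K := by
      intro g hga hgd k hk
      refine ⟨⟨conj_mem_Q_self hga hk.1.1, Subgroup.mem_centralizer_singleton_iff.mpr (hgd k hk)⟩,
        Subgroup.mem_centralizer_iff.mpr fun x hx => ?_⟩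
      have h1 := hn g⁻¹ (inv_smul_eq_iff.mpr hga.symm) x hx
      have h2 := Subgroup.mem_centralizer_iff.mp hk.2 _ h1
      rw [inv_inv] at h2
      calc x * (g * k * g⁻¹) = g * (g⁻¹ * x * g * k) * g⁻¹ := by group
        _ = g * (k * (g⁻¹ * x * g)) * g⁻¹ := by rw [h2]
        _ = g * k * g⁻¹ * x := by group
    have hQ : ∀ q ∈ C.Q a, ∀ k ∈ K, q * k * q⁻¹ ∈ K := by
      intro q hq
      refine hM q hq.1 fun k hk => ?_
      obtain ⟨p, hp, c, hc, rfl⟩ := hdec q hq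
      have hck : c * k * c⁻¹ ∈ K := by
        refine hM c hc.1.1 (fun k hk => ?_) k hk
        have cc : Commute c d := Subgroup.mem_centralizer_singleton_iff.mp hc.2
        have ck : Commute k d := Subgroup.mem_centralizer_singleton_iff.mp hk.1.2
        exact ((cc.mul_left ck).mul_left cc.inv_left).eq
      have hp' : p * (c * k * c⁻¹) = c * k * c⁻¹ * p :=
        Subgroup.mem_centralizer_iff.mp hck.2 p hp
      have he : p * c * k * (p * c)⁻¹ = c * k * c⁻¹ := by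
        rw [show p * c * k * (p * c)⁻¹ = p * (c * k * c⁻¹) * p⁻¹ by group, hp',
          mul_inv_cancel_right]
      rw [he]
      exact Subgroup.mem_centralizer_singleton_iff.mp hck.1.2
    have hσK : ∀ k ∈ K, σ * k * σ⁻¹ ∈ K := by
      refine hM σ hσa fun k hk => ?_
      have ck : Commute k d := Subgroup.mem_centralizer_singleton_iff.mp hk.1.2
      have hs : σ⁻¹ = σ := inv_eq_of_mul_eq_one_right hσ2
      have hσd' : σ * d * σ⁻¹ = d⁻¹ := by rw [hs]; exact hσd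
      have h : Commute (σ * k * σ⁻¹) d⁻¹ := by
        rw [← hσd']
        show _ = _
        calc σ * k * σ⁻¹ * (σ * d * σ⁻¹) = σ * (k * d) * σ⁻¹ := by group
          _ = σ * (d * k) * σ⁻¹ := by rw [ck.eq]
          _ = _ := by group
      exact (Commute.inv_right_iff.mp h).eq
    intro s hs
    have : Finite K := Finite.of_injective (Subgroup.inclusion
      (show K ≤ C.Q a from inf_le_left.trans inf_le_left)) (Subgroup.inclusion_injective _)
    exact fun k hk => ((Subgroup.mem_normalizer_iff.mp (S_le_of_Q_le hy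
      (fun q hq => mem_normalizer_of_conj (hQ q hq)) (mem_S.mpr ⟨hσa, hσy⟩) hσQ
      (mem_normalizer_of_conj hσK) hs)) k).mp hk
  have hKbot : K = ⊥ := by
    by_contra hK
    have := C.finite_S a y
    obtain ⟨k, hk, hk1, hk2, hkc⟩ := exists_central_involution (S := C.S a y) (C.two_group hy)
      (show K ≤ C.S a y from (inf_le_left.trans inf_le_left).trans (Q_le_S hy)) hKnorm hK
    exact hk1 (no_central h2 ha hPQ hn hinv hout hy (Q_le_S hy hk.1.1) hk2
      (central_of_S hy hkc (Subgroup.mem_centralizer_singleton_iff.mp hk.1.2).symm hda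
        (hdmove y hy)))
  -- `CQ` fixes the coset of `w₀`
  have hfix₀ : ∀ c ∈ CQ, R w₀ (c * w₀ * c⁻¹) := by
    intro c hc
    let E : G →* G := (MulAut.conj c).toMonoidHom
    have hE : ∀ x, E x = c * x * c⁻¹ := fun _ => rfl
    have hED : ∀ x, E (D x) = D (E x) := fun x => by
      have cc : Commute c d := Subgroup.mem_centralizer_singleton_iff.mp hc.2
      calc E (D x) = c * d * x * (c * d)⁻¹ := by simp only [hE, hD]; group
        _ = d * c * x * (d * c)⁻¹ := by rw [cc.eq]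
        _ = D (E x) := by simp only [hE, hD]; group
    have hER : ∀ {u x}, R u x → R (E u) (E x) := fun {u x} h => by
      have e : (E u)⁻¹ * E x = u⁻¹ * x := by rw [← map_inv, ← map_mul, hE, hnormQ c hc.1 _ h]
      show (E u)⁻¹ * E x ∈ X.Z a
      rw [e]; exact h
    have hE0 : E w₀ ∈ P ∧ E w₀ ∉ X.Z a := ⟨hn c hc.1.1 w₀ hw₀, fun h => hw₀Z (by
      have := hnormQ c⁻¹ (inv_mem hc.1) _ h
      rw [hE, show c⁻¹ * (c * w₀ * c⁻¹) * c⁻¹⁻¹ = w₀ by group] at this
      rwa [this, ← hE])⟩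
    have hthree : R w₀ (E (E (E w₀))) := by
      rcases hcov' _ hE0.1 hE0.2 with h | h | h
      · exact hRtrans h (hRtrans (hER h) (hER (hER h)))
      · have h1 : R (D (D w₀)) (E (D w₀)) := by rw [hED]; exact hRD h
        have h2' : R w₀ (E (D (D w₀))) := by
          have := hRD (hRD h)
          rwa [hD3, ← hED, ← hED] at this
        exact hRtrans h2' (hER (hRtrans h1 (hER h)))
      · have h1 : R (D w₀) (E (D (D w₀))) := by
          have := hRD (hRD h)
          rwa [hD3, ← hED, ← hED] at this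
        have h2' : R w₀ (E (D w₀)) := by
          have := hRD h
          rwa [hD3, ← hED] at this
        exact hRtrans h2' (hER (hRtrans h1 (hER h)))
    have hpow : ∀ g : G, g ∈ C.Q a → R w₀ (g * w₀ * g⁻¹) → ∀ n : ℕ,
        R w₀ (g ^ n * w₀ * (g ^ n)⁻¹) := by
      intro g hg h n
      induction n with
      | zero => simp [R]
      | succ n ih =>
        refine hRtrans h ?_
        have e : (g * w₀ * g⁻¹)⁻¹ * (g ^ (n + 1) * w₀ * (g ^ (n + 1))⁻¹) =
            g * (w₀⁻¹ * (g ^ n * w₀ * (g ^ n)⁻¹)) * g⁻¹ := by rw [pow_succ']; group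
        show _ ∈ X.Z a
        rw [e, hnormQ g hg _ ih]
        exact ih
    obtain ⟨k, hk⟩ := (C.two_group hy) ⟨c, Q_le_S hy hc.1⟩
    have hk' : c ^ 2 ^ k = 1 := by simpa using congrArg Subtype.val hk
    obtain ⟨m, hm⟩ : ∃ m : ℕ, (c ^ 3) ^ m = c := exists_pow_eq_self_of_coprime
      (Nat.Coprime.coprime_dvd_right (orderOf_dvd_of_pow_eq_one hk')
        (Nat.Coprime.pow_right k (by norm_num)))
    rw [← hm]
    refine hpow (c ^ 3) (pow_mem hc.1 3) ?_ m
    rw [show c ^ 3 * w₀ * (c ^ 3)⁻¹ = E (E (E w₀)) by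
      simp only [hE, pow_succ, pow_zero, one_mul, mul_inv_rev, mul_assoc]]
    exact hthree
  obtain ⟨f, hf⟩ := exists_mem_four h2 ha
  have hfinZ : Finite (X.Z a) := Finite.of_surjective f hf
  have hZcard : Nat.card (X.Z a) ≤ 4 := by simpa using Nat.card_le_card_of_surjective f hf
  have hCcard : Nat.card CQ ≤ 4 := by
    refine (Nat.card_le_card_of_injective (fun c : CQ =>
      (⟨w₀⁻¹ * (c * w₀ * (c : G)⁻¹), hfix₀ c c.2⟩ : X.Z a)) fun c c' h => ?_).trans hZcard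
    have h' : (c : G) * w₀ * (c : G)⁻¹ = c' * w₀ * (c' : G)⁻¹ :=
      mul_left_cancel (congrArg Subtype.val h :)
    set k := (c : G)⁻¹ * c' with hk
    have hkC : k ∈ CQ := CQ.mul_mem (CQ.inv_mem c.2) c'.2
    have hk0 : k * w₀ = w₀ * k := by
      calc k * w₀ = (c : G)⁻¹ * (c' * w₀ * (c' : G)⁻¹) * c' := by rw [hk]; group
        _ = (c : G)⁻¹ * (c * w₀ * (c : G)⁻¹) * c' := by rw [h']
        _ = w₀ * k := by rw [hk]; group
    have ckd : Commute k d := Subgroup.mem_centralizer_singleton_iff.mp hkC.2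
    have hkD : ∀ x, Commute k x → Commute k (D x) := fun x hx =>
      (ckd.mul_right hx).mul_right ckd.inv_right
    have hkP : k ∈ K := by
      refine ⟨hkC, Subgroup.mem_centralizer_iff.mpr fun x hx => ?_⟩
      have base : ∀ u, Commute k u → R u x → x * k = k * x := fun u hu h => by
        have h1 : Commute k (u⁻¹ * x) := comm_Z ha hkC.1 h
        have h2 := hu.mul_right h1
        rw [mul_inv_cancel_left] at h2
        exact h2.eq.symm
      by_cases hxZ : x ∈ X.Z a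
      · exact (comm_Z ha hkC.1 hxZ).symm
      rcases hcov' x hx hxZ with h | h | h
      · exact base _ hk0 h
      · exact base _ (hkD _ hk0) h
      · exact base _ (hkD _ (hkD _ hk0)) h
    rw [hKbot, Subgroup.mem_bot, hk, inv_mul_eq_one] at hkP
    exact Subtype.ext hkP
  have hPcard : Nat.card P ≤ 16 := by
    let u : Fin 4 → G := Fin.cons 1 ![w₀, D w₀, D (D w₀)]
    have hu : ∀ i, u i ∈ P := by
      intro i
      refine Fin.cases ?_ (fun j => ?_) i
      · exact one_mem P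
      · fin_cases j
        · exact hw₀
        · exact hDP _ hw₀
        · exact hDP _ (hDP _ hw₀)
    let m : Fin 4 × X.Z a → P := fun q => ⟨u q.1 * q.2, mul_mem (hu q.1) (hZP q.2.2)⟩
    have hm : Function.Surjective m := by
      intro x
      have hex : ∀ i, (u i)⁻¹ * (x : G) ∈ X.Z a → ∃ q, m q = x := fun i hi =>
        ⟨(i, ⟨_, hi⟩), Subtype.ext (mul_inv_cancel_left _ _)⟩
      by_cases hxZ : (x : G) ∈ X.Z a
      · exact hex 0 (by simpa [u] using hxZ)
      rcases hcov' _ x.2 hxZ with h | h | h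
      · exact hex 1 h
      · exact hex 2 h
      · exact hex 3 h
    refine (Nat.card_le_card_of_surjective m hm).trans ?_
    rw [Nat.card_prod, Nat.card_fin]
    omega
  have hPfin : Finite P := Finite.of_injective (Subgroup.inclusion hPQ)
    (Subgroup.inclusion_injective _)
  have hCfin : Finite CQ := Finite.of_injective (Subgroup.inclusion
    (inf_le_left : CQ ≤ C.Q a)) (Subgroup.inclusion_injective _)
  have hQcard : Nat.card (C.Q a) ≤ 64 := by
    refine (Nat.card_le_card_of_surjective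
      (fun q : P × CQ => (⟨q.1 * q.2, mul_mem (hPQ q.1.2) q.2.2.1⟩ : C.Q a)) fun q => ?_).trans ?_
    · obtain ⟨p, hp, c, hc, h⟩ := hdec q q.2
      exact ⟨(⟨p, hp⟩, ⟨c, hc⟩), Subtype.ext h⟩
    · rw [Nat.card_prod]
      exact (Nat.mul_le_mul hPcard hCcard).trans (by norm_num)
  refine bound_of_edge hy₀ ?_
  have := C.card_S_le hy₀
  omega

end Choice

end CfsgLib.CubicAmalgam
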