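/-
Critical walks of length one and two.
-/
import Cfsg.Agent.Lib.CubicAmalgam.Bound

set_option autoImplicit false

namespace CfsgLib.CubicAmalgam

open MulAction Cubic

variable {G : Type*} [Group G] {V : Type*} [MulAction G V] {C : Cubic G V}

namespace Choice

variable {X : Choice C}

theorem comm_eq {a a' y y' : V} (ha : X.IsA a) (ha' : X.IsA a') (hy : C.Adj a y)
    (hy' : C.Adj a' y') {t v : G} (ht : t ∈ X.Z a) (htS : t ∈ C.S a' y') (hv : v ∈ X.Z a')
    (hvS : v ∈ C.S a y) (hne : t * v ≠ v * t) :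
    X.z y * X.phi a = X.z y' * X.phi a' := by
  have h1 := conj_Z_ne ha hy hvS ht (Ne.symm hne)
  have h2 := conj_Z_ne ha' hy' htS hv hne
  rw [Z_inv ha' hv] at h1
  rw [Z_inv ha ht] at h2
  have e1 : X.z y * X.phi a = t * v * t * v := by
    rw [show X.z y * X.phi a = t⁻¹ * (t * (X.z y * X.phi a)) by group, ← h1, Z_inv ha ht]; group
  have e2 : X.z y' * X.phi a' = v * t * v * t := by
    rw [show X.z y' * X.phi a' = v⁻¹ * (v * (X.z y' * X.phi a')) by group, ← h2, Z_inv ha' hv]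
    group
  have hw : X.z y * X.phi a ∈ X.Z a := mul_mem (z_mem_Z hy) (phi_mem_Z ha)
  calc X.z y * X.phi a = (X.z y * X.phi a)⁻¹ := (Z_inv ha hw).symm
    _ = v⁻¹ * t⁻¹ * v⁻¹ * t⁻¹ := by rw [e1]; group
    _ = X.z y' * X.phi a' := by rw [Z_inv ha ht, Z_inv ha' hv, e2]

/-- Noncommuting elements at the ends of a critical walk of even length. -/
theorem Crit.exists_pair {p : ℕ → V} (hp : X.Crit p) (he : Even X.b) :
    ∃ t ∈ X.Z (p 0), ∃ v ∈ X.Z (p X.b), t * v ≠ v * t := by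
  obtain ⟨t, ht, htQ⟩ := SetLike.not_le_iff_exists.mp hp.not_le
  refine ⟨t, ht, ?_⟩
  by_contra hcon
  push Not at hcon
  exact htQ (mem_Q_of_comm_Z (hp.isA_even le_rfl he) (hp.Z0_fix le_rfl ht) hcon)

theorem one_dim2 (h2 : X.Dim2) (hb : X.b = 1) {p : ℕ → V} (hp : X.Crit p) : False := by
  have h01 : C.Adj (p 0) (p 1) := hp.adj 0 (by omega)
  have hβ : X.IsB (p 1) := hp.isB_odd (by omega) odd_one
  obtain ⟨t, ht, htQ⟩ := SetLike.not_le_iff_exists.mp hp.not_le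
  rw [hb] at htQ
  obtain ⟨c, c', hc, hc', hc0, hc'0, hcc, -⟩ := C.exists_others (C.symm h01)
  obtain ⟨g, hg1, hg0⟩ := C.trans_nbr (C.symm h01) hc
  have htS : t ∈ C.S (p 1) (p 0) := Q_le_S' h01 (Z_le_Q hp.isA ht)
  have ht'S : g * t * g⁻¹ ∈ C.S (p 1) c := by
    have := conj_mem_S (g := g) htS
    rwa [hg1, hg0] at this
  have ht'Q : g * t * g⁻¹ ∉ C.Q (p 1) := fun h => htQ
    (conj_mem_Q_iff.mp (by rw [hg1]; exact h))
  -- `t` acts trivially modulo the central involution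
  have key : ∀ q ∈ C.Q (p 1), t * q * t⁻¹ = q ∨ t * q * t⁻¹ = q * X.z (p 1) := by
    intro q hq
    have hqS : q ∈ C.S (p 0) (p 1) := Q_le_S' (C.symm h01) hq
    rcases conj_Z_two h2 hp.isA h01 hqS ht with h | h
    · left
      rw [← mul_inv_eq_iff_eq_mul.mp h, mul_inv_cancel_right]
    · right
      have hqz := z_comm hβ (mem_S.mp hqS).2
      calc t * q * t⁻¹ = t⁻¹ * (q * t * q⁻¹) * q := by
            rw [Z_inv hp.isA ht]; group
        _ = q * X.z (p 1) := by rw [h, inv_mul_cancel_left, hqz]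
  have key' : ∀ q ∈ C.Q (p 1), g * t * g⁻¹ * q * (g * t * g⁻¹)⁻¹ = q ∨
      g * t * g⁻¹ * q * (g * t * g⁻¹)⁻¹ = q * X.z (p 1) := by
    intro q hq
    have hgi : g⁻¹ • p 1 = p 1 := by rw [inv_smul_eq_iff, hg1]
    have e : g * t * g⁻¹ * q * (g * t * g⁻¹)⁻¹ = g * (t * (g⁻¹ * q * g⁻¹⁻¹) * t⁻¹) * g⁻¹ := by
      group
    rcases key _ (conj_mem_Q_self hgi hq) with h | h <;> rw [e, h]
    · left; group
    · right
      rw [show g * (g⁻¹ * q * g⁻¹⁻¹ * X.z (p 1)) * g⁻¹ = q * (g * X.z (p 1) * g⁻¹) by group,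
        z_comm hβ hg1, mul_inv_cancel_right]
  set d := t * (g * t * g⁻¹) with hd
  have hd1 : d • p 1 = p 1 := by
    rw [hd, mul_smul, (mem_S.mp ht'S).1, (mem_S.mp htS).1]
  have hzd : ∀ x : G, x • p 1 = p 1 → x * X.z (p 1) * x⁻¹ = X.z (p 1) := fun x hx => by
    rw [z_comm hβ hx, mul_inv_cancel_right]
  have hkey : ∀ q ∈ C.Q (p 1), d * q * d⁻¹ = q ∨ d * q * d⁻¹ = q * X.z (p 1) := by
    intro q hq
    have e : d * q * d⁻¹ = t * (g * t * g⁻¹ * q * (g * t * g⁻¹)⁻¹) * t⁻¹ := by rw [hd]; group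
    rcases key' q hq with h | h <;> rw [e, h]
    · exact key q hq
    · rw [show t * (q * X.z (p 1)) * t⁻¹ = t * q * t⁻¹ * (t * X.z (p 1) * t⁻¹) by group,
        hzd t (mem_S.mp htS).1]
      rcases key q hq with h' | h' <;> rw [h']
      · exact Or.inr rfl
      · left; rw [mul_assoc, X.z_mul_self _ hβ, mul_one]
  have hdd : d * d ∈ C.Q (p 1) := by
    refine X.char2 (p 1) _ (by rw [mul_smul, hd1, hd1]) fun q hq => ?_
    have e : d * d * q * (d * d)⁻¹ = d * (d * q * d⁻¹) * d⁻¹ := by group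
    have : d * d * q * (d * d)⁻¹ = q := by
      rw [e]
      rcases hkey q hq with h | h
      · rw [h, h]
      · rw [h, show d * (q * X.z (p 1)) * d⁻¹ = d * q * d⁻¹ * (d * X.z (p 1) * d⁻¹) by group,
          h, hzd d hd1, mul_assoc, X.z_mul_self _ hβ, mul_one]
    exact (mul_inv_eq_iff_eq_mul.mp this).symm
  have hdc0 : d • p 0 = c := by
    rw [hd, mul_smul, smul_eq_of_notMem_Q hc ht'S ht'Q (C.symm h01) hc0.symm hc' hcc.symm
      hc'0.symm, smul_eq_of_notMem_Q (C.symm h01) htS htQ hc' hc'0 hc hc0 hcc.symm]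
  have hdc : d • c = c' := by
    rw [hd, mul_smul, (mem_S.mp ht'S).2,
      smul_eq_of_notMem_Q (C.symm h01) htS htQ hc hc0 hc' hc'0 hcc]
  have := hdd.2 (p 0) (C.symm h01)
  rw [mul_smul, hdc0, hdc] at this
  exact hc'0 this

theorem one_dim3 (h3 : ¬ X.Dim2) (hb : X.b = 1) {p : ℕ → V} (hp : X.Crit p) : C.Bound := by
  let Y := X.phiChoice h3
  have h01 : C.Adj (p 0) (p 1) := hp.adj 0 (by omega)
  have hβ : X.IsB (p 1) := hp.isB_odd (by omega) odd_one
  have h10 := C.symm h01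
  obtain ⟨t, ht, htQ⟩ := SetLike.not_le_iff_exists.mp hp.not_le
  rw [hb] at htQ
  have htQ0 : t ∈ C.Q (p 0) := Z_le_Q hp.isA ht
  have htS : t ∈ C.S (p 1) (p 0) := Q_le_S' h01 htQ0
  obtain ⟨a, ha, hfQ0⟩ : ∃ a, C.Adj (p 1) a ∧ X.phi a ∉ C.Q (p 0) := by
    by_contra hcon
    push Not at hcon
    obtain ⟨a, a', ha, ha', ha0, ha'0, haa, -⟩ := C.exists_others h10
    refine z_ne (X := Y) (a := p 1) (by simpa [IsA, IsB, Y, phiChoice] using hβ) ha' ha haa.symm ?_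
    show X.phi a' = X.phi a
    rw [← smul_eq_of_notMem_Q h10 htS htQ ha ha0 ha' ha'0 haa, phi_smul (hβ.nbr ha),
      ← comm_Z hp.isA (hcon a ha) ht, mul_inv_cancel_right]
  set f := X.phi a with hf
  have hfB : Y.IsB a := hβ.nbr ha
  have hfQ : f ∈ C.Q (p 1) := z_mem_Q_nbr (X := Y) hfB (C.symm ha)
  have hfc : ∀ q ∈ C.Q (p 1), q * f = f * q := fun q hq => z_comm (X := Y) hfB (hq.2 a ha)
  set D := C.Q (p 0) ⊓ C.Q (p 1) with hD
  have htD : ∀ x ∈ C.Q (p 0), x ∉ C.Q (p 1) → t⁻¹ * x ∈ D := fun x hx hxQ =>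
    ⟨(C.Q _).mul_mem ((C.Q _).inv_mem htQ0) hx, inv_mul_mem_Q h10 htS htQ (Q_le_S' h01 hx) hxQ⟩
  have hfD : ∀ x ∈ C.Q (p 1), x ∉ C.Q (p 0) → f⁻¹ * x ∈ D := fun x hx hxQ =>
    ⟨inv_mul_mem_Q h01 (Q_le_S' h10 hfQ) hfQ0 (Q_le_S' h10 hx) hxQ,
      (C.Q _).mul_mem ((C.Q _).inv_mem hfQ) hx⟩
  -- the kernels are elementary abelian
  set N := Subgroup.closure {y | ∃ x ∈ D, y = x * x}
  have hft : f * f = 1 := Z_mul_self (hβ.nbr ha) (phi_mem_Z (hβ.nbr ha))
  have hsq0 : ∀ x ∈ C.Q (p 0), x * x ∈ N := by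
    intro x hx
    by_cases hxQ : x ∈ C.Q (p 1)
    · exact Subgroup.subset_closure ⟨x, ⟨hx, hxQ⟩, rfl⟩
    · have hy := htD x hx hxQ
      refine Subgroup.subset_closure ⟨t⁻¹ * x, hy, ?_⟩
      rw [Z_inv hp.isA ht, mul_assoc t x, ← mul_assoc x t x, comm_Z hp.isA hx ht, mul_assoc t x x,
        ← mul_assoc t t, Z_mul_self hp.isA ht, one_mul]
  have hsq1 : ∀ x ∈ C.Q (p 1), x * x ∈ N := by
    intro x hx
    by_cases hxQ : x ∈ C.Q (p 0)
    · exact Subgroup.subset_closure ⟨x, ⟨hxQ, hx⟩, rfl⟩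
    · have hy := hfD x hx hxQ
      refine Subgroup.subset_closure ⟨f⁻¹ * x, hy, ?_⟩
      rw [inv_eq_of_mul_eq_one_right hft, mul_assoc f x, ← mul_assoc x f x, hfc x hx,
        mul_assoc f x x, ← mul_assoc f f, hft, one_mul]
  have hNS : N ≤ C.S (p 0) (p 1) := (Subgroup.closure_le _).mpr fun _ ⟨x, hx, e⟩ =>
    e ▸ mul_mem (Q_le_S h01 hx.1) (Q_le_S h01 hx.1)
  have hNbot : N = ⊥ := by
    have key : ∀ g : G, (∀ x ∈ D, g * (x * x) * g⁻¹ ∈ N) → ∀ n ∈ N, g * n * g⁻¹ ∈ N := by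
      intro g hg n hn
      have : N ≤ N.comap (MulAut.conj g).toMonoidHom :=
        (Subgroup.closure_le _).mpr fun _ ⟨x, hx, e⟩ => e ▸ hg x hx
      exact this hn
    refine C.eq_bot_of_conj h01 hNS (fun g hg => key g fun x hx => ?_)
      (fun g hg => key g fun x hx => ?_)
    · rw [show g * (x * x) * g⁻¹ = g * x * g⁻¹ * (g * x * g⁻¹) by group]
      exact hsq0 _ (conj_mem_Q_self hg hx.1)
    · rw [show g * (x * x) * g⁻¹ = g * x * g⁻¹ * (g * x * g⁻¹) by group]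
      exact hsq1 _ (conj_mem_Q_self hg hx.2)
  have hDinv : ∀ x ∈ D, x⁻¹ = x := fun x hx => inv_eq_of_mul_eq_one_right (by
    have : x * x ∈ N := Subgroup.subset_closure ⟨x, hx, rfl⟩
    rwa [hNbot, Subgroup.mem_bot] at this)
  have hDc : ∀ x ∈ D, ∀ y ∈ D, x * y = y * x := fun x hx y hy => by
    have := hDinv _ (D.mul_mem hy hx)
    rwa [mul_inv_rev, hDinv x hx, hDinv y hy] at this
  have hQ0c : ∀ x ∈ D, ∀ q ∈ C.Q (p 0), q * x = x * q := by
    intro x hx q hq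
    by_cases hqQ : q ∈ C.Q (p 1)
    · exact hDc q ⟨hq, hqQ⟩ x hx
    · have h := hDc _ (htD q hq hqQ) x hx
      calc q * x = t * (t⁻¹ * q * x) := by group
        _ = t * x * (t⁻¹ * q) := by rw [h, mul_assoc]
        _ = x * q := by rw [← comm_Z hp.isA hx.1 ht]; group
  have hQ1c : ∀ x ∈ D, ∀ q ∈ C.Q (p 1), q * x = x * q := by
    intro x hx q hq
    by_cases hqQ : q ∈ C.Q (p 0)
    · exact hDc q ⟨hqQ, hq⟩ x hx
    · have h := hDc _ (hfD q hq hqQ) x hx
      calc q * x = f * (f⁻¹ * q * x) := by group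
        _ = f * x * (f⁻¹ * q) := by rw [h, mul_assoc]
        _ = x * q := by rw [← hfc x hx.2]; group
  obtain ⟨β', -, hβ', -, hβ1, -⟩ := C.exists_others h01
  obtain ⟨g, hg0, hg1⟩ := C.trans_nbr h01 hβ'
  obtain ⟨α', -, hα', -, hα0, -⟩ := C.exists_others h10
  obtain ⟨k, hk1, hk0⟩ := C.trans_nbr h10 hα'
  set E := D ⊓ Subgroup.centralizer {g * f * g⁻¹} ⊓ Subgroup.centralizer {k * t * k⁻¹}
  have hEbot : E = ⊥ := by
    rw [Subgroup.eq_bot_iff_forall]
    rintro x ⟨⟨hx, hxf⟩, hxt⟩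
    refine C.eq_one_of_central h01 (Q_le_S h01 hx.1) ?_ ?_
    · have hS : ∀ s ∈ C.S (p 0) (p 1), s * x = x * s := fun s hs =>
        Subgroup.mem_centralizer_singleton_iff.mp (S_le_of_Q_le h01
          (fun q hq => Subgroup.mem_centralizer_singleton_iff.mpr (hQ0c x hx q hq))
          (Q_le_S' h10 hfQ) hfQ0
          (Subgroup.mem_centralizer_singleton_iff.mpr (hQ1c x hx f hfQ)) hs)
      have hgfS : g * f * g⁻¹ ∈ C.S (p 0) β' := by
        have := conj_mem_S (g := g) (Q_le_S' h10 hfQ)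
        rwa [hg0, hg1] at this
      have hgfQ : g * f * g⁻¹ ∉ C.Q (p 0) := fun h => hfQ0
        (conj_mem_Q_iff.mp (by rw [hg0]; exact h))
      exact central_of_S h01 hS (Subgroup.mem_centralizer_singleton_iff.mp hxf).symm
        (mem_S.mp hgfS).1 (smul_ne_of_notMem_Q hβ' hgfS hgfQ h01 hβ1.symm)
    · have hS : ∀ s ∈ C.S (p 1) (p 0), s * x = x * s := fun s hs =>
        Subgroup.mem_centralizer_singleton_iff.mp (S_le_of_Q_le h10
          (fun q hq => Subgroup.mem_centralizer_singleton_iff.mpr (hQ1c x hx q hq))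
          htS htQ
          (Subgroup.mem_centralizer_singleton_iff.mpr (hQ0c x hx t htQ0)) hs)
      have hktS : k * t * k⁻¹ ∈ C.S (p 1) α' := by
        have := conj_mem_S (g := k) htS
        rwa [hk1, hk0] at this
      have hktQ : k * t * k⁻¹ ∉ C.Q (p 1) := fun h => htQ
        (conj_mem_Q_iff.mp (by rw [hk1]; exact h))
      exact central_of_S h10 hS (Subgroup.mem_centralizer_singleton_iff.mp hxt).symm
        (mem_S.mp hktS).1 (smul_ne_of_notMem_Q hα' hktS hktQ h10 hα0.symm)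
  have hfin0 : Finite (C.Q (p 0)) := C.finite_of_le fun x hx => mem_stabilizer_iff.mpr hx.1
  have c0 : Nat.card (C.Q (p 0)) ≤ 2 * Nat.card D :=
    card_le_two_mul_inf fun x hx y hy hxQ hyQ =>
      inv_mul_mem_Q h10 (Q_le_S' h01 hx) hxQ (Q_le_S' h01 hy) hyQ
  have conjc : ∀ (h y z : G), (h⁻¹ * y * h) * z = z * (h⁻¹ * y * h) →
      y * (h * z * h⁻¹) = h * z * h⁻¹ * y := by
    intro h y z e
    calc y * (h * z * h⁻¹) = h * (h⁻¹ * y * h * z) * h⁻¹ := by group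
      _ = h * (z * (h⁻¹ * y * h)) * h⁻¹ := by rw [e]
      _ = h * z * h⁻¹ * y := by group
  have hfinD : Finite D := C.finite_of_le fun x hx => mem_stabilizer_iff.mpr hx.1.1
  have c1 : Nat.card D ≤ 2 * Nat.card (D ⊓ Subgroup.centralizer {g * f * g⁻¹} : Subgroup G) := by
    refine card_le_two_mul_inf fun x hx y hy hxf hyf =>
      Subgroup.mem_centralizer_singleton_iff.mpr (conjc _ _ _ ?_)
    have hgi : g⁻¹ • p 0 = p 0 := by rw [inv_smul_eq_iff, hg0]
    have hn : ∀ z ∈ D, z ∉ Subgroup.centralizer {g * f * g⁻¹} →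
        g⁻¹ * z * g ∈ C.Q (p 0) ∧ g⁻¹ * z * g ∉ C.Q (p 1) := by
      intro z hz hzf
      refine ⟨by simpa using conj_mem_Q_self hgi hz.1, fun h => hzf ?_⟩
      exact Subgroup.mem_centralizer_singleton_iff.mpr (conjc _ _ _ (hfc _ h))
    have h := inv_mul_mem_Q h10 (Q_le_S' h01 (hn x hx hxf).1) (hn x hx hxf).2
      (Q_le_S' h01 (hn y hy hyf).1) (hn y hy hyf).2
    have e : g⁻¹ * (x⁻¹ * y) * g = (g⁻¹ * x * g)⁻¹ * (g⁻¹ * y * g) := by group
    rw [e]
    exact hfc _ h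
  have hfinD2 : Finite (D ⊓ Subgroup.centralizer {g * f * g⁻¹} : Subgroup G) :=
    C.finite_of_le fun x hx => mem_stabilizer_iff.mpr hx.1.1.1
  have c2 : Nat.card (D ⊓ Subgroup.centralizer {g * f * g⁻¹} : Subgroup G) ≤
      2 * Nat.card E := by
    refine card_le_two_mul_inf fun x hx y hy hxt hyt =>
      Subgroup.mem_centralizer_singleton_iff.mpr (conjc _ _ _ ?_)
    have hki : k⁻¹ • p 1 = p 1 := by rw [inv_smul_eq_iff, hk1]
    have hn : ∀ z ∈ D, z ∉ Subgroup.centralizer {k * t * k⁻¹} →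
        k⁻¹ * z * k ∈ C.Q (p 1) ∧ k⁻¹ * z * k ∉ C.Q (p 0) := by
      intro z hz hzt
      refine ⟨by simpa using conj_mem_Q_self hki hz.2, fun h => hzt ?_⟩
      exact Subgroup.mem_centralizer_singleton_iff.mpr (conjc _ _ _ (comm_Z hp.isA h ht))
    have h := inv_mul_mem_Q h01 (Q_le_S' h10 (hn x hx.1 hxt).1) (hn x hx.1 hxt).2
      (Q_le_S' h10 (hn y hy.1 hyt).1) (hn y hy.1 hyt).2
    have e : k⁻¹ * (x⁻¹ * y) * k = (k⁻¹ * x * k)⁻¹ * (k⁻¹ * y * k) := by group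
    rw [e]
    exact comm_Z hp.isA h ht
  rw [hEbot, Subgroup.card_bot] at c2
  have cinf : Nat.card (C.Q (p 0)) ≤ 8 := by omega
  refine bound_of_edge h01 ?_
  have := C.card_S_le h01
  omega

theorem two_dim3 (h3 : ¬ X.Dim2) (hb : X.b = 2) {p : ℕ → V} (hp : X.Crit p) : False := by
  have he : Even X.b := by rw [hb]; exact even_two
  obtain ⟨t, ht, v, hv, hne⟩ := hp.exists_pair he
  rw [hb] at hv
  have h2A : X.IsA (p 2) := hp.isA_even (by omega) even_two
  have h01 : C.Adj (p 0) (p 1) := hp.adj 0 (by omega)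
  have h12 : C.Adj (p 1) (p 2) := hp.adj 1 (by omega)
  have hv1 := Z_le_Q_of_walk h2A (.single (C.symm h12)) (by omega) hv
  have ht1 := hp.Z0_le (show 1 < X.b by omega) ht
  have hvS : v ∈ C.S (p 0) (p 1) := mem_S.mpr ⟨hv1.2 _ (C.symm h01), hv1.1⟩
  have htS : t ∈ C.S (p 2) (p 1) := mem_S.mpr ⟨ht1.2 _ h12, ht1.1⟩
  have heq := comm_eq hp.isA h2A h01 (C.symm h12) ht htS hv hvS hne
  have hY : (X.phiChoice h3).IsA (p 1) := by
    have := hp.isB_odd (show 1 ≤ X.b by omega) odd_one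
    simpa [IsA, IsB, phiChoice] using this
  exact z_ne (X := X.phiChoice h3) hY (C.symm h01) h12 (hp.isPath.ne 0 (by omega))
    (mul_left_cancel heq)

theorem crit_two (hb : X.b = 2) {p : ℕ → V} (hp : X.Crit p) {a y a' : V} (ha : X.IsA a)
    (hy : C.Adj a y) (hy' : C.Adj y a') (hne : a ≠ a') : ¬ X.Z a ≤ C.Q a' := by
  intro hle
  have h01 : C.Adj (p 0) (p 1) := hp.adj 0 (by omega)
  obtain ⟨s, hs1, hs0, hs⟩ := C.exists_swap (C.symm h01)
  obtain ⟨c, -, hc, -, hc0, -⟩ := C.exists_others (C.symm h01)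
  let q : ℕ → V := fun i => if i = 0 then a else if i = 1 then y else a'
  have hq : C.IsPath 2 q := ⟨fun i hi => by interval_cases i <;> simpa [q], fun i hi => by
    obtain rfl : i = 0 := by omega
    simpa [q] using hne⟩
  obtain ⟨g, hg⟩ := C.transit 2 (fun i h1 h2 => by
    obtain rfl : i = 1 := by omega
    exact ⟨p, s, hp.isPath.mono (by omega), rfl, fun j hj => by
      interval_cases j <;> assumption,
      fun h => hs c hc hc0 (h.2 c hc)⟩) p q (by rw [← hb]; exact hp.isPath) hq rfl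
      (by show C.typ a = _; exact ha.trans hp.isA.symm)
  have g0 : g • p 0 = a := by simpa [q] using hg 0 (by omega)
  have g2 : g • p 2 = a' := by simpa [q] using hg 2 le_rfl
  refine hp.not_le fun x hx => ?_
  have h := conj_mem_Z hp.isA (g := g) hx
  rw [g0] at h
  have h' := hle h
  rw [← g2, conj_mem_Q_iff] at h'
  rwa [hb]

theorem two_dim2 (h2 : X.Dim2) (hb : X.b = 2) {p : ℕ → V} (hp : X.Crit p) : C.Bound := by
  have he : Even X.b := by rw [hb]; exact even_two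
  obtain ⟨t, ht, v, hv, hne⟩ := hp.exists_pair he
  rw [hb] at hv
  have hA0 := hp.isA
  have h2A : X.IsA (p 2) := hp.isA_even (by omega) even_two
  have h01 : C.Adj (p 0) (p 1) := hp.adj 0 (by omega)
  have h12 : C.Adj (p 1) (p 2) := hp.adj 1 (by omega)
  have hβ : X.IsB (p 1) := hp.isB_odd (by omega) odd_one
  set a := p 0
  set z := X.z (p 1) with hz
  have hv1 : v ∈ C.Q (p 1) := Z_le_Q_of_walk h2A (.single (C.symm h12)) (by omega) hv
  have hvS : v ∈ C.S a (p 1) := mem_S.mpr ⟨hv1.2 _ (C.symm h01), hv1.1⟩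
  have hvQ : v ∉ C.Q a := fun h => hne (comm_Z hA0 h ht).symm
  have hv2 : v * v = 1 := Z_mul_self h2A hv
  have hvi : v⁻¹ = v := inv_eq_of_mul_eq_one_right hv2
  have hzfix : ∀ g : G, g • p 1 = p 1 → g * z * g⁻¹ = z := fun g hg => by
    rw [z_comm hβ hg, mul_inv_cancel_right]
  obtain ⟨y', hy', hy'Q⟩ := exists_mem_Q_notMem X.char2 h01
  have hy'S : y' ∈ C.S (p 1) a := Q_le_S' h01 hy'
  have hne02 : a ≠ p 2 := hp.isPath.ne 0 (by omega)
  set a₃ := y' • p 2 with ha₃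
  have ha3 : C.Adj (p 1) a₃ := by
    simpa [a₃, (mem_S.mp hy'S).1] using C.smul_adj y' h12
  have ha3ne : a₃ ≠ p 2 := smul_ne_of_notMem_Q (C.symm h01) hy'S hy'Q h12 hne02.symm
  have hA3 : X.IsA a₃ := h2A.smul y'
  set v'' := y' * v * y'⁻¹ with hv''
  have hv''Z : v'' ∈ X.Z a₃ := conj_mem_Z h2A hv
  have hv''1 : v'' ∈ C.Q (p 1) := by
    have := conj_mem_Q (g := y') hv1
    rwa [(mem_S.mp hy'S).1] at this
  have hv''S : v'' ∈ C.S a (p 1) := mem_S.mpr ⟨hv''1.2 _ (C.symm h01), hv''1.1⟩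
  have hv''Q : v'' ∉ C.Q a := fun h => hvQ (by
    have h' := conj_mem_Q_self (g := y'⁻¹) (by rw [inv_smul_eq_iff, (mem_S.mp hy'S).2]) h
    rwa [show y'⁻¹ * v'' * y'⁻¹⁻¹ = v by rw [hv'']; group] at h')
  -- `v` and `v''` do not commute
  have hvS3 : v ∈ C.S a₃ (p 1) := mem_S.mpr ⟨hv1.2 _ ha3, hv1.1⟩
  have hz3 : z ∈ C.Q a₃ := z_mem_Q_nbr hβ ha3
  have hv1ne : v ≠ 1 := fun h => hne (by rw [h, mul_one, one_mul])
  have hvz : v ≠ z := fun h => hvQ (by rw [h]; exact z_mem_Q_nbr hβ (C.symm h01))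
  have hv3Q : v ∉ C.Q a₃ := fun h => by
    rcases Z_inter h2 h2A (C.symm h12) (H := C.Q a₃) hz3
      (crit_two hb hp h2A (C.symm h12) ha3 ha3ne.symm) hv h with e | e
    · exact hv1ne e
    · exact hvz e
  have hnc : v * v'' ≠ v'' * v := by
    intro h
    rcases eq_z_of_fixed h2 hA3 (C.symm ha3) hvS3 hv3Q hv''Z h with e | e
    · exact hv1ne (conj_eq_one_iff.mp e)
    · refine hvz ?_
      rw [← hzfix y'⁻¹ (by rw [inv_smul_eq_iff, (mem_S.mp hy'S).1]), hz, ← e, hv'']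
      group
  set w := v'' * v with hw
  have hwQ : w ∈ C.Q a := mul_mem_Q h01 hv''S hv''Q hvS hvQ
  have hvv : v * v'' * v⁻¹ = v'' * z :=
    (conj_Z_two h2 hA3 (C.symm ha3) hvS3 hv''Z).resolve_left
      fun h => hnc (mul_inv_eq_iff_eq_mul.mp h)
  have hww : w * w = z := by
    rw [hw, show v'' * v * (v'' * v) = v'' * (v * v'' * v) by group]
    conv_lhs => arg 2; arg 2; rw [← hvi]
    rw [hvv, ← mul_assoc, Z_mul_self hA3 hv''Z, one_mul]
  have hwz : w * z = z * w := z_comm hβ (mem_S.mp (Q_le_S h01 hwQ)).2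
  set Xv := Subgroup.closure ({z, w} : Set G) with hXv
  have hzX : z ∈ Xv := Subgroup.subset_closure (by simp)
  have hwX : w ∈ Xv := Subgroup.subset_closure (by simp)
  have key : ∀ q ∈ C.Q a, q * v * q⁻¹ * v⁻¹ ∈ Xv := by
    intro q hq
    have key1 : ∀ q ∈ C.Q a, q ∈ C.Q (p 1) → q * v * q⁻¹ = v ∨ q * v * q⁻¹ = v * z := by
      intro q hq hq1
      exact conj_Z_two h2 h2A (C.symm h12) (mem_S.mpr ⟨hq1.2 _ h12, hq1.1⟩) hv
    by_cases hq1 : q ∈ C.Q (p 1)
    · rcases key1 q hq hq1 with h | h <;> rw [h]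
      · simp
      · rw [show v * z * v⁻¹ = v * z * v⁻¹ from rfl, hzfix v hv1.1]; exact hzX
    · have hq' : y'⁻¹ * q ∈ C.Q a := mul_mem (inv_mem hy') hq
      have hq'1 : y'⁻¹ * q ∈ C.Q (p 1) :=
        inv_mul_mem_Q (C.symm h01) hy'S hy'Q (Q_le_S' h01 hq) hq1
      have e : q * v * q⁻¹ * v⁻¹ = y' * (y'⁻¹ * q * v * (y'⁻¹ * q)⁻¹) * y'⁻¹ * v⁻¹ := by group
      rcases key1 _ hq' hq'1 with h | h <;> rw [e, h]
      · rw [show y' * v * y'⁻¹ * v⁻¹ = w by rw [hw, hv'', hvi]]; exact hwX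
      · rw [show y' * (v * z) * y'⁻¹ * v⁻¹ = v'' * (y' * z * y'⁻¹) * v⁻¹ by rw [hv'']; group,
          hzfix y' (mem_S.mp hy'S).1, z_comm hβ hv''1.1, mul_assoc, hvi, ← hw]
        exact Xv.mul_mem hzX hwX
  have hnX : ∀ x ∈ C.Q a, ∀ n ∈ Xv, x * n * x⁻¹ ∈ Xv := by
    intro x hx n hn
    have : Xv ≤ Xv.comap (MulAut.conj x).toMonoidHom := by
      refine (Subgroup.closure_le _).mpr ?_
      rintro _ (rfl | rfl)
      · show x * z * x⁻¹ ∈ Xv
        rw [hzfix x (hx.2 _ h01)]; exact hzX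
      · show x * w * x⁻¹ ∈ Xv
        have e : x * w * x⁻¹ = (x * y') * v * (x * y')⁻¹ * v⁻¹ * (x * v * x⁻¹ * v⁻¹)⁻¹ := by
          rw [show w = y' * v * y'⁻¹ * v⁻¹ by rw [hw, hv'', hvi]]; group
        rw [e]
        exact Xv.mul_mem (key _ (mul_mem hx hy')) (Xv.inv_mem (key x hx))
    exact this hn
  have hvX : ∀ n ∈ Xv, v * n * v⁻¹ ∈ Xv := by
    intro n hn
    have : Xv ≤ Xv.comap (MulAut.conj v).toMonoidHom := by
      refine (Subgroup.closure_le _).mpr ?_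
      rintro _ (rfl | rfl)
      · show v * z * v⁻¹ ∈ Xv
        rw [hzfix v hv1.1]; exact hzX
      · show v * w * v⁻¹ ∈ Xv
        rw [hw, show v * (v'' * v) * v⁻¹ = v * v'' by group]
        have e : v * v'' = (v'' * v)⁻¹ := by
          rw [mul_inv_rev, hvi, inv_eq_of_mul_eq_one_right (Z_mul_self hA3 hv''Z)]
        rw [e]; exact Xv.inv_mem hwX
    exact this hn
  -- the conjugate configuration at another neighbour
  obtain ⟨y₂, -, hy₂, -, hy₂ne, -⟩ := C.exists_others h01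
  obtain ⟨h, hha, hh1⟩ := C.trans_nbr h01 hy₂
  have hhi : h⁻¹ • a = a := by rw [inv_smul_eq_iff, hha]
  set z' := X.z y₂ with hz'
  have hzz' : h * z * h⁻¹ = z' := by rw [hz', ← hh1, X.z_smul h _ hβ]
  set v' := h * v * h⁻¹ with hv'
  set w' := h * w * h⁻¹ with hw'
  set Xv' := Xv.map (MulAut.conj h).toMonoidHom with hXv'
  have memX' : ∀ x, h⁻¹ * x * h ∈ Xv → x ∈ Xv' := fun x hx =>
    ⟨_, hx, by show h * (h⁻¹ * x * h) * h⁻¹ = x; group⟩
  have hwQ' : w' ∈ C.Q a := conj_mem_Q_self hha hwQ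
  have hnX' : ∀ x ∈ C.Q a, ∀ n ∈ Xv', x * n * x⁻¹ ∈ Xv' := by
    rintro x hx _ ⟨n, hn, rfl⟩
    refine memX' _ ?_
    show h⁻¹ * (x * (h * n * h⁻¹) * x⁻¹) * h ∈ Xv
    have := hnX _ (conj_mem_Q_self hhi hx) n hn
    rw [inv_inv] at this
    convert this using 1
    group
  have hzne : z ≠ z' := z_ne hA0 h01 hy₂ hy₂ne.symm
  have hzn1 : z ≠ 1 := X.z_ne_one _ hβ
  have hz'n1 : z' ≠ 1 := X.z_ne_one _ (hA0.nbr hy₂)
  have hXmem : ∀ x ∈ Xv, x = 1 ∨ x = z ∨ x = w ∨ x = w * z := by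
    intro x hx
    have hz2 : z * z = 1 := X.z_mul_self _ hβ
    have hx' : x ∈ Subgroup.closure ((Subgroup.zpowers z : Set G) ∪ {w, 1}) :=
      (Subgroup.closure_le _).mpr (by
        rintro _ (rfl | rfl)
        · exact Subgroup.subset_closure (Or.inl (Subgroup.mem_zpowers z))
        · exact Subgroup.subset_closure (Or.inr (by simp))) hx
    have hzp : ∀ u ∈ Subgroup.zpowers z, u = 1 ∨ u = z := by
      intro u hu
      obtain ⟨i, rfl⟩ := Subgroup.mem_zpowers_iff.mp hu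
      rcases Int.even_or_odd i with ⟨j, rfl⟩ | ⟨j, rfl⟩
      · left; rw [← two_mul, zpow_mul, zpow_two, hz2, one_zpow]
      · right; rw [zpow_add, zpow_mul, zpow_two, hz2, one_zpow, one_mul, zpow_one]
    rcases four_cosets (Z := Subgroup.zpowers z) (a := w) (b := 1) (by simp)
      (fun u hu => by rcases hzp u hu with rfl | rfl <;> simp [hwz]) (by simp)
      (by rw [hww]; exact Subgroup.mem_zpowers z) (by simp) hx' with e | e | e | e
    · rcases hzp _ e with e | e <;> simp [e]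
    · rcases hzp _ e with e | e <;> rw [inv_mul_eq_iff_eq_mul] at e <;> simp [e]
    · rw [inv_one, one_mul] at e
      rcases hzp _ e with e | e <;> simp [e]
    · rw [mul_one] at e
      rcases hzp _ e with e | e <;> rw [inv_mul_eq_iff_eq_mul] at e <;> simp [e]
  have hsqX : ∀ x ∈ Xv, x * x = 1 ∨ x * x = z := by
    intro x hx
    rcases hXmem x hx with rfl | rfl | rfl | rfl
    · simp
    · exact Or.inl (X.z_mul_self _ hβ)
    · exact Or.inr hww
    · right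
      rw [mul_assoc w z, ← mul_assoc z w, ← hwz, mul_assoc w z z, X.z_mul_self _ hβ, mul_one, hww]
  have hww' : w' * w' = z' := by
    rw [hw', show h * w * h⁻¹ * (h * w * h⁻¹) = h * (w * w) * h⁻¹ by group, hww, hzz']
  have hsq1 : ∀ x ∈ Xv, x * x = 1 → x = 1 ∨ x = z := by
    intro x hx hx2
    rcases hXmem x hx with e | e | e | e
    · exact Or.inl e
    · exact Or.inr e
    · rw [e, hww] at hx2; exact absurd hx2 hzn1
    · rw [e, mul_assoc w z, ← mul_assoc z w, ← hwz, mul_assoc w z z, X.z_mul_self _ hβ, mul_one,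
        hww] at hx2
      exact absurd hx2 hzn1
  have hinter : ∀ x ∈ Xv, x ∈ Xv' → x = 1 := by
    rintro x hx ⟨n, hn, rfl⟩
    have hsq : (MulAut.conj h).toMonoidHom n * (MulAut.conj h).toMonoidHom n =
        h * (n * n) * h⁻¹ := by
      show h * n * h⁻¹ * (h * n * h⁻¹) = _; group
    rcases hsqX n hn with e | e
    · rcases hsq1 n hn e with rfl | rfl
      · exact map_one _
      · have h2' : z' * z' = 1 := X.z_mul_self _ (hA0.nbr hy₂)
        have hxe : (MulAut.conj h).toMonoidHom z = z' := hzz'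
        rw [hxe] at hx ⊢
        exact (hsq1 _ hx h2').resolve_right fun f => hzne f.symm
    · rw [e, hzz'] at hsq
      rcases hsqX _ hx with f | f <;> rw [hsq] at f
      · exact absurd f hz'n1
      · exact absurd f.symm hzne
  have hw'X : w' ∈ Xv' := ⟨w, hwX, rfl⟩
  have hcomm : w * w' = w' * w := by
    have h1 : w * w' * w⁻¹ * w'⁻¹ ∈ Xv := by
      rw [show w * w' * w⁻¹ * w'⁻¹ = w * (w' * w⁻¹ * w'⁻¹) by group]
      exact Xv.mul_mem hwX (hnX w' hwQ' _ (Xv.inv_mem hwX))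
    have h2' : w * w' * w⁻¹ * w'⁻¹ ∈ Xv' :=
      Xv'.mul_mem (hnX' w hwQ _ hw'X) (Xv'.inv_mem hw'X)
    have := hinter _ h1 h2'
    exact mul_inv_eq_iff_eq_mul.mp (mul_inv_eq_one.mp this)
  -- the normal subgroup of order sixteen
  set P := Subgroup.closure ((X.Z a : Set G) ∪ {w, w'}) with hP
  have hZc : ∀ q ∈ C.Q a, ∀ u ∈ X.Z a, q * u = u * q := fun q hq u hu => comm_Z hA0 hq hu
  have hsqw : w * w ∈ X.Z a := by rw [hww]; exact z_mem_Z h01
  have hsqw' : w' * w' ∈ X.Z a := by rw [hww']; exact z_mem_Z hy₂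
  have hfour : ∀ x ∈ P, x ∈ X.Z a ∨ w⁻¹ * x ∈ X.Z a ∨ w'⁻¹ * x ∈ X.Z a ∨
      (w * w')⁻¹ * x ∈ X.Z a := fun x hx =>
    four_cosets hcomm (hZc w hwQ) (hZc w' hwQ') hsqw hsqw' hx
  have hZP : X.Z a ≤ P := fun x hx => Subgroup.subset_closure (Or.inl hx)
  have hwP : w ∈ P := Subgroup.subset_closure (Or.inr (by simp))
  have hw'P : w' ∈ P := Subgroup.subset_closure (Or.inr (by simp))
  have hXP : Xv ≤ P := (Subgroup.closure_le _).mpr (by
    rintro _ (rfl | rfl)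
    · exact hZP (z_mem_Z h01)
    · exact hwP)
  have hX'P : Xv' ≤ P := by
    rw [hXv', Subgroup.map_le_iff_le_comap]
    refine (Subgroup.closure_le _).mpr ?_
    rintro _ (rfl | rfl)
    · show h * z * h⁻¹ ∈ P
      rw [hzz']; exact hZP (z_mem_Z hy₂)
    · exact hw'P
  have hPQ : P ≤ C.Q a := (Subgroup.closure_le _).mpr (by
    rintro x (hx | rfl | rfl)
    · exact Z_le_Q hA0 hx
    · exact hwQ
    · exact hwQ')
  have hgen : ∀ g : G, g • a = a → g * w * g⁻¹ ∈ P → g * w' * g⁻¹ ∈ P →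
      g ∈ Subgroup.normalizer (P : Set G) := by
    intro g hg h1 h2'
    have : Finite P := C.finite_of_le fun x hx => mem_stabilizer_iff.mpr (hPQ hx).1
    refine mem_normalizer_of_conj fun x hx => ?_
    have hle : P ≤ P.comap (MulAut.conj g).toMonoidHom := (Subgroup.closure_le _).mpr (by
      rintro x (hx | rfl | rfl)
      · exact hZP (conj_mem_Z_self hA0 hg hx)
      · exact h1
      · exact h2')
    exact hle hx
  have hact1 : ∀ q ∈ C.Q a, v * q * v⁻¹ * q⁻¹ ∈ Xv := fun q hq => by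
    have := Xv.inv_mem (key q hq)
    rwa [show (q * v * q⁻¹ * v⁻¹)⁻¹ = v * q * v⁻¹ * q⁻¹ by group] at this
  have hact2 : ∀ q ∈ C.Q a, v' * q * v'⁻¹ * q⁻¹ ∈ Xv' := fun q hq => memX' _ (by
    have := hact1 _ (conj_mem_Q_self hhi hq)
    rw [inv_inv] at this
    rw [hv']
    convert this using 1
    group)
  have hv'S : v' ∈ C.S a y₂ := by
    have := conj_mem_S (g := h) hvS
    rwa [hha, hh1] at this
  have hv'Q : v' ∉ C.Q a := fun e => hvQ (by
    have e' := conj_mem_Q_self hhi e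
    rwa [show h⁻¹ * v' * h⁻¹⁻¹ = v by rw [hv']; group] at e')
  have hnorm : stabilizer G a ≤ Subgroup.normalizer (P : Set G) := by
    have hQn : ∀ q ∈ C.Q a, q ∈ Subgroup.normalizer (P : Set G) := fun q hq =>
      hgen q hq.1 (hXP (hnX q hq w hwX)) (hX'P (hnX' q hq w' hw'X))
    have hvn : v ∈ Subgroup.normalizer (P : Set G) := hgen v (mem_S.mp hvS).1
      (hXP (hvX w hwX)) (by
        rw [show v * w' * v⁻¹ = v * w' * v⁻¹ * w'⁻¹ * w' by group]
        exact P.mul_mem (hXP (hact1 w' hwQ')) hw'P)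
    have hv'n : v' ∈ Subgroup.normalizer (P : Set G) := hgen v' (mem_S.mp hv'S).1 (by
        rw [show v' * w * v'⁻¹ = v' * w * v'⁻¹ * w⁻¹ * w by group]
        exact P.mul_mem (hX'P (hact2 w hwQ)) hwP)
      (hX'P (memX' _ (by
        rw [hv', hw']
        convert hvX w hwX using 1
        group)))
    exact stab_le_of_S_le h01 (S_le_of_Q_le h01 hQn hvS hvQ hvn) hv'n (mem_S.mp hv'S).1
      (smul_ne_of_notMem_Q hy₂ hv'S hv'Q h01 hy₂ne.symm)
  have hn : ∀ g : G, g • a = a → ∀ x ∈ P, g * x * g⁻¹ ∈ P := fun g hg x hx =>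
    ((Subgroup.mem_normalizer_iff.mp (hnorm (mem_stabilizer_iff.mpr hg))) x).mp hx
  have hcoset : ∀ u ∈ C.Q a, ∀ x, u⁻¹ * x ∈ X.Z a → x * x = u * u := by
    intro u hu x hx
    calc x * x = u * (u⁻¹ * x * u) * (u⁻¹ * x) := by group
      _ = u * (u * (u⁻¹ * x)) * (u⁻¹ * x) := by rw [hZc u hu _ hx]
      _ = u * u * (u⁻¹ * x * (u⁻¹ * x)) := by group
      _ = u * u := by rw [Z_mul_self hA0 hx, mul_one]
  have hsqww : w * w' * (w * w') = z * z' := by
    rw [show w * w' * (w * w') = w * (w' * w) * w' by group, ← hcomm,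
      show w * (w * w') * w' = w * w * (w' * w') by group, hww, hww']
  have hsq : ∀ x ∈ P, x * x ∈ X.Z a := by
    intro x hx
    rcases hfour x hx with e | e | e | e
    · rw [Z_mul_self hA0 e]; exact one_mem _
    · rw [hcoset w hwQ x e]; exact hsqw
    · rw [hcoset w' hwQ' x e]; exact hsqw'
    · rw [hcoset _ (mul_mem hwQ hwQ') x e, hsqww]
      exact mul_mem (z_mem_Z h01) (z_mem_Z hy₂)
  have hinv : ∀ x ∈ P, x * x = 1 → x ∈ X.Z a := by
    intro x hx hx2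
    rcases hfour x hx with e | e | e | e
    · exact e
    · rw [hcoset w hwQ x e, hww] at hx2; exact absurd hx2 hzn1
    · rw [hcoset w' hwQ' x e, hww'] at hx2; exact absurd hx2 hz'n1
    · rw [hcoset _ (mul_mem hwQ hwQ') x e, hsqww] at hx2
      exact absurd (mul_eq_one_iff_eq_inv.mp hx2) (by rwa [z_inv (hA0.nbr hy₂)])
  have hPc : ∀ x ∈ P, ∀ y ∈ P, x * y = y * x := by
    have hgc : ∀ x ∈ (X.Z a : Set G) ∪ {w, w'}, ∀ y ∈ (X.Z a : Set G) ∪ {w, w'},
        x * y = y * x := by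
      rintro x (hx | rfl | rfl) y (hy | rfl | rfl)
      · exact Z_comm hA0 hx hy
      · exact (hZc _ hwQ x hx).symm
      · exact (hZc _ hwQ' x hx).symm
      · exact hZc _ hwQ y hy
      · rfl
      · exact hcomm
      · exact hZc _ hwQ' y hy
      · exact hcomm.symm
      · rfl
    intro x hx y hy
    have : P ≤ Subgroup.centralizer {y} := (Subgroup.closure_le _).mpr fun u hu => by
      have h' : P ≤ Subgroup.centralizer {u} := (Subgroup.closure_le _).mpr fun r hr =>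
        Subgroup.mem_centralizer_singleton_iff.mpr (hgc r hr u hu)
      exact Subgroup.mem_centralizer_singleton_iff.mpr
        (Subgroup.mem_centralizer_singleton_iff.mp (h' hy)).symm
    exact Subgroup.mem_centralizer_singleton_iff.mp (this hx)
  have hout : ∀ y, C.Adj a y → ¬ P ≤ C.Q y := by
    intro y hy hle
    obtain ⟨g, hga, hg1⟩ := C.trans_nbr hy h01
    have hgi : g⁻¹ • a = a := by rw [inv_smul_eq_iff, hga]
    have hw'1 : w' ∈ C.Q (p 1) := by
      have h1 := conj_mem_Q (g := g) (hle (hn g⁻¹ hgi w' hw'P))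
      rw [hg1, inv_inv, show g * (g⁻¹ * w' * g) * g⁻¹ = w' by group] at h1
      exact h1
    have hvy : v • y₂ ≠ y₂ := smul_ne_of_notMem_Q h01 hvS hvQ hy₂ hy₂ne
    refine z_ne hA0 (by simpa [(mem_S.mp hvS).1] using C.smul_adj v hy₂) hy₂ hvy ?_
    rw [X.z_smul v _ (hA0.nbr hy₂), ← hz', ← hww',
      show v * (w' * w') * v⁻¹ = v * w' * v⁻¹ * (v * w' * v⁻¹) by group]
    have hw'i : w'⁻¹ • a = a := inv_smul_eq_iff.mpr hwQ'.1.symm
    -- `[w', v]` is a power of `z`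
    rcases conj_Z_two h2 h2A (C.symm h12) (mem_S.mpr ⟨hw'1.2 _ h12, hw'1.1⟩) hv with e | e
    · rw [show v * w' * v⁻¹ = w' by
        rw [← mul_inv_eq_iff_eq_mul.mp e, mul_inv_cancel_right]]
    · have e' : v * w' * v⁻¹ = w' * z := by
        calc v * w' * v⁻¹ = v⁻¹ * (w' * v * w'⁻¹) * w' := by
              simp only [hvi]; group
          _ = z * w' := by rw [e, inv_mul_cancel_left]
          _ = w' * z := (z_comm hβ hw'1.1).symm
      rw [e']
      refine hcoset w' hwQ' _ ?_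
      rw [inv_mul_cancel_left]; exact z_mem_Z h01
  obtain ⟨d, hdM, hda, hdQ, hd3, hσd⟩ := exists_three h01 hy₂ hy₂ne.symm hvS hvQ hv2 hv'S hv'Q
    (by rw [hv', show h * v * h⁻¹ * (h * v * h⁻¹) = h * (v * v) * h⁻¹ by group, hv2, mul_one,
      mul_inv_cancel])
    (M := { carrier := {g | g • a = a ∧ ∀ q ∈ C.Q a, g * q * g⁻¹ * q⁻¹ ∈ P}
            one_mem' := ⟨one_smul _ _, fun q _ => by simp⟩
            mul_mem' := fun {g g'} hg hg' => ⟨by rw [mul_smul, hg'.1, hg.1], fun q hq => by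
              rw [show g * g' * q * (g * g')⁻¹ * q⁻¹ =
                g * (g' * q * g'⁻¹ * q⁻¹) * g⁻¹ * (g * q * g⁻¹ * q⁻¹) by group]
              exact P.mul_mem (hn g hg.1 _ (hg'.2 q hq)) (hg.2 q hq)⟩
            inv_mem' := fun {g} hg => ⟨inv_smul_eq_iff.mpr hg.1.symm, fun q hq => by
              have hgi : g⁻¹ • a = a := inv_smul_eq_iff.mpr hg.1.symm
              have h1 := hn g⁻¹ hgi _ (P.inv_mem (hg.2 q hq))
              convert h1 using 1
              group⟩ })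
    ⟨(mem_S.mp hvS).1, fun q hq => hXP (hact1 q hq)⟩
    ⟨(mem_S.mp hv'S).1, fun q hq => hX'P (hact2 q hq)⟩
  exact bound_of_P h2 (by omega) hA0 hPQ hZP hn hPc hinv hout hsq ![w, w', w * w']
    (fun x hx => by
      rcases hfour x hx with e | e | e | e
      · exact Or.inl e
      · exact Or.inr ⟨0, e⟩
      · exact Or.inr ⟨1, e⟩
      · exact Or.inr ⟨2, e⟩)
    (mem_S.mp hvS).1 hvQ hv2 hda hdQ hd3 hσd hdM.2

end Choice

end CfsgLib.CubicAmalgam
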