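/-
Shifting and reversing critical walks; cosets of products at a vertex with chosen involution.
-/
import Cfsg.Agent.Lib.CubicAmalgam.OneTwo

set_option autoImplicit false

namespace CfsgLib.CubicAmalgam

open MulAction Cubic

variable {G : Type*} [Group G] {V : Type*} [MulAction G V] {C : Cubic G V}

/-- Prepend two vertices. -/
def shiftP (x δ : V) (p : ℕ → V) : ℕ → V := fun j =>
  if j = 0 then x else if j = 1 then δ else p (j - 2)

@[simp] theorem shiftP_zero (x δ : V) (p : ℕ → V) : shiftP x δ p 0 = x := rfl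

@[simp] theorem shiftP_one (x δ : V) (p : ℕ → V) : shiftP x δ p 1 = δ := rfl

@[simp] theorem shiftP_add (x δ : V) (p : ℕ → V) (j : ℕ) : shiftP x δ p (j + 2) = p j := by
  simp [shiftP]

theorem shiftP_of_le (x δ : V) (p : ℕ → V) {j : ℕ} (h : 2 ≤ j) : shiftP x δ p j = p (j - 2) := by
  simp [shiftP, show j ≠ 0 by omega, show j ≠ 1 by omega]

/-- A walk backwards, started at a new vertex. -/
def revP (b : ℕ) (μ : V) (p : ℕ → V) : ℕ → V := fun j => if j = 0 then μ else p (b + 1 - j)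

@[simp] theorem revP_zero (b : ℕ) (μ : V) (p : ℕ → V) : revP b μ p 0 = μ := rfl

theorem revP_of_pos (b : ℕ) (μ : V) (p : ℕ → V) {j : ℕ} (h : 1 ≤ j) :
    revP b μ p j = p (b + 1 - j) := by
  simp [revP, show j ≠ 0 by omega]

namespace Choice

variable {X : Choice C}

theorem Crit.b_le {p : ℕ → V} (hp : X.Crit p) {i : ℕ} (h : X.b < i + 1) (hi : i ≤ X.b) :
    ¬ X.Z (p 0) ≤ C.Q (p i) := by
  obtain rfl : i = X.b := by omega
  exact hp.not_le

theorem crit_shift {p : ℕ → V} (hp : X.Crit p) (hb : 2 ≤ X.b) {x δ : V} (hδ : C.Adj (p 0) δ)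
    (hx : C.Adj δ x) (hnle : ¬ X.Z x ≤ C.Q (p (X.b - 2))) : X.Crit (shiftP x δ p) where
  adj i hi := by
    rcases i with _ | _ | i
    · simpa using C.symm hx
    · simpa [shiftP] using C.symm hδ
    · simpa [shiftP] using hp.adj i (by omega)
  isA := by simpa using (hp.isA.nbr hδ).nbr hx
  not_le := by rwa [shiftP_zero, shiftP_of_le _ _ _ hb]

theorem crit_rev {p : ℕ → V} (hp : X.Crit p) (ho : Odd X.b) {μ : V} (hμ : C.Adj (p X.b) μ)
    (hnle : ¬ X.Z μ ≤ C.Q (p 1)) : X.Crit (revP X.b μ p) where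
  adj i hi := by
    rw [revP_of_pos X.b μ p (show 1 ≤ i + 1 by omega)]
    rcases i with _ | i
    · simpa using C.symm hμ
    · rw [revP_of_pos X.b μ p (show 1 ≤ i + 1 by omega)]
      have := C.symm (hp.adj (X.b + 1 - (i + 1 + 1)) (by omega))
      rwa [show X.b + 1 - (i + 1 + 1) + 1 = X.b + 1 - (i + 1) by omega] at this
  isA := by simpa using (hp.isB_odd le_rfl ho).nbr hμ
  not_le := by
    have := hp.b_pos
    rw [revP_zero, revP_of_pos _ _ _ this, show X.b + 1 - X.b = 1 by omega]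
    exact hnle

/-- With model paths of all lengths, every path is critical. -/
theorem crit_of_models {p : ℕ → V} (hp : X.Crit p)
    (hmod : ∀ i, 1 ≤ i → i < X.b → ∃ (r : ℕ → V) (h : G), C.IsPath i r ∧ X.IsA (r 0) ∧
      (∀ j, j ≤ i → h • r j = r j) ∧ h ∉ C.Q (r i))
    {q : ℕ → V} (hq : C.IsPath X.b q) (hqA : X.IsA (q 0)) : ¬ X.Z (q 0) ≤ C.Q (q X.b) := by
  intro hle
  obtain ⟨g, hg⟩ := C.transit X.b hmod p q hp.isPath hq hp.isA hqA
  refine hp.not_le fun x hx => ?_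
  have h := conj_mem_Z hp.isA (g := g) hx
  rw [hg 0 (Nat.zero_le _)] at h
  have h' := hle h
  rw [← hg X.b le_rfl, conj_mem_Q_iff] at h'
  exact h'

theorem model_t {p : ℕ → V} (hp : X.Crit p) {t : G} (ht : t ∈ X.Z (p 0))
    (htQ : t ∉ C.Q (p X.b)) {i : ℕ} (hi : i ≤ X.b) (he : Even (X.b - i)) :
    ∃ (r : ℕ → V) (h : G), C.IsPath i r ∧ X.IsA (r 0) ∧ (∀ j, j ≤ i → h • r j = r j) ∧
      h ∉ C.Q (r i) :=
  ⟨fun j => p (X.b - i + j), t, hp.isPath.shift (by omega), hp.isA_even (by omega) (by simpa),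
    fun j hj => hp.Z0_fix (by omega) ht, by simpa [show X.b - i + i = X.b by omega] using htQ⟩

/-- If all modules at `δ` lie in the kernel two steps before the end of a critical walk, they lie
in the next kernel. -/
theorem Vy_le_Q_next {p : ℕ → V} (hp : X.Crit p) (hb : 3 ≤ X.b) {δ : V} (hδ : C.Adj (p 0) δ)
    (hδ1 : δ ≠ p 1) (hfail : X.Vy δ ≤ C.Q (p (X.b - 2))) : X.Vy δ ≤ C.Q (p (X.b - 1)) := by
  intro u hu
  by_contra huQ
  obtain ⟨t, ht, htQ⟩ := SetLike.not_le_iff_exists.mp hp.not_le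
  have hB : X.IsB δ := hp.isA.nbr hδ
  have hfix : ∀ j, j ≤ X.b - 1 → u • p j = p j := by
    intro j hj
    rcases Nat.lt_or_ge j (X.b - 1) with h | h
    · exact Vy_fix hB (Walk.cons (C.symm hδ) (hp.walk (Nat.zero_le j) (by omega))) (by omega) hu
    · obtain rfl : j = X.b - 2 + 1 := by omega
      exact (hfail hu).2 _ (hp.adj _ (by omega))
  obtain ⟨x, -, hx, -, hx0, -⟩ := C.exists_others (C.symm hδ)
  refine crit_of_models hp (fun i hi1 hi => ?_) (q := shiftP x δ p) ?_ ?_ ?_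
  · rcases Nat.even_or_odd (X.b - i) with he | ho
    · exact model_t hp ht htQ hi.le he
    · refine ⟨fun j => p (X.b - 1 - i + j), u, hp.isPath.shift (by omega), hp.isA_even (by omega)
        (by obtain ⟨k, hk⟩ := ho; exact ⟨k, by simp only [Nat.add_zero]; omega⟩),
        fun j hj => hfix _ (by omega), ?_⟩
      simpa [show X.b - 1 - i + i = X.b - 1 by omega] using huQ
  · refine ⟨fun i hi => ?_, fun i hi => ?_⟩
    · rcases i with _ | _ | i
      · simpa using C.symm hx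
      · simpa [shiftP] using C.symm hδ
      · simpa [shiftP] using hp.adj i (by omega)
    · rcases i with _ | _ | i
      · simpa [shiftP] using hx0
      · simpa [shiftP] using hδ1
      · simpa [shiftP] using hp.isPath.ne i (by omega)
  · simpa using hB.nbr hx
  · rw [shiftP_zero, shiftP_of_le _ _ _ (by omega)]
    exact fun z hz => hfail (Z_le_Vy hx hz)

variable (X)

/-- Products of noncentral elements of the two modules at `y` other than the one at `a`. -/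
def Cos (y a : V) : Set G :=
  {g | ∃ a' a'' : V, ∃ p q : G, C.Adj y a' ∧ C.Adj y a'' ∧ a' ≠ a ∧ a'' ≠ a ∧ a' ≠ a'' ∧
    p ∈ X.Z a' ∧ p ≠ 1 ∧ p ≠ X.z y ∧ q ∈ X.Z a'' ∧ q ≠ 1 ∧ q ≠ X.z y ∧ g = p * q}

variable {X}

theorem Cos_mem_Vy {y a : V} {g : G} (h : g ∈ X.Cos y a) : g ∈ X.Vy y := by
  obtain ⟨a', a'', p, q, h1, h2, -, -, -, hp, -, -, hq, -, -, rfl⟩ := h
  exact mul_mem (Z_le_Vy h1 hp) (Z_le_Vy h2 hq)

theorem Cos_smul {y a : V} (hy : X.IsB y) {g c : G} (h : c ∈ X.Cos y a) :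
    g * c * g⁻¹ ∈ X.Cos (g • y) (g • a) := by
  obtain ⟨a', a'', p, q, h1, h2, h3, h4, h5, hp, hp1, hpz, hq, hq1, hqz, rfl⟩ := h
  have hz : ∀ u, u ≠ X.z y → g * u * g⁻¹ ≠ X.z (g • y) := fun u hu e => hu (by
    rw [X.z_smul g y hy] at e
    exact mul_left_cancel (mul_right_cancel e))
  exact ⟨g • a', g • a'', g * p * g⁻¹, g * q * g⁻¹, C.smul_adj g h1, C.smul_adj g h2,
    fun e => h3 (smul_left_cancel g e), fun e => h4 (smul_left_cancel g e),
    fun e => h5 (smul_left_cancel g e), conj_mem_Z (hy.nbr h1) hp,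
    fun e => hp1 (conj_eq_one_iff.mp e), hz p hpz, conj_mem_Z (hy.nbr h2) hq,
    fun e => hq1 (conj_eq_one_iff.mp e), hz q hqz, by group⟩

theorem Z_two (h2 : X.Dim2) {a y : V} (ha : X.IsA a) (hy : C.Adj a y) {x x' : G}
    (hx : x ∈ X.Z a) (hx1 : x ≠ 1) (hxz : x ≠ X.z y) (hx' : x' ∈ X.Z a) (hx'1 : x' ≠ 1)
    (hx'z : x' ≠ X.z y) : x' = x ∨ x' = x * X.z y := by
  obtain ⟨c, hc, rfl⟩ := (Z_cases h2 ha hx).resolve_left hx1
  obtain ⟨d, hd, rfl⟩ := (Z_cases h2 ha hx').resolve_left hx'1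
  rcases eq_or_ne d c with rfl | hdc
  · exact Or.inl rfl
  · exact Or.inr (z_mul h2 ha hc hy hd (fun e => hxz (by rw [e])) hdc.symm
      (fun e => hx'z (by rw [← e]))).symm

theorem Cos_eq (h2 : X.Dim2) (hb : 3 ≤ X.b) {y a : V} (hy : X.IsB y) (ha : C.Adj y a)
    {c c' : G} (h : c ∈ X.Cos y a) (h' : c' ∈ X.Cos y a) : c' = c ∨ c' = c * X.z y := by
  obtain ⟨a', a'', p, q, h1, h2', h3, h4, h5, hp, hp1, hpz, hq, hq1, hqz, rfl⟩ := h
  obtain ⟨u, hu, hun, p', q', hp', hp'1, hp'z, hq', hq'1, hq'z, e⟩ :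
      ∃ (u : V) (_ : u = a') (_ : True) (p' q' : G), p' ∈ X.Z a' ∧ p' ≠ 1 ∧ p' ≠ X.z y ∧
        q' ∈ X.Z a'' ∧ q' ≠ 1 ∧ q' ≠ X.z y ∧ c' = p' * q' := by
    obtain ⟨b', b'', p', q', g1, g2, g3, g4, g5, hp', hp'1, hp'z, hq', hq'1, hq'z, rfl⟩ := h'
    by_cases hb' : b' = a'
    · subst hb'
      obtain rfl : b'' = a'' := eq_third ha g1 (Ne.symm g3) g2 g4 g5.symm h2' h4 h5.symm
      exact ⟨_, rfl, trivial, p', q', hp', hp'1, hp'z, hq', hq'1, hq'z, rfl⟩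
    · obtain rfl : b' = a'' := eq_third ha h1 (Ne.symm h3) g1 g3 hb' h2' h4 h5.symm
      obtain rfl : b'' = a' := eq_third ha h2' (Ne.symm h4) g2 g4 g5.symm h1 h3 h5
      exact ⟨_, rfl, trivial, q', p', hq', hq'1, hq'z, hp', hp'1, hp'z,
        Vy_comm hb hy (Z_le_Vy g1 hp') (Z_le_Vy g2 hq')⟩
  subst e
  have hzV : X.z y ∈ X.Vy y := Z_le_Vy h1 (z_mem_Z (C.symm h1))
  have hqV : q ∈ X.Vy y := Z_le_Vy h2' hq
  rcases Z_two h2 (hy.nbr h1) (C.symm h1) hp hp1 hpz hp' hp'1 hp'z with e | e <;>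
    rcases Z_two h2 (hy.nbr h2') (C.symm h2') hq hq1 hqz hq' hq'1 hq'z with f | f <;>
    rw [e, f]
  · exact Or.inl rfl
  · exact Or.inr (by rw [mul_assoc])
  · exact Or.inr (by rw [mul_assoc, Vy_comm hb hy hzV hqV, mul_assoc])
  · left
    rw [mul_assoc p, ← mul_assoc (X.z y) q, Vy_comm hb hy hzV hqV, mul_assoc q,
      X.z_mul_self y hy, mul_one]

theorem Cos_ne_one (h2 : X.Dim2) {y a : V} (hy : X.IsB y) {c : G} (h : c ∈ X.Cos y a) :
    c ≠ 1 := by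
  obtain ⟨a', a'', p, q, h1, h2', -, -, h5, hp, hp1, hpz, hq, -, -, rfl⟩ := h
  intro e
  have hpq : p = q := by rw [mul_eq_one_iff_eq_inv.mp e, Z_inv (hy.nbr h2') hq]
  rcases Z_inter h2 (hy.nbr h1) (C.symm h1) (H := X.Z a'') (z_mem_Z (C.symm h2'))
    (Z_not_le h2 hy h1 h2' h5) hp (hpq ▸ hq) with h | h
  · exact hp1 h
  · exact hpz h

theorem Cos_inv (hb : 3 ≤ X.b) {y a : V} (hy : X.IsB y) {c : G} (h : c ∈ X.Cos y a) :
    c⁻¹ = c := by
  obtain ⟨a', a'', p, q, h1, h2, -, -, -, hp, -, -, hq, -, -, rfl⟩ := h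
  rw [mul_inv_rev, Z_inv (hy.nbr h1) hp, Z_inv (hy.nbr h2) hq]
  exact Vy_comm hb hy (Z_le_Vy h2 hq) (Z_le_Vy h1 hp)

theorem Cos_inter (h2 : X.Dim2) (hb : 3 ≤ X.b) {y a y' a' : V} (hy : X.IsB y) (ha : C.Adj y a)
    (hy' : X.IsB y') (ha' : C.Adj y' a') (hne : X.z y ≠ X.z y') {c c' : G} (h : c ∈ X.Cos y a)
    (h' : c ∈ X.Cos y' a') (g : c' ∈ X.Cos y a) (g' : c' ∈ X.Cos y' a') : c' = c := by
  rcases Cos_eq h2 hb hy ha h g with e | e
  · exact e
  rcases Cos_eq h2 hb hy' ha' h' g' with f | f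
  · exact f
  · exact absurd (mul_left_cancel (e.symm.trans f)) hne

theorem mem_Cos_conj {y a a' : V} (hy : X.IsB y) (ha' : C.Adj y a')
    (hne : a' ≠ a) {t g : G} (ht : t ∈ X.Z a') (ht1 : t ≠ 1) (htz : t ≠ X.z y)
    (hgy : g • y = y) (hga : g • a = a) (hmove : g • a' ≠ a') :
    t * (g * t * g⁻¹) ∈ X.Cos y a := by
  refine ⟨a', g • a', t, g * t * g⁻¹, ha', by simpa [hgy] using C.smul_adj g ha', hne,
    fun e => hne (smul_left_cancel g (e.trans hga.symm)), hmove.symm, ht, ht1, htz,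
    conj_mem_Z (hy.nbr ha') ht, fun e => ht1 (conj_eq_one_iff.mp e), fun e => htz ?_, rfl⟩
  have := z_comm hy (show g⁻¹ • y = y by rw [inv_smul_eq_iff, hgy])
  calc t = g⁻¹ * (g * t * g⁻¹) * g := by group
    _ = X.z y := by rw [e, this, inv_mul_cancel_right]

theorem Cos_notMem (h2 : X.Dim2) {y a a₁ : V} (hy : X.IsB y) (ha : C.Adj y a)
    (ha₁ : C.Adj y a₁) (hne : a₁ ≠ a) {H : Subgroup G} (h₁ : X.Z a₁ ≤ H)
    (hother : ∀ a₂, C.Adj y a₂ → a₂ ≠ a → a₂ ≠ a₁ → ¬ X.Z a₂ ≤ H) {c : G}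
    (h : c ∈ X.Cos y a) : c ∉ H := by
  obtain ⟨a', a'', p, q, g1, g2, g3, g4, g5, hp, hp1, hpz, hq, hq1, hqz, rfl⟩ := h
  intro hc
  have hz : X.z y ∈ H := h₁ (z_mem_Z (C.symm ha₁))
  by_cases e : a' = a₁
  · subst e
    have hqH : q ∈ H := by simpa using H.mul_mem (H.inv_mem (h₁ hp)) hc
    rcases Z_inter h2 (hy.nbr g2) (C.symm g2) hz (hother a'' g2 g4 g5.symm) hq hqH with f | f
    · exact hq1 f
    · exact hqz f
  · obtain rfl : a'' = a₁ := eq_third ha g1 (Ne.symm g3) g2 g4 g5.symm ha₁ hne (Ne.symm e)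
    have hpH : p ∈ H := by simpa using H.mul_mem hc (H.inv_mem (h₁ hq))
    rcases Z_inter h2 (hy.nbr g1) (C.symm g1) hz (hother a' g1 g3 g5) hp hpH with f | f
    · exact hp1 f
    · exact hpz f

end Choice

end CfsgLib.CubicAmalgam
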