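/-
Critical walks of even length at least four.
-/
import Cfsg.Agent.Lib.CubicAmalgam.Walks

set_option autoImplicit false

namespace CfsgLib.CubicAmalgam

open MulAction Cubic

variable {G : Type*} [Group G] {V : Type*} [MulAction G V] {C : Cubic G V}

namespace Choice

variable {X : Choice C}

theorem Crit.stab_start {p : ℕ → V} (hp : X.Crit p) (he : Even X.b) (hb : 2 ≤ X.b) {v : G}
    (hv : v ∈ X.Z (p X.b)) : v ∈ C.S (p 0) (p 1) := by
  have hA := hp.isA_even le_rfl he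
  exact mem_S.mpr ⟨Z_fix hA (hp.walk' (Nat.zero_le _) le_rfl) (by omega) hv,
    Z_fix hA (hp.walk' (show 1 ≤ X.b by omega) le_rfl) (by omega) hv⟩

theorem Crit.comm_eq {p : ℕ → V} (hp : X.Crit p) (he : Even X.b) (hb : 2 ≤ X.b) :
    X.z (p 1) * X.phi (p 0) = X.z (p (X.b - 1)) * X.phi (p X.b) := by
  obtain ⟨t, ht, v, hv, hne⟩ := hp.exists_pair he
  have hlast : C.Adj (p X.b) (p (X.b - 1)) := by
    have := hp.adj (X.b - 1) (by omega)
    rw [Nat.sub_add_cancel (by omega)] at this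
    exact C.symm this
  exact Choice.comm_eq hp.isA (hp.isA_even le_rfl he) (hp.adj 0 (by omega)) hlast ht
    (mem_S.mpr ⟨hp.Z0_fix le_rfl ht, hp.Z0_fix (by omega) ht⟩) hv (hp.stab_start he hb hv) hne

theorem shift_even {p : ℕ → V} (hp : X.Crit p) (he : Even X.b) (hb : 4 ≤ X.b) {δ : V}
    (hδ : C.Adj (p 0) δ) (hδ1 : δ ≠ p 1) :
    ∃ x, C.Adj δ x ∧ X.Crit (shiftP x δ p) := by
  by_contra hcon
  have hfail : X.Vy δ ≤ C.Q (p (X.b - 2)) := Vy_le fun x hx => by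
    by_contra hnle
    exact hcon ⟨x, hx, crit_shift hp (by omega) hδ hx hnle⟩
  have hnext := Vy_le_Q_next hp (by omega) hδ hδ1 hfail
  obtain ⟨t, ht, v, hv, hne⟩ := hp.exists_pair he
  have hA := hp.isA_even le_rfl he
  have hB : X.IsB δ := hp.isA.nbr hδ
  have hvS := hp.stab_start he (by omega) hv
  have hvQ : v ∉ C.Q (p 0) := fun h => hne (comm_Z hp.isA h ht).symm
  have hvi : v⁻¹ = v := Z_inv hA hv
  have hw := hp.comm_eq he (by omega)
  have hlast : C.Adj (p (X.b - 1)) (p X.b) := by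
    have := hp.adj (X.b - 1) (by omega)
    rwa [Nat.sub_add_cancel (by omega)] at this
  have hwV : X.z (p (X.b - 1)) * X.phi (p X.b) ∈ X.Vy δ := by
    rw [← hw]
    exact Z_le_Vy (C.symm hδ) (mul_mem (z_mem_Z (hp.adj 0 (by omega))) (phi_mem_Z hp.isA))
  have hvn : ∀ u ∈ X.Vy δ, v * u * v⁻¹ ∈ X.Vy δ := by
    intro u hu
    have huS : u ∈ C.S (p X.b) (p (X.b - 1)) :=
      mem_S.mpr ⟨(hnext hu).2 _ hlast, (hnext hu).1⟩
    rcases conj_Z hA (C.symm hlast) huS hv with h | h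
    · rw [← mul_inv_eq_iff_eq_mul.mp h, mul_inv_cancel_right]
      exact hu
    · have : v * u * v⁻¹ = X.z (p (X.b - 1)) * X.phi (p X.b) * u := by
        calc v * u * v⁻¹ = v * (u * v * u⁻¹) * u := by simp only [hvi]; group
          _ = v⁻¹ * (v * (X.z (p (X.b - 1)) * X.phi (p X.b))) * u := by
            rw [h]; simp only [hvi]
          _ = _ := by group
      rw [this]
      exact mul_mem hwV hu
  have hVS : X.Vy δ ≤ C.S (p 0) δ := fun u hu => mem_S.mpr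
    ⟨Vy_fix hB (.single (C.symm hδ)) (by omega) hu, Vy_fix hB (.nil δ) (by omega) hu⟩
  have : Finite (X.Vy δ) := C.finite_of_le (hVS.trans S_le_left)
  have hbot : X.Vy δ = ⊥ := by
    refine C.faith hδ _ hVS ?_ (fun g hg => mem_normalizer_of_conj fun n hn =>
      conj_mem_Vy_self hB (mem_stabilizer_iff.mp hg) hn)
    exact stab_le_of_S_le hδ (fun s hs => mem_normalizer_of_conj fun n hn =>
      conj_mem_Vy_self hB (mem_S.mp hs).2 hn) (mem_normalizer_of_conj hvn) (mem_S.mp hvS).1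
      (smul_ne_of_notMem_Q (hp.adj 0 (by omega)) hvS hvQ hδ hδ1)
  have hz := Z_le_Vy (X := X) (C.symm hδ) (z_mem_Z hδ)
  rw [hbot, Subgroup.mem_bot] at hz
  exact X.z_ne_one δ hB hz

theorem even_ge_four_dim2 (h2 : X.Dim2) (he : Even X.b) (hb : 4 ≤ X.b) {p : ℕ → V}
    (hp : X.Crit p) : False := by
  obtain ⟨δ, δ', hδ, hδ', hδ1, hδ'1, hne, -⟩ := C.exists_others (hp.adj 0 (by omega))
  have key : ∀ δ, C.Adj (p 0) δ → δ ≠ p 1 → X.z δ = X.z (p (X.b - 3)) := by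
    intro δ hδ hδ1
    obtain ⟨x, -, hs⟩ := shift_even hp he hb hδ hδ1
    have h := hs.comm_eq he (by omega)
    rwa [h2 _ hs.isA, h2 _ (hs.isA_even le_rfl he), mul_one, mul_one, shiftP_one,
      shiftP_of_le _ _ _ (by omega), show X.b - 1 - 2 = X.b - 3 by omega] at h
  exact z_ne hp.isA hδ hδ' hne ((key δ hδ hδ1).trans (key δ' hδ' hδ'1).symm)

theorem even_ge_four_dim3 (hall : ∀ Y : Choice C, ¬ Y.Dim2) (he : Even X.b) (hb : 4 ≤ X.b)
    {p : ℕ → V} (hp : X.Crit p) : False := by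
  let Y := X.phiChoice (hall X)
  let W := Y.phiChoice (hall Y)
  obtain ⟨δ, -, hδ, -, hδ1, -, -, -⟩ := C.exists_others (hp.adj 0 (by omega))
  obtain ⟨t, ht, v, hv, hne⟩ := hp.exists_pair he
  have hA := hp.isA_even le_rfl he
  have hB : X.IsB δ := hp.isA.nbr hδ
  have hYA : Y.IsA δ := by simpa [IsA, IsB, Y, phiChoice] using hB
  have hvS := hp.stab_start he (by omega) hv
  obtain ⟨hv0, hv1⟩ := mem_S.mp hvS
  have hvQ : v ∉ C.Q (p 0) := fun h => hne (comm_Z hp.isA h ht).symm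
  have hvi : v⁻¹ = v := Z_inv hA hv
  set δ' := v • δ with hδ'
  have hδ'a : C.Adj (p 0) δ' := by simpa [δ', hv0] using C.smul_adj v hδ
  have hδ'ne : δ' ≠ δ := smul_ne_of_notMem_Q (hp.adj 0 (by omega)) hvS hvQ hδ hδ1
  obtain ⟨x, hx, hs⟩ := shift_even hp he hb hδ hδ1
  have hx0 : x ≠ p 0 := by simpa [shiftP] using hs.isPath.ne 0 (by omega)
  have h := hs.comm_eq he (by omega)
  rw [shiftP_zero, shiftP_one, shiftP_of_le _ _ _ (show 2 ≤ X.b - 1 by omega),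
    shiftP_of_le _ _ _ (show 2 ≤ X.b by omega), show X.b - 1 - 2 = X.b - 3 by omega] at h
  set n₁ := X.z δ * X.phi x with hn₁
  have hvfix : ∀ j, j ≤ X.b → v • p j = p j := fun j hj =>
    Z_fix hA (hp.walk' hj le_rfl) (by omega) hv
  have hvn₁ : v * n₁ = n₁ * v := by
    have h3 : X.IsB (p (X.b - 3)) := hp.isB_odd (by omega) (by
      rw [Nat.odd_iff]; rw [Nat.even_iff] at he; omega)
    have h2' : Y.IsB (p (X.b - 2)) := hp.isA_even (by omega) (by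
      rw [Nat.even_iff] at he ⊢; omega)
    rw [h, ← mul_assoc, z_comm h3 (hvfix _ (by omega)), mul_assoc,
      show v * X.phi (p (X.b - 2)) = X.phi (p (X.b - 2)) * v from
        z_comm (X := Y) h2' (hvfix _ (by omega)), ← mul_assoc]
  obtain ⟨q, hq, hqδ, hqδ'⟩ : ∃ q ∈ C.Q (p 0), q ∉ C.Q δ ∧ q ∉ C.Q δ' := by
    obtain ⟨q₁, hq₁, hq₁δ⟩ := exists_mem_Q_notMem X.char2 hδ
    obtain ⟨q₂, hq₂, hq₂δ⟩ := exists_mem_Q_notMem X.char2 hδ'a
    by_cases h1 : q₁ ∈ C.Q δ'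
    · by_cases h2 : q₂ ∈ C.Q δ
      · exact ⟨q₁ * q₂, mul_mem hq₁ hq₂, fun e => hq₁δ (by simpa using mul_mem e (inv_mem h2)),
          fun e => hq₂δ (by simpa using mul_mem (inv_mem h1) e)⟩
      · exact ⟨q₂, hq₂, h2, hq₂δ⟩
    · exact ⟨q₁, hq₁, hq₁δ, h1⟩
  have hqS : q ∈ C.S δ (p 0) := Q_le_S' hδ hq
  set x'' := q • x with hx''
  have hqn : q * n₁ * q⁻¹ = X.z δ * X.phi x'' := by
    rw [hn₁, hx'', phi_smul (hB.nbr hx), show q * (X.z δ * X.phi x) * q⁻¹ =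
      q * X.z δ * q⁻¹ * (q * X.phi x * q⁻¹) by group, z_comm hB (mem_S.mp hqS).1,
      mul_inv_cancel_right]
  have hvqv : v * q * v⁻¹ ∈ C.Q (p 0) := conj_mem_Q_self hv0 hq
  have hvqvS : v * q * v⁻¹ ∈ C.S δ (p 0) := Q_le_S' hδ hvqv
  have hvqvδ : v * q * v⁻¹ ∉ C.Q δ := fun e => hqδ' (by
    have e' := conj_mem_Q (g := v) e
    rwa [show v * (v * q * v⁻¹) * v⁻¹ = q by
      have : v * v = 1 := Z_mul_self hA hv
      rw [show v * (v * q * v⁻¹) * v⁻¹ = (v * v) * q * (v * v)⁻¹ by group, this]; group,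
      ← hδ'] at e')
  obtain ⟨x₂, hx₂, hx₂0, hx₂x, -⟩ := C.exists_third (C.symm hδ) hx hx0.symm
  have hq' : q • x = x₂ := smul_eq_of_notMem_Q (C.symm hδ) hqS hqδ hx hx0 hx₂ hx₂0 hx₂x.symm
  have hvq' : (v * q * v⁻¹) • x = x₂ :=
    smul_eq_of_notMem_Q (C.symm hδ) hvqvS hvqvδ hx hx0 hx₂ hx₂0 hx₂x.symm
  have hvqn : v * (q * n₁ * q⁻¹) = q * n₁ * q⁻¹ * v := by
    have e : v * (q * n₁ * q⁻¹) * v⁻¹ = q * n₁ * q⁻¹ := by
      have e1 : v * (q * n₁ * q⁻¹) * v⁻¹ = (v * q * v⁻¹) * n₁ * (v * q * v⁻¹)⁻¹ := by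
        calc v * (q * n₁ * q⁻¹) * v⁻¹ = v * q * v⁻¹ * (v * n₁) * q⁻¹ * v⁻¹ := by group
          _ = v * q * v⁻¹ * (n₁ * v) * q⁻¹ * v⁻¹ := by rw [hvn₁]
          _ = _ := by group
      rw [e1, hn₁, show v * q * v⁻¹ * (X.z δ * X.phi x) * (v * q * v⁻¹)⁻¹ =
        v * q * v⁻¹ * X.z δ * (v * q * v⁻¹)⁻¹ *
          (v * q * v⁻¹ * X.phi x * (v * q * v⁻¹)⁻¹) by group,
        z_comm hB (mem_S.mp hvqvS).1, mul_inv_cancel_right, ← phi_smul (hB.nbr hx), hvq',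
        ← hn₁, hqn, hx'', hq']
    exact mul_inv_eq_iff_eq_mul.mp e
  have hxZ : X.z δ * X.phi x = X.phi x * X.z δ :=
    Z_comm (hB.nbr hx) (z_mem_Z (C.symm hx)) (phi_mem_Z (hB.nbr hx))
  have hprod : n₁ * (q * n₁ * q⁻¹) = X.phi x * X.phi x₂ := by
    rw [hqn, hn₁, hx'', hq', hxZ, mul_assoc, ← mul_assoc (X.z δ), X.z_mul_self δ hB, one_mul]
  have hψ : Y.phi δ = X.phi (p 0) * X.phi x * X.phi x₂ :=
    phi_eq (X := Y) hYA (C.symm hδ) hx hx₂ hx0.symm hx₂0.symm hx₂x.symm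
  have hvψ : v * Y.phi δ = Y.phi δ * v := by
    have c0 : Commute v (X.phi (p 0)) := z_comm (X := Y) (show Y.IsB (p 0) from hp.isA) hv0
    have c1 : Commute v (X.phi x * X.phi x₂) := by
      rw [← hprod]; exact Commute.mul_right hvn₁ hvqn
    rw [hψ, mul_assoc (X.phi (p 0))]
    exact (c0.mul_right c1).eq
  refine z_ne (X := W) (a := p 0) ?_ hδ'a hδ hδ'ne ?_
  · have := hp.isA
    simpa [IsA, W, Y, phiChoice] using this
  · show Y.phi δ' = Y.phi δ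
    rw [hδ', phi_smul hYA, hvψ, mul_inv_cancel_right]

end Choice

end CfsgLib.CubicAmalgam
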