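/-
Critical walks of odd length: symmetry, and the case of modules of order eight.
-/
import Cfsg.Agent.Lib.CubicAmalgam.Even

set_option autoImplicit false

namespace CfsgLib.CubicAmalgam

open MulAction Cubic

variable {G : Type*} [Group G] {V : Type*} [MulAction G V] {C : Cubic G V}

namespace Choice

variable {X : Choice C}

theorem Crit.last {p : ℕ → V} (hp : X.Crit p) : C.Adj (p (X.b - 1)) (p X.b) := by
  have := hp.adj (X.b - 1) (by have := hp.b_pos; omega)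
  rwa [Nat.sub_add_cancel hp.b_pos] at this

theorem exists_rev {p : ℕ → V} (hp : X.Crit p) (ho : Odd X.b) (hb : 3 ≤ X.b) :
    ∃ μ, C.Adj (p X.b) μ ∧ μ ≠ p (X.b - 1) ∧ X.Crit (revP X.b μ p) := by
  have hBb := hp.isB_odd le_rfl ho
  have hB1 := hp.isB_odd (show 1 ≤ X.b by omega) odd_one
  suffices h : ¬ X.Vy (p X.b) ≤ C.Q (p 1) by
    by_contra hcon
    refine h (Vy_le fun μ hμ => ?_)
    by_contra hnle
    refine hcon ⟨μ, hμ, fun e => hnle ?_, crit_rev hp ho hμ hnle⟩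
    rw [e]
    exact Z_le_Q_of_walk (hp.isA_even (by omega) (by
      rw [Nat.odd_iff] at ho; rw [Nat.even_iff]; omega)) (hp.walk' (by omega) (by omega))
      (by omega)
  intro hle
  obtain ⟨t, ht, htQ⟩ := SetLike.not_le_iff_exists.mp hp.not_le
  have h10 := C.symm (hp.adj 0 (by omega))
  have htb : t • p X.b = p X.b := hp.Z0_fix le_rfl ht
  have hfix : ∀ v ∈ X.Vy (p X.b), ∀ j, j ≤ X.b → v • p j = p j := by
    intro v hv j hj
    rcases Nat.eq_zero_or_pos j with rfl | hj1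
    · exact (hle hv).2 _ h10
    · exact Vy_fix hBb (hp.walk' hj le_rfl) (by omega) hv
  obtain ⟨v, hv, hvQ⟩ : ∃ v ∈ X.Vy (p X.b), v ∉ C.Q (p 0) := by
    by_contra hcon
    push Not at hcon
    obtain ⟨μ', μ'', hμ', hμ'', hμ'0, hμ''0, hne, -⟩ := C.exists_others (C.symm hp.last)
    have htS : t ∈ C.S (p X.b) (p (X.b - 1)) := mem_S.mpr ⟨htb, hp.Z0_fix (by omega) ht⟩
    have hmove : ∀ m m', C.Adj (p X.b) m → C.Adj (p X.b) m' → m ≠ p (X.b - 1) →
        m' ≠ p (X.b - 1) → m ≠ m' → X.Z m ≤ X.Z m' := by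
      intro m m' hm hm' hm0 hm'0 hmm x hx
      have h := conj_mem_Z (hBb.nbr hm) (g := t) hx
      rw [smul_eq_of_notMem_Q (C.symm hp.last) htS htQ hm hm0 hm' hm'0 hmm,
        ← comm_Z hp.isA (hcon x (Z_le_Vy hm hx)) ht, mul_inv_cancel_right] at h
      exact h
    exact Z_ne hBb hμ' hμ'' hne (le_antisymm (hmove _ _ hμ' hμ'' hμ'0 hμ''0 hne)
      (hmove _ _ hμ'' hμ' hμ''0 hμ'0 hne.symm))
  have hmod : ∀ i, 1 ≤ i → i < X.b - 1 → ∃ (r : ℕ → V) (h : G), C.IsPath i r ∧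
      C.typ (r 0) = C.typ (p 1) ∧ (∀ j, j ≤ i → h • r j = r j) ∧ h ∉ C.Q (r i) := by
    intro i hi1 hi
    rcases Nat.even_or_odd i with he | ho'
    · refine ⟨fun j => p (X.b - i + j), t, hp.isPath.shift (by omega), ?_,
        fun j hj => hp.Z0_fix (by omega) ht, by
          simpa [show X.b - i + i = X.b by omega] using htQ⟩
      simpa using (hp.isB_odd (show X.b - i ≤ X.b by omega) (by
        rw [Nat.odd_iff] at ho ⊢; rw [Nat.even_iff] at he; omega)).trans hB1.symm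
    · refine ⟨fun j => p (i - j), v, hp.isPath.revSeg le_rfl (by omega), ?_,
        fun j hj => hfix v hv _ (by omega), by simpa using hvQ⟩
      simpa using (hp.isB_odd (show i ≤ X.b by omega) ho').trans hB1.symm
  obtain ⟨g, hg⟩ := C.transit (X.b - 1) hmod
    (fun j => p (1 + j)) (fun j => p (X.b - j)) (hp.isPath.shift (by omega))
    (hp.isPath.revSeg (by omega) le_rfl) rfl (by simpa using hBb.trans hB1.symm)
  have hgb : g • p X.b = p 1 := by
    simpa [show 1 + (X.b - 1) = X.b by omega, show X.b - (X.b - 1) = 1 by omega]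
      using hg (X.b - 1) le_rfl
  have hg1 : g • p 1 = p X.b := by simpa using hg 0 (Nat.zero_le _)
  have h := conj_mem_Vy hB1 (g := g) (Z_le_Vy h10 ht)
  rw [hg1] at h
  have h' := hle h
  rw [← hgb, conj_mem_Q_iff] at h'
  exact htQ h'

/-- The data of a critical walk of odd length and its reverse. -/
theorem Crit.odd_data {p : ℕ → V} (hp : X.Crit p) (ho : Odd X.b) (hb : 3 ≤ X.b) :
    ∃ μ, C.Adj (p X.b) μ ∧ μ ≠ p (X.b - 1) ∧ X.Crit (revP X.b μ p) ∧ X.IsA μ ∧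
      ∃ v ∈ X.Z μ, v ∉ C.Q (p 1) ∧ v * v = 1 ∧ v ∈ C.S (p 1) (p 2) ∧
        (∀ j, 1 ≤ j → j ≤ X.b → v • p j = p j) := by
  obtain ⟨μ, hμ, hμne, hr⟩ := exists_rev hp ho hb
  have hA : X.IsA μ := by simpa using hr.isA
  obtain ⟨v, hv, hvQ⟩ := SetLike.not_le_iff_exists.mp hr.not_le
  rw [revP_zero] at hv
  rw [revP_of_pos _ _ _ (by omega), show X.b + 1 - X.b = 1 by omega] at hvQ
  have hfix : ∀ j, 1 ≤ j → j ≤ X.b → v • p j = p j := fun j h1 h2 =>
    Z_fix hA ((hp.walk' h2 le_rfl).trans (.nil _) |> Walk.cons (C.symm hμ)) (by omega) hv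
  exact ⟨μ, hμ, hμne, hr, hA, v, hv, hvQ, Z_mul_self hA hv,
    mem_S.mpr ⟨hfix 1 le_rfl (by omega), hfix 2 (by omega) (by omega)⟩, hfix⟩

theorem crit_flip {p : ℕ → V} (hp : X.Crit p) (ho : Odd X.b) (hb : 3 ≤ X.b) {a : V}
    (ha : C.Adj (p 1) a) (ha2 : a ≠ p 2) : X.Crit (Function.update p 0 a) := by
  by_cases h : a = p 0
  · rwa [h, Function.update_eq_self]
  obtain ⟨μ, hμ, -, -, hA, v, hv, hvQ, -, hvS, hfix⟩ := hp.odd_data ho hb
  have hB1 := hp.isB_odd (show 1 ≤ X.b by omega) odd_one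
  have hva : v • p 0 = a := smul_eq_of_notMem_Q (hp.adj 1 (by omega)) hvS hvQ
    (C.symm (hp.adj 0 (by omega))) (hp.isPath.ne 0 (by omega)) ha ha2 (Ne.symm h)
  refine ⟨fun i hi => ?_, by simpa using hB1.nbr ha, ?_⟩
  · rcases i with _ | i
    · simpa using C.symm ha
    · simpa using hp.adj (i + 1) hi
  · rw [Function.update_self, Function.update_of_ne (show X.b ≠ 0 by omega)]
    intro hle
    refine hp.not_le fun x hx => ?_
    have h' := conj_mem_Z hp.isA (g := v) hx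
    rw [hva] at h'
    have h'' := hle h'
    rw [← hfix X.b (by omega) le_rfl, conj_mem_Q_iff] at h''
    exact h''

theorem odd_dim3 (hall : ∀ Y : Choice C, ¬ Y.Dim2) (hmin : ∀ Y : Choice C, X.b ≤ Y.b)
    (ho : Odd X.b) (hb : 3 ≤ X.b) {p : ℕ → V} (hp : X.Crit p) : False := by
  let Y := X.phiChoice (hall X)
  obtain ⟨μ, hμ, -, -, hA, v, hv, hvQ, hv2, hvS, hfix⟩ := hp.odd_data ho hb
  obtain ⟨t, ht, htQ⟩ := SetLike.not_le_iff_exists.mp hp.not_le
  have h01 := hp.adj 0 (by omega)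
  have hB1 := hp.isB_odd (show 1 ≤ X.b by omega) odd_one
  have hBb := hp.isB_odd le_rfl ho
  have hYA : Y.IsA (p 1) := by simpa [IsA, IsB, Y, phiChoice] using hB1
  have hφQ : X.phi (p 0) ∈ C.Q (p X.b) :=
    Z_le_Q_of_walk (X := Y) hYA (hp.walk (show 1 ≤ X.b by omega) le_rfl)
      (by have := hmin Y; omega) (z_mem_Z (X := Y) (C.symm h01))
  have hva : C.Adj (p 1) (v • p 0) := by
    simpa [(mem_S.mp hvS).1] using C.smul_adj v (C.symm h01)
  have hvne : v • p 0 ≠ p 0 := smul_ne_of_notMem_Q (hp.adj 1 (by omega)) hvS hvQ (C.symm h01)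
    (hp.isPath.ne 0 (by omega))
  have hvi : v⁻¹ = v := inv_eq_of_mul_eq_one_right hv2
  have hφS : X.phi (p 0) ∈ C.S μ (p X.b) := mem_S.mpr ⟨hφQ.2 μ hμ, hφQ.1⟩
  have hzne : X.phi (v • p 0) ≠ X.phi (p 0) :=
    z_ne (X := Y) hYA hva (C.symm h01) hvne
  have hφ2 := Z_inv hp.isA (phi_mem_Z (X := X) hp.isA)
  have hw : X.z (p X.b) * X.phi μ = X.phi (v • p 0) * X.phi (p 0) := by
    have h := (conj_Z hA (C.symm hμ) hφS hv).resolve_left fun e => hzne (by
      rw [phi_smul hp.isA, ← mul_inv_eq_iff_eq_mul.mp e, mul_inv_cancel_right])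
    calc X.z (p X.b) * X.phi μ = v⁻¹ * (v * (X.z (p X.b) * X.phi μ)) := by group
      _ = v⁻¹ * (X.phi (p 0) * v * (X.phi (p 0))⁻¹) := by rw [h]
      _ = v * X.phi (p 0) * v⁻¹ * (X.phi (p 0))⁻¹ := by simp only [hvi]; group
      _ = _ := by rw [← phi_smul hp.isA, hφ2]
  have htw : t * (X.z (p X.b) * X.phi μ) = X.z (p X.b) * X.phi μ * t := by
    rw [hw]
    exact Vy_comm hb hB1 (Z_le_Vy (C.symm h01) ht) (mul_mem
      (Z_le_Vy hva (phi_mem_Z (hB1.nbr hva))) (Z_le_Vy (C.symm h01) (phi_mem_Z hp.isA)))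
  have htb : t • p X.b = p X.b := hp.Z0_fix le_rfl ht
  have hμ' : C.Adj (p X.b) (t • μ) := by simpa [htb] using C.smul_adj t hμ
  obtain ⟨-, hμne⟩ : True ∧ μ ≠ p (X.b - 1) := by
    refine ⟨trivial, fun e => hvQ ?_⟩
    rw [e] at hv
    exact Z_le_Q_of_walk (hp.isA_even (by omega) (by
      rw [Nat.odd_iff] at ho; rw [Nat.even_iff]; omega)) (hp.walk' (by omega) (by omega))
      (by omega) hv
  have hmove : t • μ ≠ μ := smul_ne_of_notMem_Q (C.symm hp.last)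
    (mem_S.mpr ⟨htb, hp.Z0_fix (by omega) ht⟩) htQ hμ hμne
  refine z_ne (X := Y) (a := p X.b) ?_ hμ' hμ hmove ?_
  · simpa [IsA, IsB, Y, phiChoice] using hBb
  · show X.phi (t • μ) = X.phi μ
    rw [phi_smul hA]
    have hz := z_comm hBb htb
    calc t * X.phi μ * t⁻¹ = (X.z (p X.b))⁻¹ * (X.z (p X.b) * (t * X.phi μ)) * t⁻¹ := by group
      _ = (X.z (p X.b))⁻¹ * (t * (X.z (p X.b) * X.phi μ)) * t⁻¹ := by
          rw [← mul_assoc (X.z (p X.b)), ← hz, mul_assoc t]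
      _ = (X.z (p X.b))⁻¹ * (X.z (p X.b) * X.phi μ * t) * t⁻¹ := by rw [htw]
      _ = X.phi μ := by group

end Choice

end CfsgLib.CubicAmalgam
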