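/-
Critical walks of odd length at least five.
-/
import Cfsg.Agent.Lib.CubicAmalgam.Odd

set_option autoImplicit false

namespace CfsgLib.CubicAmalgam

open MulAction Cubic

variable {G : Type*} [Group G] {V : Type*} [MulAction G V] {C : Cubic G V}

namespace Choice

variable {X : Choice C}

theorem shift_odd {p : ℕ → V} (hp : X.Crit p) (ho : Odd X.b) (hb : 5 ≤ X.b) {δ : V}
    (hδ : C.Adj (p 0) δ) (hδ1 : δ ≠ p 1) :
    ∃ x, C.Adj δ x ∧ X.Crit (shiftP x δ p) := by
  by_contra hcon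
  obtain ⟨μ, hμ, hμne, -, hA, v, hv, hvQ, hv2, hvS, hfix⟩ := hp.odd_data ho (by omega)
  obtain ⟨t, ht, htQ⟩ := SetLike.not_le_iff_exists.mp hp.not_le
  have h01 := hp.adj 0 (by omega)
  have h12 := hp.adj 1 (by omega)
  have hB1 := hp.isB_odd (show 1 ≤ X.b by omega) odd_one
  have hv1 := (mem_S.mp hvS).1
  -- the consequence of failing at a vertex
  have key : ∀ d, C.Adj (p 0) d → d ≠ p 1 → X.Vy d ≤ C.Q (p (X.b - 2)) →
      ∀ u ∈ X.Vy d, v * u * v⁻¹ * u⁻¹ ∈ X.Vy (p 1) := by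
    intro d hd hd1 hfail
    have hnext := Vy_le_Q_next hp (by omega) hd hd1 hfail
    have hB := hp.isA.nbr hd
    have hfixu : ∀ u ∈ X.Vy d, ∀ j, j ≤ X.b → u • p j = p j := by
      intro u hu j hj
      rcases Nat.lt_or_ge j (X.b - 1) with h | h
      · exact Vy_fix hB (Walk.cons (C.symm hd) (hp.walk (Nat.zero_le j) (by omega))) (by omega) hu
      · rcases Nat.eq_or_lt_of_le h with h' | h'
        · exact h' ▸ (hnext hu).1
        · obtain rfl : j = X.b := by omega
          exact (hnext hu).2 _ hp.last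
    have hcomm : ∀ u ∈ X.Vy d, u ∈ C.Q (p X.b) → u * v = v * u := by
      intro u hu huQ
      refine comm_Z hA ?_ hv
      by_contra huμ
      obtain ⟨x, -, hx, -, hx0, -⟩ := C.exists_others (C.symm hd)
      refine crit_of_models hp (fun i hi1 hi => ?_) (q := shiftP x d p) ?_ ?_ ?_
      · rcases Nat.even_or_odd i with he | ho'
        · let r : ℕ → V := fun j => if j = i then μ else p (X.b + 1 - i + j)
          have hr0 : r 0 = p (X.b + 1 - i) := by simp [r, show (0 : ℕ) ≠ i by omega]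
          refine ⟨r, u, ⟨fun j hj => ?_, fun j hj => ?_⟩, ?_, fun j hj => ?_, by
            simpa [r] using huμ⟩
          · by_cases hji : j + 1 = i
            · simp [r, hji, show j ≠ i by omega, show X.b + 1 - i + j = X.b by omega, hμ]
            · simpa [r, hji, show j ≠ i by omega, ← add_assoc] using
                hp.adj (X.b + 1 - i + j) (by omega)
          · by_cases hji : j + 2 = i
            · simpa [r, hji, show j ≠ i by omega, show X.b + 1 - i + j = X.b - 1 by omega]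
                using hμne.symm
            · simpa [r, hji, show j ≠ i by omega, ← add_assoc] using
                hp.isPath.ne (X.b + 1 - i + j) (by omega)
          · rw [hr0]
            exact hp.isA_even (by omega) (by
              rw [Nat.even_iff] at he ⊢; rw [Nat.odd_iff] at ho; omega)
          · by_cases hji : j = i
            · simpa [r, hji] using huQ.2 μ hμ
            · simpa [r, hji] using hfixu u hu _ (by omega)
        · exact model_t hp ht htQ hi.le (Nat.Odd.sub_odd ho ho')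
      · refine ⟨fun i hi => ?_, fun i hi => ?_⟩
        · rcases i with _ | _ | i
          · simpa using C.symm hx
          · simpa [shiftP] using C.symm hd
          · simpa [shiftP] using hp.adj i (by omega)
        · rcases i with _ | _ | i
          · simpa [shiftP] using hx0
          · simpa [shiftP] using hd1
          · simpa [shiftP] using hp.isPath.ne i (by omega)
      · simpa using hB.nbr hx
      · rw [shiftP_zero, shiftP_of_le _ _ _ (by omega)]
        exact fun w hw => hfail (Z_le_Vy hx hw)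
    intro u hu
    by_cases huQ : u ∈ C.Q (p X.b)
    · rw [← hcomm u hu huQ, mul_inv_cancel_right, mul_inv_cancel]
      exact one_mem _
    · have htV : t ∈ X.Vy d := Z_le_Vy (C.symm hd) ht
      have hw := hcomm (t⁻¹ * u) (mul_mem (inv_mem htV) hu) (inv_mul_mem_Q (C.symm hp.last)
        (mem_S.mpr ⟨hp.Z0_fix le_rfl ht, hp.Z0_fix (by omega) ht⟩) htQ
        (mem_S.mpr ⟨hfixu u hu _ le_rfl, hfixu u hu _ (by omega)⟩) huQ)
      have e : v * u * v⁻¹ * u⁻¹ = v * t * v⁻¹ * t⁻¹ := by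
        calc v * u * v⁻¹ * u⁻¹ = v * t * v⁻¹ * (v * (t⁻¹ * u) * v⁻¹) * u⁻¹ := by group
          _ = v * t * v⁻¹ * (t⁻¹ * u * v * v⁻¹) * u⁻¹ := by rw [hw]
          _ = _ := by group
      rw [e]
      exact mul_mem (conj_mem_Vy_self hB1 hv1 (Z_le_Vy (C.symm h01) ht))
        (inv_mem (Z_le_Vy (C.symm h01) ht))
  have hfailδ : X.Vy δ ≤ C.Q (p (X.b - 2)) := Vy_le fun x hx => by
    by_contra hnle
    exact hcon ⟨x, hx, crit_shift hp (by omega) hδ hx hnle⟩
  obtain ⟨δ₃, hδ₃, hδ₃1, hδ₃ne, hall⟩ := C.exists_third h01 hδ hδ1.symm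
  have hvv : ∀ w : V, v • v • w = w := fun w => by rw [← mul_smul, hv2, one_smul]
  have hv0ne : v • p 0 ≠ p 0 :=
    smul_ne_of_notMem_Q h12 hvS hvQ (C.symm h01) (hp.isPath.ne 0 (by omega))
  have hv0a : C.Adj (p 1) (v • p 0) := by simpa [hv1] using C.smul_adj v (C.symm h01)
  have hv02 : v • p 0 ≠ p 2 := fun e => hp.isPath.ne 0 (by omega)
    (smul_left_cancel v (e.trans (mem_S.mp hvS).2.symm))
  -- failing at `δ` forces failing at the other neighbour
  have hrel : ∀ u ∈ X.Vy δ, v * u * v⁻¹ * u⁻¹ ∈ X.Vy (p 1) := key δ hδ hδ1 hfailδ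
  have hfail₃ : X.Vy δ₃ ≤ C.Q (p (X.b - 2)) := by
    obtain ⟨q, hq, hqQ⟩ := exists_mem_Q_notMem X.char2 h01
    obtain ⟨q', hq', hq'Q⟩ := exists_mem_Q_notMem X.char2 (C.symm h01)
    have hqS : q ∈ C.S (p 1) (p 0) := Q_le_S' h01 hq
    have hq'S : q' ∈ C.S (p 0) (p 1) := Q_le_S' (C.symm h01) hq'
    set h := q * q' with hh
    have hh1 : h • p 1 = p 1 := by rw [hh, mul_smul, hq'.1, (mem_S.mp hqS).1]
    have hhδ : h • δ = δ₃ := by
      rw [hh, mul_smul, smul_eq_of_notMem_Q h01 hq'S hq'Q hδ hδ1 hδ₃ hδ₃1 hδ₃ne.symm, hq.2 δ₃ hδ₃]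
    have hhv0 : h • v • p 0 = p 2 := by
      rw [hh, mul_smul, hq'.2 _ hv0a,
        smul_eq_of_notMem_Q (C.symm h01) hqS hqQ hv0a hv0ne h12
          (hp.isPath.ne 0 (by omega)).symm hv02]
    have hw0 : C.Adj (v • p 0) (v • δ) := C.smul_adj v hδ
    set y := h • v • δ with hy
    have hya : C.Adj (p 2) y := by rw [← hhv0]; exact C.smul_adj h hw0
    have hyB : X.IsB y := (hp.isA_even (by omega) even_two).nbr hya
    intro u hu
    have hu' : h⁻¹ * u * h ∈ X.Vy δ := by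
      have := conj_mem_Vy (hp.isA.nbr hδ₃) (g := h⁻¹) hu
      rwa [← hhδ, inv_smul_smul, inv_inv] at this
    have h1 := hrel _ hu'
    set w := h⁻¹ * u * h with hw
    have h2 : v * w * v⁻¹ ∈ X.Vy (v • δ) := conj_mem_Vy (hp.isA.nbr hδ) hu'
    have h3 := conj_mem_Vy (g := h) ((hp.isA.smul v).nbr hw0) h2
    have h4 := conj_mem_Vy_self (g := h) hB1 hh1 h1
    have e : u = (h * (v * w * v⁻¹ * w⁻¹) * h⁻¹)⁻¹ * (h * (v * w * v⁻¹) * h⁻¹) := by
      rw [hw]; group
    rw [e]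
    refine mul_mem (inv_mem (Vy_le_Q hB1 (hp.walk (show 1 ≤ X.b - 2 by omega) (by omega))
      (by omega) h4)) (Vy_le_Q hyB (.cons (C.symm hya)
        (hp.walk (show 2 ≤ X.b - 2 by omega) (by omega))) (by omega) h3)
  have hrel₃ : ∀ u ∈ X.Vy δ₃, v * u * v⁻¹ * u⁻¹ ∈ X.Vy (p 1) := key δ₃ hδ₃ hδ₃1 hfail₃
  -- the join is normal in both stabilisers
  set W := X.Vy (p 1) ⊔ X.Vy δ ⊔ X.Vy δ₃ with hW
  have hB : ∀ d, C.Adj (p 0) d → X.IsB d := fun d hd => hp.isA.nbr hd
  have hWall : ∀ d, C.Adj (p 0) d → X.Vy d ≤ W := by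
    intro d hd
    rcases hall d hd with rfl | rfl | rfl
    · exact le_sup_left.trans le_sup_left
    · exact le_sup_right.trans le_sup_left
    · exact le_sup_right
  have hWS : W ≤ C.S (p 0) (p 1) := by
    have : ∀ d, C.Adj (p 0) d → X.Vy d ≤ C.S (p 0) (p 1) := fun d hd u hu =>
      mem_S.mpr ⟨Vy_fix (hB d hd) (.single (C.symm hd)) (by omega) hu,
        Vy_fix (hB d hd) (.cons (C.symm hd) (.single h01)) (by omega) hu⟩
    exact sup_le (sup_le (this _ h01) (this _ hδ)) (this _ hδ₃)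
  have : Finite W := C.finite_of_le (hWS.trans S_le_left)
  have hG0 : ∀ g : G, g • p 0 = p 0 → ∀ w ∈ W, g * w * g⁻¹ ∈ W := by
    intro g hg w hw
    have hmap : ∀ d, C.Adj (p 0) d → X.Vy d ≤ W.comap (MulAut.conj g).toMonoidHom :=
      fun d hd u hu => hWall (g • d) (by simpa [hg] using C.smul_adj g hd)
        (conj_mem_Vy (hB d hd) hu)
    exact (sup_le (sup_le (hmap _ h01) (hmap _ hδ)) (hmap _ hδ₃) :
      W ≤ W.comap (MulAut.conj g).toMonoidHom) hw
  have hvW : ∀ w ∈ W, v * w * v⁻¹ ∈ W := by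
    intro w hw
    have h1' : X.Vy (p 1) ≤ W.comap (MulAut.conj v).toMonoidHom := fun u hu =>
      hWall _ h01 (conj_mem_Vy_self hB1 hv1 hu)
    have h2' : ∀ d, C.Adj (p 0) d → (∀ u ∈ X.Vy d, v * u * v⁻¹ * u⁻¹ ∈ X.Vy (p 1)) →
        X.Vy d ≤ W.comap (MulAut.conj v).toMonoidHom := by
      intro d hd hr u hu
      show v * u * v⁻¹ ∈ W
      rw [show v * u * v⁻¹ = v * u * v⁻¹ * u⁻¹ * u by group]
      exact W.mul_mem (hWall _ h01 (hr u hu)) (hWall d hd hu)
    exact (sup_le (sup_le h1' (h2' _ hδ hrel)) (h2' _ hδ₃ hrel₃) :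
      W ≤ W.comap (MulAut.conj v).toMonoidHom) hw
  have hWbot : W = ⊥ := by
    refine C.faith h01 W hWS (fun g hg => mem_normalizer_of_conj (hG0 g (mem_stabilizer_iff.mp hg))) ?_
    exact stab_le_of_S_le (C.symm h01)
      (fun s hs => mem_normalizer_of_conj (hG0 s (mem_S.mp hs).2))
      (mem_normalizer_of_conj hvW) hv1 hv0ne
  have hz := hWall δ hδ (Z_le_Vy (C.symm hδ) (z_mem_Z hδ))
  rw [hWbot, Subgroup.mem_bot] at hz
  exact X.z_ne_one δ (hp.isA.nbr hδ) hz

theorem exists_forward {p : ℕ → V} (hp : X.Crit p) (ho : Odd X.b) (hb : 5 ≤ X.b) :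
    ∃ p', X.Crit p' ∧ ∀ j, j + 2 ≤ X.b → p' j = p (j + 2) := by
  obtain ⟨μ, hμ, -, hr⟩ := exists_rev hp ho (by omega)
  set r := revP X.b μ p with hrdef
  obtain ⟨δ, -, hδ, -, hδ1, -⟩ := C.exists_others (hr.adj 0 (by omega))
  obtain ⟨x, -, hs⟩ := shift_odd hr ho hb hδ hδ1
  set s := shiftP x δ r with hsdef
  obtain ⟨ν, hν, hνne, hq⟩ := exists_rev hs ho (by omega)
  have hsj : ∀ j, 3 ≤ j → j ≤ X.b → s j = p (X.b + 3 - j) := by
    intro j h1 h2
    rw [hsdef, shiftP_of_le _ _ _ (by omega), hrdef, revP_of_pos _ _ _ (by omega),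
      show X.b + 1 - (j - 2) = X.b + 3 - j by omega]
  set q := revP X.b ν s with hqdef
  have hqj : ∀ j, 1 ≤ j → j + 2 ≤ X.b → q j = p (j + 2) := by
    intro j h1 h2
    rw [hqdef, revP_of_pos _ _ _ h1, hsj _ (by omega) (by omega),
      show X.b + 3 - (X.b + 1 - j) = j + 2 by omega]
  have hq1 : C.Adj (q 1) (p 2) := by
    rw [hqj 1 le_rfl (by omega)]; exact C.symm (hp.adj 2 (by omega))
  have hne : p 2 ≠ q 2 := by
    rw [hqj 2 (by omega) (by omega)]; exact hp.isPath.ne 2 (by omega)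
  refine ⟨Function.update q 0 (p 2), crit_flip hq ho (by omega) hq1 hne, fun j hj => ?_⟩
  rcases Nat.eq_zero_or_pos j with rfl | h
  · simp
  · rw [Function.update_of_ne (by omega)]; exact hqj j h hj

theorem comm_mem (h2 : X.Dim2) {p : ℕ → V} (hp : X.Crit p) (ho : Odd X.b) (hb : 3 ≤ X.b) {μ : V}
    (hμ : C.Adj (p X.b) μ) {t v : G} (ht : t ∈ X.Z (p 0)) (htQ : t ∉ C.Q (p X.b))
    (hv : v ∈ X.Z μ) (hvQ : v ∉ C.Q (p 1)) :
    t * v * t * v ∈ X.Cos (p 1) (p 2) ∧ t * v * t * v ∈ X.Cos (p X.b) (p (X.b - 1)) := by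
  have hB1 := hp.isB_odd (show 1 ≤ X.b by omega) odd_one
  have hBb := hp.isB_odd le_rfl ho
  have hA : X.IsA μ := hBb.nbr hμ
  have hA1 : X.IsA (p (X.b - 1)) := hp.isA_even (by omega) (by
    rw [Nat.odd_iff] at ho; rw [Nat.even_iff]; omega)
  have hμne : μ ≠ p (X.b - 1) := fun e => hvQ (by
    rw [e] at hv
    exact Z_le_Q_of_walk hA1 (hp.walk' (by omega) (by omega)) (by omega) hv)
  have h10 := C.symm (hp.adj 0 (by omega))
  have h12 := hp.adj 1 (by omega)
  have hti : t⁻¹ = t := Z_inv hp.isA ht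
  have hvi : v⁻¹ = v := Z_inv hA hv
  have hfix : ∀ j, 1 ≤ j → j ≤ X.b → v • p j = p j := fun j h1 h2' =>
    Z_fix hA (Walk.cons (C.symm hμ) (hp.walk' h2' le_rfl)) (by omega) hv
  have hvS : v ∈ C.S (p 1) (p 2) :=
    mem_S.mpr ⟨hfix 1 le_rfl (by omega), hfix 2 (by omega) (by omega)⟩
  have htS : t ∈ C.S (p X.b) (p (X.b - 1)) :=
    mem_S.mpr ⟨hp.Z0_fix le_rfl ht, hp.Z0_fix (by omega) ht⟩
  have c1 : t * v * t * v ∈ X.Cos (p 1) (p 2) := by
    rw [show t * v * t * v = t * (v * t * v⁻¹) by rw [hvi]; group]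
    refine mem_Cos_conj hB1 h10 (hp.isPath.ne 0 (by omega)) ht
      (fun e => htQ (e ▸ one_mem _)) (fun e => htQ ?_) (mem_S.mp hvS).1 (mem_S.mp hvS).2
      (smul_ne_of_notMem_Q h12 hvS hvQ h10 (hp.isPath.ne 0 (by omega)))
    rw [e]
    exact Z_le_Q_of_walk (hp.isA_even (by omega) even_two) (hp.walk (by omega) le_rfl) (by omega)
      (z_mem_Z (C.symm h12))
  have c2 : v * t * v * t ∈ X.Cos (p X.b) (p (X.b - 1)) := by
    rw [show v * t * v * t = v * (t * v * t⁻¹) by rw [hti]; group]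
    refine mem_Cos_conj hBb hμ hμne hv (fun e => hvQ (e ▸ one_mem _)) (fun e => hvQ ?_)
      (mem_S.mp htS).1 (mem_S.mp htS).2
      (smul_ne_of_notMem_Q (C.symm hp.last) htS htQ hμ hμne)
    rw [e]
    exact Z_le_Q_of_walk hA1 (hp.walk' (by omega) (by omega)) (by omega) (z_mem_Z hp.last)
  refine ⟨c1, ?_⟩
  have e : t * v * t * v = (v * t * v * t)⁻¹ := by
    simp only [mul_inv_rev, hti, hvi, mul_assoc]
  rw [e, Cos_inv hb hBb c2]
  exact c2

theorem five (h2 : X.Dim2) (hb : X.b = 5) {p : ℕ → V} (hp : X.Crit p) : False := by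
  have ho : Odd X.b := by rw [hb]; decide
  obtain ⟨μ, hμ, -, -, hA, v, hv, hvQ, hv2, hvS, hfix⟩ := hp.odd_data ho (by omega)
  obtain ⟨t, ht, htQ⟩ := SetLike.not_le_iff_exists.mp hp.not_le
  have h01 := hp.adj 0 (by omega)
  have h12 := hp.adj 1 (by omega)
  have hv1 := (mem_S.mp hvS).1
  -- every start of length four extends to a critical walk
  have H4 : ∀ r : ℕ → V, C.IsPath 4 r → X.IsB (r 0) →
      ∀ x, C.Adj (r 0) x → x ≠ r 1 → ¬ X.Z x ≤ C.Q (r 4) := by
    intro r hr hr0 x hx hx1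
    have hr2 : X.IsB (r 2) := by
      have := (typ_path hr.adj 2 (by omega)).1 even_two
      exact this.trans hr0
    obtain ⟨g₁, hg₁⟩ := C.trans (r 2) (p 1) (hr2.trans (hp.isB_odd (by omega) odd_one).symm)
    have ha₁ : C.Adj (p 1) (g₁ • r 3) := by
      simpa [hg₁] using C.smul_adj g₁ (hr.adj 2 (by omega))
    obtain ⟨g₂, hg₂1, hg₂2⟩ := C.trans_nbr ha₁ h12
    set g := g₂ * g₁ with hg
    have e2 : g • r 2 = p 1 := by rw [hg, mul_smul, hg₁, hg₂1]
    have e3 : g • r 3 = p 2 := by rw [hg, mul_smul, hg₂2]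
    obtain ⟨k, hk2, hk3, hk4⟩ : ∃ k : G, k • p 1 = p 1 ∧ k • p 2 = p 2 ∧
        k • g • r 4 = p 3 := by
      have h4 : C.Adj (p 2) (g • r 4) := by
        rw [← e3]; exact C.smul_adj g (hr.adj 3 (by omega))
      by_cases e : g • r 4 = p 3
      · exact ⟨1, one_smul _ _, one_smul _ _, by rw [one_smul, e]⟩
      obtain ⟨q, hq, hqQ⟩ := exists_mem_Q_notMem X.char2 h12
      have h4ne : g • r 4 ≠ p 1 := by
        rw [← e2]; exact fun e' => hr.ne 2 (by omega) (smul_left_cancel g e').symm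
      exact ⟨q, hq.1, hq.2 _ h12, smul_eq_of_notMem_Q (C.symm h12) (Q_le_S' h12 hq) hqQ h4 h4ne
        (hp.adj 2 (by omega)) (hp.isPath.ne 1 (by omega)).symm e⟩
    set g' := k * g with hg'
    have f2 : g' • r 2 = p 1 := by rw [hg', mul_smul, e2, hk2]
    have f3 : g' • r 3 = p 2 := by rw [hg', mul_smul, e3, hk3]
    have f4 : g' • r 4 = p 3 := by rw [hg', mul_smul, hk4]
    have ha : C.Adj (p 1) (g' • r 1) := by
      rw [← f2]; exact C.symm (C.smul_adj g' (hr.adj 1 (by omega)))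
    have ha2 : g' • r 1 ≠ p 2 := by
      rw [← f3]; exact fun e => hr.ne 1 (by omega) (smul_left_cancel g' e)
    have hp' := crit_flip hp ho (by omega) ha ha2
    set p' := Function.update p 0 (g' • r 1) with hp'def
    have hd : C.Adj (p' 0) (g' • r 0) := by
      simpa [p'] using C.symm (C.smul_adj g' (hr.adj 0 (by omega)))
    have hd1 : g' • r 0 ≠ p' 1 := by
      rw [hp'def, Function.update_of_ne one_ne_zero, ← f2]
      exact fun e => hr.ne 0 (by omega) (smul_left_cancel g' e)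
    obtain ⟨x', -, hs⟩ := shift_odd hp' ho (by omega) hd hd1
    have hs1 : C.Adj (shiftP x' (g' • r 0) p' 1) (g' • x) := by simpa using C.smul_adj g' hx
    have hs2 : g' • x ≠ shiftP x' (g' • r 0) p' 2 := by
      rw [shiftP_add, hp'def, Function.update_self]
      exact fun e => hx1 (smul_left_cancel g' e)
    have hs' := crit_flip hs ho (by omega) hs1 hs2
    intro hle
    refine hs'.not_le ?_
    have e5 : Function.update (shiftP x' (g' • r 0) p') 0 (g' • x) X.b = p 3 := by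
      rw [hb]; simp [shiftP, p']
    rw [Function.update_self, e5, ← f4]
    intro z hz
    have hgx : X.IsA (g' • x) := (hr0.nbr hx).smul g'
    have h := conj_mem_Z hgx (g := g'⁻¹) hz
    rw [inv_smul_smul] at h
    have h' := conj_mem_Q (g := g') (hle h)
    rwa [inv_inv, show g' * (g'⁻¹ * z * g') * g'⁻¹ = z by group] at h'
  obtain ⟨δ, -, hδ, -, hδ1, -⟩ := C.exists_others h01
  obtain ⟨x, hx, hs⟩ := shift_odd hp ho (by omega) hδ hδ1
  set s := shiftP x δ p with hsdef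
  have hs5 : s X.b = p 3 := by rw [hb]; simp [s, shiftP]
  have hs1 : s 1 = δ := rfl
  have hs2 : s 2 = p 0 := rfl
  have hs3 : s 3 = p 1 := rfl
  have hs4 : s 4 = p 2 := rfl
  obtain ⟨y, hy, hyQ⟩ := SetLike.not_le_iff_exists.mp hs.not_le
  rw [show s 0 = x from rfl] at hy
  rw [hs5] at hyQ
  have hxA : X.IsA x := (hp.isA.nbr hδ).nbr hx
  have hy2 : y * y = 1 := Z_mul_self hxA hy
  have hyi : y⁻¹ = y := Z_inv hxA hy
  have hy3 : y • p 3 = p 3 := by
    have := hs.Z0_fix (j := X.b) le_rfl (by simpa [s] using hy)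
    rwa [hs5] at this
  have hyp2 : y • p 2 = p 2 := by
    have := hs.Z0_fix (j := 4) (by omega) (by simpa [s] using hy)
    rwa [hs4] at this
  have hyδ : y • δ = δ := by
    have := hs.Z0_fix (j := 1) (by omega) (by simpa [s] using hy)
    rwa [hs1] at this
  have hyS : y ∈ C.S (p 3) (p 2) := mem_S.mpr ⟨hy3, hyp2⟩
  have h23 := hp.adj 2 (by omega)
  have h34 := hp.adj 3 (by omega)
  have h45 := hp.adj 4 (by omega)
  have h42 : p 4 ≠ p 2 := (hp.isPath.ne 2 (by omega)).symm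
  set a4 := y • p 4 with ha4
  set a5 := y • p 5 with ha5
  have h34' : C.Adj (p 3) a4 := by simpa [a4, hy3] using C.smul_adj y h34
  have h45' : C.Adj a4 a5 := C.smul_adj y h45
  have h4ne : a4 ≠ p 4 := smul_ne_of_notMem_Q (C.symm h23) hyS hyQ h34 h42
  have hBb : X.IsB (p 5) := hp.isB_odd (by omega) (by decide)
  have hμ5 : C.Adj (p 5) μ := by rw [← hb]; exact hμ
  let r : ℕ → V := fun j =>
    if j = 0 then p 5 else if j = 1 then p 4 else if j = 2 then p 3 else if j = 3 then a4 else a5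
  have hrpath : C.IsPath 4 r := by
    refine ⟨fun i hi => ?_, fun i hi => ?_⟩
    · interval_cases i
      · simpa [r] using C.symm h45
      · simpa [r] using C.symm h34
      · simpa [r] using h34'
      · simpa [r] using h45'
    · have hi2 : i ≤ 2 := by omega
      interval_cases i
      · simpa [r] using (hp.isPath.ne 3 (by omega)).symm
      · simpa [r] using h4ne.symm
      · have : p 3 ≠ a5 := fun e => hp.isPath.ne 3 (by omega)
          (smul_left_cancel y (hy3.trans e))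
        simpa [r] using this
  have hμ4 : μ ≠ p 4 := fun e => hvQ (by
    rw [e] at hv
    exact Z_le_Q_of_walk (hp.isA_even (by omega) (by decide))
      (hp.walk' (show 1 ≤ 4 by omega) (by omega)) (by omega) hv)
  have hμ5'' : ¬ X.Z μ ≤ C.Q a5 := by
    simpa [r] using H4 r hrpath (by simpa [r] using hBb) μ (by simpa [r] using hμ5)
      (by simpa [r] using hμ4)
  -- the second critical walk
  let s₁ : ℕ → V := fun j => if j = 0 then μ else r (j - 1)
  have hs₁ : X.Crit s₁ := by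
    refine ⟨fun i hi => ?_, by simpa [s₁] using hA, ?_⟩
    · rw [hb] at hi
      rcases i with _ | i
      · simpa [s₁, r] using C.symm hμ5
      · simpa [s₁] using hrpath.adj i (by omega)
    · rw [hb]; simpa [s₁, r] using hμ5''
  have hz5 : X.z (p 5) ∈ C.Q a5 := Z_le_Q_of_walk (hp.isA_even (by omega) (by decide))
    (Walk.cons (C.symm h34) (Walk.cons h34' (.single h45'))) (by omega) (z_mem_Z h45)
  have hv1ne : v ≠ 1 := fun e => hvQ (e ▸ one_mem _)
  have hvz : v ≠ X.z (p 5) := fun e => hvQ (by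
    rw [e]
    exact Z_le_Q_of_walk (hp.isA_even (show 4 ≤ X.b by omega) (by decide))
      (hp.walk' (show 1 ≤ 4 by omega) (by omega)) (by omega) (z_mem_Z h45))
  have hv5 : v ∉ C.Q a5 := fun e => by
    rcases Z_inter h2 hA (C.symm hμ5) hz5 hμ5'' hv e with f | f
    · exact hv1ne f
    · exact hvz f
  set u := y * v * y⁻¹ with hu
  have huZ : u ∈ X.Z (y • μ) := conj_mem_Z hA hv
  have hu5 : u ∉ C.Q (p 5) := fun e => hv5 (by
    have e' := conj_mem_Q (g := y) e
    rwa [hu, show y * (y * v * y⁻¹) * y⁻¹ = (y * y) * v * (y * y)⁻¹ by group, hy2, one_mul,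
      inv_one, mul_one] at e')
  have hr1 : t * v * t * v ∈ X.Cos (p 5) (p 4) := by
    have := (comm_mem h2 hp ho (by omega) hμ ht htQ hv hvQ).2
    simpa [hb] using this
  set c := t * v * t * v with hc
  have hcV : c ∈ X.Vy (p 1) :=
    Cos_mem_Vy (comm_mem h2 hp ho (by omega) hμ ht htQ hv hvQ).1
  have hyc : y * c * y⁻¹ = c := by
    have : X.Vy (p 1) ≤ Subgroup.centralizer {y} := Vy_le fun a ha z hz =>
      Subgroup.mem_centralizer_singleton_iff.mpr (Z_comm_walk
        ((hp.isB_odd (show 1 ≤ X.b by omega) odd_one).nbr ha) hxA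
        (Walk.cons (C.symm ha) (Walk.cons (C.symm h01) (Walk.cons hδ (.single hx))))
        (by omega) hz hy)
    rw [← Subgroup.mem_centralizer_singleton_iff.mp (this hcV), mul_inv_cancel_right]
  have hr2 : c ∈ X.Cos a5 a4 := by
    have := Cos_smul hBb (g := y) hr1
    rwa [hyc] at this
  have hrho := comm_mem h2 hs₁ ho (by omega) (μ := y • μ)
    (by rw [hb]; simpa [s₁, r, a5] using C.smul_adj y hμ5) (t := v) (v := u)
    (by simpa [s₁] using hv) (by rw [hb]; simpa [s₁, r] using hv5) huZ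
    (by simpa [s₁, r] using hu5)
  have hm1 : v * u * v * u ∈ X.Cos (p 5) (p 4) := by simpa [s₁, r] using hrho.1
  have hm2 : v * u * v * u ∈ X.Cos a5 a4 := by
    have := hrho.2
    rw [hb] at this
    simpa [s₁, r] using this
  have hz55 : X.z (p 5) ≠ X.z a5 := by
    intro e
    have hA4 : X.IsA (p 4) := hp.isA_even (by omega) (by decide)
    have hB3 : X.IsB (p 3) := hp.isB_odd (by omega) (by decide)
    rcases Z_inter h2 hA4 (C.symm h34) (H := X.Z a4) (z_mem_Z (C.symm h34'))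
      (Z_not_le h2 hB3 h34 h34' h4ne.symm) (z_mem_Z h45)
      (e ▸ z_mem_Z h45') with f | f
    · exact X.z_ne_one _ hBb f
    · exact z_ne hA4 h45 (C.symm h34) (hp.isPath.ne 3 (by omega)).symm f
  have hrc : v * u * v * u = c := Cos_inter h2 (by omega) hBb (C.symm h45)
    (((hp.isA_even (show 4 ≤ X.b by omega) (by decide)).smul y).nbr h45') (C.symm h45') hz55 hr1 hr2 hm1 hm2
  -- `c` lies in the module at `δ`
  have hvi : v⁻¹ = v := Z_inv hA hv
  have hv0a : C.Adj (p 1) (v • p 0) := by simpa [hv1] using C.smul_adj v (C.symm h01)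
  have hyvδ : y • v • δ = v • δ :=
    (Z_le_Q_of_walk hxA (Walk.cons (C.symm hx) (Walk.cons (C.symm hδ)
      (Walk.cons h01 (.single hv0a)))) (by omega) hy).2 _ (C.smul_adj v hδ)
  set ρ := v * u with hρ
  have hρδ : ρ • δ = δ := by
    rw [hρ, hu, hyi, mul_smul, mul_smul, mul_smul, hyδ, hyvδ, ← mul_smul, hv2, one_smul]
  have hcδ : c ∈ X.Vy δ := by
    have e : v * u * v * u = ρ * y * ρ⁻¹ * y := by
      rw [hρ, hu]
      simp only [mul_inv_rev, hvi, hyi, inv_inv, mul_assoc]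
      rw [← mul_assoc y y, hy2, one_mul]
    rw [← hrc, e]
    exact mul_mem (conj_mem_Vy_self (hp.isA.nbr hδ) hρδ (Z_le_Vy hx hy)) (Z_le_Vy hx hy)
  -- a further shift
  obtain ⟨δ₂, -, hδ₂, -, hδ₂ne, -⟩ := C.exists_others (C.symm hx)
  obtain ⟨x₂, -, hs₂⟩ := shift_odd hs ho (by omega) (δ := δ₂) (by simpa [s] using hδ₂)
    (by simpa [s] using hδ₂ne)
  obtain ⟨ν, -, -, hq⟩ := exists_rev hs₂ ho (by omega)
  have hq1 : revP X.b ν (shiftP x₂ δ₂ s) 1 = p 1 := by simp [revP, hb, shiftP, s]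
  have hq2 : revP X.b ν (shiftP x₂ δ₂ s) 2 = p 0 := by simp [revP, hb, shiftP, s]
  have hq5 : revP X.b ν (shiftP x₂ δ₂ s) X.b = δ₂ := by simp [revP, hb, shiftP]
  have hv0ne : v • p 0 ≠ p 0 :=
    smul_ne_of_notMem_Q h12 hvS hvQ (C.symm h01) (hp.isPath.ne 0 (by omega))
  have hflip := (crit_flip hq ho (by omega) (a := v • p 0) (by rw [hq1]; exact hv0a)
    (by rw [hq2]; exact hv0ne)).not_le
  rw [Function.update_self, Function.update_of_ne (show X.b ≠ 0 by omega), hq5] at hflip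
  have hcQ : c ∈ C.Q δ₂ := Vy_le_Q (hp.isA.nbr hδ) (Walk.cons hx (.single hδ₂)) (by omega) hcδ
  have hw0 : C.Walk 3 (p 0) δ₂ := Walk.cons hδ (Walk.cons hx (.single hδ₂))
  have htQ2 : t ∈ C.Q δ₂ := Z_le_Q_of_walk hp.isA hw0 (by omega) ht
  have hz1 : X.z (p 1) ∈ C.Q δ₂ := Z_le_Q_of_walk hp.isA hw0 (by omega) (z_mem_Z h01)
  have hvtv : v * t * v⁻¹ ∈ C.Q δ₂ := by
    have : v * t * v⁻¹ = t⁻¹ * c := by rw [hc, hvi]; group
    rw [this]; exact mul_mem (inv_mem htQ2) hcQ
  have ht1 : t ≠ 1 := fun e => htQ (e ▸ one_mem _)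
  rcases Z_inter h2 (hp.isA.smul v) (C.symm hv0a) hz1 hflip (conj_mem_Z hp.isA ht) hvtv with f | f
  · exact ht1 (conj_eq_one_iff.mp f)
  · refine htQ ?_
    have : t = X.z (p 1) := by
      calc t = v⁻¹ * (v * t * v⁻¹) * v := by group
        _ = X.z (p 1) := by
          rw [f, z_comm (hp.isB_odd (by omega) odd_one) (show v⁻¹ • p 1 = p 1 by rw [hvi, hv1]),
            inv_mul_cancel_right]
    rw [this]
    exact Z_le_Q_of_walk (hp.isA_even (by omega) even_two) (hp.walk (by omega) le_rfl) (by omega)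
      (z_mem_Z (C.symm h12))

theorem seven_le (h2 : X.Dim2) (ho : Odd X.b) (hb : 7 ≤ X.b) {p : ℕ → V} (hp : X.Crit p) :
    False := by
  obtain ⟨μ, hμ, -, -, hA, v, hv, hvQ, hv2, hvS, hfix⟩ := hp.odd_data ho (by omega)
  obtain ⟨hv1, hvp2⟩ := mem_S.mp hvS
  have h01 := hp.adj 0 (by omega)
  have h12 := hp.adj 1 (by omega)
  have h23 := hp.adj 2 (by omega)
  have h34 := hp.adj 3 (by omega)
  have hvi : v⁻¹ = v := Z_inv hA hv
  have hB1 := hp.isB_odd (show 1 ≤ X.b by omega) odd_one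
  have hB3 : X.IsB (p 3) := hp.isB_odd (by omega) (by decide)
  have hv0a : C.Adj (p 1) (v • p 0) := by simpa [hv1] using C.smul_adj v (C.symm h01)
  have hv0ne : v • p 0 ≠ p 0 :=
    smul_ne_of_notMem_Q h12 hvS hvQ (C.symm h01) (hp.isPath.ne 0 (by omega))
  have hv02 : v • p 0 ≠ p 2 := fun e => hp.isPath.ne 0 (by omega)
    (smul_left_cancel v (e.trans hvp2.symm))
  obtain ⟨q, hq, hqQ⟩ := exists_mem_Q_notMem X.char2 h01
  have hqS : q ∈ C.S (p 1) (p 0) := Q_le_S' h01 hq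
  have hqv0 : q • v • p 0 = p 2 := smul_eq_of_notMem_Q (C.symm h01) hqS hqQ hv0a hv0ne h12
    (hp.isPath.ne 0 (by omega)).symm hv02
  set δ := v • q⁻¹ • p 3 with hδdef
  have hδ : C.Adj (p 0) δ := by
    have h := C.smul_adj v (C.smul_adj q⁻¹ h23)
    rwa [show q⁻¹ • p 2 = v • p 0 by rw [inv_smul_eq_iff, hqv0], ← mul_smul v v, hv2, one_smul]
      at h
  have hvδ : v • δ = q⁻¹ • p 3 := by rw [hδdef, ← mul_smul, hv2, one_smul]
  have hqvδ : q • v • δ = p 3 := by rw [hvδ, smul_inv_smul]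
  have hδ1 : δ ≠ p 1 := fun e => by
    rw [e, hv1, (mem_S.mp hqS).1] at hqvδ
    exact hp.isPath.ne 1 (by omega) hqvδ
  obtain ⟨x, hx, hs⟩ := shift_odd hp ho (by omega) hδ hδ1
  obtain ⟨ν, hν, -, hsr⟩ := exists_rev hs ho (by omega)
  obtain ⟨y, hy, hyQ⟩ := SetLike.not_le_iff_exists.mp hs.not_le
  obtain ⟨w, hw, hwQ⟩ := SetLike.not_le_iff_exists.mp hsr.not_le
  rw [revP_zero] at hw
  rw [revP_of_pos _ _ _ (by omega), show X.b + 1 - X.b = 1 by omega] at hwQ
  have hc := comm_mem h2 hs ho (by omega) hν hy hyQ hw hwQ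
  set c := y * w * y * w with hcdef
  rw [shiftP_one, show shiftP x δ p 2 = p 0 from rfl,
    shiftP_of_le _ _ _ (show 2 ≤ X.b by omega),
    shiftP_of_le _ _ _ (show 2 ≤ X.b - 1 by omega), show X.b - 1 - 2 = X.b - 3 by omega] at hc
  have hBb2 : X.IsB (p (X.b - 2)) := hp.isB_odd (by omega) (by
    rw [Nat.odd_iff] at ho ⊢; omega)
  have hcV : c ∈ X.Vy (p (X.b - 2)) := Cos_mem_Vy hc.2
  have hvc : v * c * v⁻¹ = c := by
    have : X.Vy (p (X.b - 2)) ≤ Subgroup.centralizer {v} := Vy_le fun a ha z hz =>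
      Subgroup.mem_centralizer_singleton_iff.mpr (Z_comm_walk (hBb2.nbr ha) hA
        (Walk.cons (C.symm ha) ((hp.walk (show X.b - 2 ≤ X.b by omega) le_rfl).concat hμ))
        (by omega) hz hv)
    rw [← Subgroup.mem_centralizer_singleton_iff.mp (this hcV), mul_inv_cancel_right]
  have hBδ : X.IsB δ := hp.isA.nbr hδ
  have hc'' : c ∈ X.Cos (v • δ) (v • p 0) := by
    have := Cos_smul hBδ (g := v) hc.1
    rwa [hvc] at this
  have hg1 : q * c * q⁻¹ ∈ X.Cos δ (p 0) := by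
    have := Cos_smul hBδ (g := q) hc.1
    rwa [hq.2 δ hδ, hq.1] at this
  have hg2 : q * c * q⁻¹ ∈ X.Cos (p 3) (p 2) := by
    have := Cos_smul (hBδ.smul v) (g := q) hc''
    rwa [hqvδ, hqv0] at this
  obtain ⟨p', hp', hp'j⟩ := exists_forward hp ho (by omega)
  rcases Cos_eq h2 (by omega) hBδ (C.symm hδ) hc.1 hg1 with e | e <;> rw [e] at hg2
  · refine Cos_notMem h2 hB3 (C.symm h23) h34 (hp.isPath.ne 2 (by omega)).symm
      (H := C.Q (p' X.b)) ?_ ?_ hg2 ?_
    · rw [show p 4 = p' 2 from (hp'j 2 (by omega)).symm]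
      exact Z_le_Q_of_walk (hp'.isA_even (by omega) even_two)
        (hp'.walk (by omega) le_rfl) (by omega)
    · intro a ha _ ha4
      have := (crit_flip hp' ho (by omega) (a := a) (by rw [hp'j 1 (by omega)]; exact ha)
        (by rw [hp'j 2 (by omega)]; exact ha4)).not_le
      rwa [Function.update_self, Function.update_of_ne (show X.b ≠ 0 by omega)] at this
    · refine Vy_le_Q hBb2 ?_ (n := 4) (by omega) hcV
      have h := hp'.walk (show X.b - 4 ≤ X.b by omega) le_rfl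
      rwa [hp'j _ (by omega), show X.b - 4 + 2 = X.b - 2 by omega,
        show X.b - (X.b - 4) = 4 by omega] at h
  · have hg3 : c * X.z (v • δ) ∈ X.Cos (p 3) (p 2) := by
      have := Cos_smul hB3 (g := v) hg2
      rwa [show v * (c * X.z δ) * v⁻¹ = v * c * v⁻¹ * (v * X.z δ * v⁻¹) by group, hvc,
        ← X.z_smul v δ hBδ, hfix 3 (by omega) (by omega), hvp2] at this
    rcases Cos_eq h2 (by omega) hB3 (C.symm h23) hg2 hg3 with f | f
    · have f' : X.z (v • δ) = X.z δ := mul_left_cancel f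
      have hzv : X.z δ ∈ X.Z (v • p 0) := f' ▸ z_mem_Z (C.smul_adj v hδ)
      rcases Z_inter h2 hp.isA h01 (H := X.Z (v • p 0)) (z_mem_Z (C.symm hv0a))
        (Z_not_le h2 hB1 (C.symm h01) hv0a hv0ne.symm) (z_mem_Z hδ) hzv with g | g
      · exact X.z_ne_one δ hBδ g
      · exact z_ne hp.isA hδ h01 hδ1 g
    · have f' : X.z (v • δ) = X.z δ * X.z (p 3) :=
        mul_left_cancel (a := c) (f.trans (mul_assoc _ _ _))
      have hBb := hp.isB_odd le_rfl ho
      have hz3 : X.z (p 3) ∈ X.Vy (p X.b) := by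
        have e' : X.z (p 3) = X.z δ * v * (X.z δ)⁻¹ * v⁻¹ := by
          calc X.z (p 3) = (X.z δ)⁻¹ * X.z (v • δ) := by rw [f']; group
            _ = X.z δ * (v * X.z δ * v⁻¹) := by rw [z_inv hBδ, X.z_smul v δ hBδ]
            _ = _ := by rw [z_inv hBδ]; group
        rw [e']
        exact mul_mem (conj_mem_Vy_self hBb (hp.Z0_fix le_rfl (z_mem_Z hδ)) (Z_le_Vy hμ hv))
          (inv_mem (Z_le_Vy hμ hv))
      obtain ⟨p'', hp'', hp''j⟩ := exists_forward hp' ho (by omega)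
      have e4 : p'' 0 = p 4 := by rw [hp''j 0 (by omega), hp'j 2 (by omega)]
      have e5 : p'' 1 = p 5 := by rw [hp''j 1 (by omega), hp'j 3 (by omega)]
      have hz3Q : X.z (p 3) ∈ C.Q (p'' X.b) := by
        refine Vy_le_Q hBb ?_ (n := 4) (by omega) hz3
        have h := hp''.walk (show X.b - 4 ≤ X.b by omega) le_rfl
        rwa [hp''j _ (by omega), hp'j _ (by omega), show X.b - 4 + 2 + 2 = X.b by omega,
          show X.b - (X.b - 4) = 4 by omega] at h
      have hA4 : X.IsA (p 4) := hp.isA_even (by omega) (by decide)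
      have h45 := hp.adj 4 (by omega)
      have hz5 : X.z (p 5) ∈ C.Q (p'' X.b) := by
        refine Z_le_Q_of_walk (hp''.isA_even (by omega) even_two) (hp''.walk (by omega) le_rfl)
          (by omega) ?_
        rw [← e5]
        exact z_mem_Z (C.symm (hp''.adj 1 (by omega)))
      have hnle : ¬ X.Z (p 4) ≤ C.Q (p'' X.b) := e4 ▸ hp''.not_le
      rcases Z_inter h2 hA4 h45 hz5 hnle (z_mem_Z (C.symm h34)) hz3Q with g | g
      · exact X.z_ne_one _ hB3 g
      · exact z_ne hA4 (C.symm h34) h45 (hp.isPath.ne 3 (by omega)) g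

end Choice

end CfsgLib.CubicAmalgam
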