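/-
Critical walks of length three.
-/
import Cfsg.Agent.Lib.CubicAmalgam.Long

set_option autoImplicit false

namespace CfsgLib.CubicAmalgam

open MulAction Cubic

variable {G : Type*} [Group G] {V : Type*} [MulAction G V] {C : Cubic G V}

namespace Choice

variable {X : Choice C}

theorem bound_of_b_le_two (hb : X.b ≤ 2) {p : ℕ → V} (hp : X.Crit p) : C.Bound := by
  have := hp.b_pos
  by_cases h2 : X.Dim2
  · rcases Nat.lt_or_ge X.b 2 with h | h
    · exact (one_dim2 h2 (by omega) hp).elim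
    · exact two_dim2 h2 (by omega) hp
  · rcases Nat.lt_or_ge X.b 2 with h | h
    · exact one_dim3 h2 (by omega) hp
    · exact (two_dim3 h2 (by omega) hp).elim

theorem crit_three (hb : X.b = 3) {p : ℕ → V} (hp : X.Crit p) {x y a y' : V} (hx : X.IsA x)
    (hxy : C.Adj x y) (hya : C.Adj y a) (hay : C.Adj a y') (hxa : x ≠ a) (hyy : y ≠ y') :
    ¬ X.Z x ≤ C.Q y' := by
  have ho : Odd X.b := by rw [hb]; decide
  have h12 := hp.adj 1 (by omega)
  have h23 := hp.adj 2 (by omega)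
  have haA : X.IsA a := (hx.nbr hxy).nbr hya
  obtain ⟨g₁, hg₁⟩ := C.trans a (p 2) (haA.trans (hp.isA_even (by omega) even_two).symm)
  have hy1 : C.Adj (p 2) (g₁ • y) := by simpa [hg₁] using C.smul_adj g₁ (C.symm hya)
  obtain ⟨g₂, hg₂2, hg₂1⟩ := C.trans_nbr hy1 (C.symm h12)
  set g := g₂ * g₁ with hg
  have ea : g • a = p 2 := by rw [hg, mul_smul, hg₁, hg₂2]
  have ey : g • y = p 1 := by rw [hg, mul_smul, hg₂1]
  obtain ⟨k, hk1, hk2, hk3⟩ : ∃ k : G, k • p 1 = p 1 ∧ k • p 2 = p 2 ∧ k • g • y' = p 3 := by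
    have h4 : C.Adj (p 2) (g • y') := by rw [← ea]; exact C.smul_adj g hay
    have h4ne : g • y' ≠ p 1 := by
      rw [← ey]; exact fun e' => hyy (smul_left_cancel g e').symm
    by_cases e : g • y' = p 3
    · exact ⟨1, one_smul _ _, one_smul _ _, by rw [one_smul, e]⟩
    obtain ⟨q, hq, hqQ⟩ := exists_mem_Q_notMem X.char2 h12
    exact ⟨q, hq.1, hq.2 _ h12, smul_eq_of_notMem_Q (C.symm h12) (Q_le_S' h12 hq) hqQ h4 h4ne
      h23 (hp.isPath.ne 1 (by omega)).symm e⟩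
  set g' := k * g with hg'
  have fy : g' • y = p 1 := by rw [hg', mul_smul, ey, hk1]
  have fa : g' • a = p 2 := by rw [hg', mul_smul, ea, hk2]
  have fy' : g' • y' = p 3 := by rw [hg', mul_smul, hk3]
  have hn := (crit_flip hp ho (by omega) (a := g' • x)
    (by rw [← fy]; exact C.symm (C.smul_adj g' hxy))
    (by rw [← fa]; exact fun e => hxa (smul_left_cancel g' e))).not_le
  rw [Function.update_self, Function.update_of_ne (show X.b ≠ 0 by omega), hb, ← fy'] at hn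
  intro hle
  refine hn fun z hz => ?_
  have h := conj_mem_Z (hx.smul g') (g := g'⁻¹) hz
  rw [inv_smul_smul] at h
  have h' := conj_mem_Q (g := g') (hle h)
  rwa [inv_inv, show g' * (g'⁻¹ * z * g') * g'⁻¹ = z by group] at h'

theorem exists_common (h2 : X.Dim2) (hb : X.b = 3) {p : ℕ → V} (hp : X.Crit p) {a y y' : V}
    (ha : X.IsA a) (hy : C.Adj a y) (hy' : C.Adj a y') (hne : y ≠ y') :
    ∃ c, c ∈ X.Cos y a ∧ c ∈ X.Cos y' a := by
  have ho : Odd X.b := by rw [hb]; decide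
  obtain ⟨x, -, hx, -, hxa, -⟩ := C.exists_others (C.symm hy)
  have hxA : X.IsA x := (ha.nbr hy).nbr hx
  have hnle := crit_three hb hp hxA (C.symm hx) (C.symm hy) hy' hxa hne
  let r : ℕ → V := fun j => if j = 0 then x else if j = 1 then y else if j = 2 then a else y'
  have hr : X.Crit r := by
    refine ⟨fun i hi => ?_, by simpa [r] using hxA, by rw [hb]; simpa [r] using hnle⟩
    rw [hb] at hi
    interval_cases i
    · simpa [r] using C.symm hx
    · simpa [r] using C.symm hy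
    · simpa [r] using hy'
  obtain ⟨ν, hν, -, hq⟩ := exists_rev hr ho (by omega)
  obtain ⟨t, ht, htQ⟩ := SetLike.not_le_iff_exists.mp hr.not_le
  obtain ⟨v, hv, hvQ⟩ := SetLike.not_le_iff_exists.mp hq.not_le
  rw [revP_zero] at hv
  rw [revP_of_pos _ _ _ (by omega), show X.b + 1 - X.b = 1 by omega] at hvQ
  have h := comm_mem h2 hr ho (by omega) hν ht htQ hv hvQ
  rw [hb] at h
  exact ⟨_, by simpa [r] using h.1, by simpa [r] using h.2⟩

/-- Either the common products give a new choice with a short critical walk, or each is the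
involution of the third neighbour. -/
theorem three_cases (h2 : X.Dim2) (hb : X.b = 3) {p : ℕ → V} (hp : X.Crit p) :
    C.Bound ∨ ∀ y y' y'', C.Adj (p 2) y → C.Adj (p 2) y' → C.Adj (p 2) y'' → y ≠ y' → y ≠ y'' →
      y' ≠ y'' → X.z y'' ∈ X.Cos y (p 2) := by
  have ho : Odd X.b := by rw [hb]; decide
  have hb3 : 3 ≤ X.b := hb.ge
  have h01 := hp.adj 0 (by omega)
  have h12 := hp.adj 1 (by omega)
  have h21 := C.symm h12
  have h23 := hp.adj 2 (by omega)
  have hA : X.IsA (p 2) := hp.isA_even (by omega) even_two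
  have hB1 := hA.nbr h21
  have h13 : p 1 ≠ p 3 := hp.isPath.ne 1 (by omega)
  obtain ⟨m, hm, hm1, hm3, hall⟩ := C.exists_third h21 h23 h13
  have hB3 := hA.nbr h23
  have hBm := hA.nbr hm
  obtain ⟨c, hc1, hc3⟩ := exists_common h2 hb hp hA h21 h23 h13
  obtain ⟨c₁, hc₁1, hc₁m⟩ := exists_common h2 hb hp hA h21 hm hm1.symm
  obtain ⟨c₃, hc₃3, hc₃m⟩ := exists_common h2 hb hp hA h23 hm hm3.symm
  have uniq : ∀ y y', C.Adj (p 2) y → C.Adj (p 2) y' → y ≠ y' → ∀ d d', d ∈ X.Cos y (p 2) →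
      d ∈ X.Cos y' (p 2) → d' ∈ X.Cos y (p 2) → d' ∈ X.Cos y' (p 2) → d' = d :=
    fun y y' hy hy' hne d d' e1 e2 e3 e4 => Cos_inter h2 hb3 (hA.nbr hy) (C.symm hy) (hA.nbr hy')
      (C.symm hy') (z_ne hA hy hy' hne) e1 e2 e3 e4
  have hnbr : ∀ (g : G) y, g • p 2 = p 2 → C.Adj (p 2) y → C.Adj (p 2) (g • y) :=
    fun g y hg hy => by simpa [hg] using C.smul_adj g hy
  have hcV : c ∈ X.Vy (p 1) := Cos_mem_Vy hc1
  have hc2 : c * c = 1 := mul_eq_one_iff_eq_inv.mpr (Cos_inv hb3 hB1 hc1).symm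
  have hVS : ∀ x ∈ X.Vy (p 1), x ∈ C.S (p 2) (p 1) := fun x hx =>
    mem_S.mpr ⟨Vy_fix hB1 (.single h12) (by omega) hx, Vy_fix hB1 (.nil _) (by omega) hx⟩
  have hsingle : c₁ = c → C.Bound := by
    intro e
    have hcm : c ∈ X.Cos m (p 2) := e ▸ hc₁m
    have hallc : ∀ y, C.Adj (p 2) y → c ∈ X.Cos y (p 2) := by
      intro y hy
      rcases hall y hy with rfl | rfl | rfl <;> assumption
    have hcentral : ∀ g : G, g • p 2 = p 2 → g * c = c * g := by
      intro g hg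
      have hgi : g⁻¹ • p 2 = p 2 := by rw [inv_smul_eq_iff, hg]
      have key : ∀ y, C.Adj (p 2) y → g * c * g⁻¹ ∈ X.Cos y (p 2) := by
        intro y hy
        have := Cos_smul ((hA.nbr hy).smul g⁻¹) (g := g) (hallc _ (hnbr _ y hgi hy))
        rwa [smul_inv_smul, hg] at this
      exact mul_inv_eq_iff_eq_mul.mp
        (uniq _ _ h21 h23 h13 c _ hc1 hc3 (key _ h21) (key _ h23))
    obtain ⟨Y, hYβ, hYz⟩ := choice_of_central X.char2 h21 (hVS c hcV) hc2 hcentral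
      (Cos_ne_one h2 hB1 hc1)
    have hY0 : Y.IsB (p 0) := hp.isA.trans (hA.symm.trans hYβ.symm)
    have hYB2 : Y.IsB (p 2) := hYβ.symm
    obtain ⟨g, hg⟩ := C.trans (p 2) (p 0) (hA.trans hp.isA.symm)
    have hz0 : Y.z (p 0) ∈ X.Cos (p 1) (p 0) := by
      have hy : C.Adj (p 2) (g⁻¹ • p 1) := by
        have := C.smul_adj g⁻¹ h01
        rwa [show g⁻¹ • p 0 = p 2 by rw [inv_smul_eq_iff, hg]] at this
      have := Cos_smul (hA.nbr hy) (g := g) (hallc _ hy)
      rw [smul_inv_smul, hg, ← hYz, ← Y.z_smul g _ hYB2, hg] at this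
      exact this
    have hYA : Y.IsA (p 1) := hY0.nbr h01
    have hnot : ¬ Y.Z (p 1) ≤ C.Q (p 3) := fun hle => by
      refine Cos_notMem h2 hB1 (C.symm h01) h12 (hp.isPath.ne 0 (by omega)).symm
        (H := C.Q (p 3)) (Z_le_Q_of_walk hA (.single h23) (by omega)) ?_ hz0
        (hle (z_mem_Z (C.symm h01)))
      intro a ha _ ha2
      have := (crit_flip hp ho hb3 ha ha2).not_le
      rwa [Function.update_self, Function.update_of_ne (show X.b ≠ 0 by omega), hb] at this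
    obtain ⟨q, hq⟩ := Y.exists_crit (p 0)
    refine bound_of_b_le_two ?_ hq
    by_contra hlt
    exact hnot (Z_le_Q_of_walk hYA (Walk.cons h12 (.single h23)) (by omega))
  rcases Cos_eq h2 hb3 hB1 h12 hc1 hc₁1 with e | e
  · exact Or.inl (hsingle e)
  have e3 : c₃ = c * X.z (p 3) := by
    rcases Cos_eq h2 hb3 hB3 (C.symm h23) hc3 hc₃3 with f | f
    · exfalso
      have := uniq _ _ h21 hm hm1.symm c₁ c hc₁1 hc₁m hc1 (f ▸ hc₃m)
      rw [e, left_eq_mul] at this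
      exact X.z_ne_one _ hB1 this
    · exact f
  have hz13 : X.z (p 1) * X.z (p 3) = X.z m := z_mul h2 hA h21 h23 hm h13 hm1.symm hm3.symm
  have hz31 : X.z (p 3) * X.z (p 1) = X.z m := z_mul h2 hA h23 h21 hm h13.symm hm3.symm hm1.symm
  set f := c * X.z m with hfdef
  have hf : ∀ y y' y'', C.Adj (p 2) y → C.Adj (p 2) y' → C.Adj (p 2) y'' → y ≠ y' → y ≠ y'' →
      y' ≠ y'' → ∀ d, d ∈ X.Cos y (p 2) → d ∈ X.Cos y' (p 2) → d * X.z y'' = f := by
    intro y y' y'' hy hy' hy'' n1 n2 n3 d d1 d2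
    have f1 : c₁ * X.z (p 3) = f := by rw [e, mul_assoc, hz13]
    have f3 : c₃ * X.z (p 1) = f := by rw [e3, mul_assoc, hz31]
    rcases hall y hy with rfl | rfl | rfl <;> rcases hall y' hy' with rfl | rfl | rfl <;>
      rcases hall y'' hy'' with rfl | rfl | rfl <;>
      first
      | exact absurd rfl n1
      | exact absurd rfl n2
      | exact absurd rfl n3
      | (rw [uniq _ _ hy hy' n1 c d hc1 hc3 d1 d2])
      | (rw [uniq _ _ hy hy' n1 c d hc3 hc1 d1 d2])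
      | (rw [uniq _ _ hy hy' n1 c₁ d hc₁1 hc₁m d1 d2]; exact f1)
      | (rw [uniq _ _ hy hy' n1 c₁ d hc₁m hc₁1 d1 d2]; exact f1)
      | (rw [uniq _ _ hy hy' n1 c₃ d hc₃3 hc₃m d1 d2]; exact f3)
      | (rw [uniq _ _ hy hy' n1 c₃ d hc₃m hc₃3 d1 d2]; exact f3)
  by_cases hf1 : f = 1
  · refine Or.inr fun y y' y'' hy hy' hy'' n1 n2 n3 => ?_
    obtain ⟨d, d1, d2⟩ := exists_common h2 hb hp hA hy hy' n1
    have h := hf y y' y'' hy hy' hy'' n1 n2 n3 d d1 d2
    rw [hf1, mul_eq_one_iff_eq_inv, z_inv (hA.nbr hy'')] at h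
    rwa [← h]
  exfalso
  have hzmV : X.z m ∈ X.Vy (p 1) := Z_le_Vy h12 (z_mem_Z hm)
  have hfV : f ∈ X.Vy (p 1) := mul_mem hcV hzmV
  have hfsq : f * f = 1 := by
    rw [hfdef, mul_assoc c, ← mul_assoc (X.z m) c, Vy_comm hb3 hB1 hzmV hcV, mul_assoc c,
      X.z_mul_self m hBm, mul_one, hc2]
  have hfc : ∀ g : G, g • p 2 = p 2 → g * f = f * g := by
    intro g hg
    have d1 : g * c * g⁻¹ ∈ X.Cos (g • p 1) (p 2) := by
      have := Cos_smul hB1 (g := g) hc1; rwa [hg] at this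
    have d3 : g * c * g⁻¹ ∈ X.Cos (g • p 3) (p 2) := by
      have := Cos_smul hB3 (g := g) hc3; rwa [hg] at this
    have h := hf _ _ _ (hnbr g _ hg h21) (hnbr g _ hg h23) (hnbr g _ hg hm)
      (fun h => h13 (smul_left_cancel g h)) (fun h => hm1 (smul_left_cancel g h).symm)
      (fun h => hm3 (smul_left_cancel g h).symm) _ d1 d3
    rw [X.z_smul g m hBm] at h
    refine mul_inv_eq_iff_eq_mul.mp ?_
    conv_rhs => rw [← h]
    rw [hfdef]; group
  obtain ⟨Y, hYβ, hYz⟩ := choice_of_central X.char2 h21 (hVS f hfV) hfsq hfc hf1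
  have hYB : ∀ a, X.IsA a → Y.IsB a := fun a ha => ha.trans (hA.symm.trans hYβ.symm)
  have hYA1 : Y.IsA (p 1) := (hYB _ hA).nbr (C.symm h12)
  have hform : ∀ a, C.Adj (p 1) a → ∃ d r, d ∈ X.Cos (p 1) a ∧ r ∈ X.Z a ∧ r ≠ 1 ∧
      r ≠ X.z (p 1) ∧ Y.z a = d * r := by
    intro a ha
    have haA := hB1.nbr ha
    obtain ⟨g, hg⟩ := C.trans (p 2) a (hA.trans haA.symm)
    set y := g⁻¹ • p 1 with hy'
    have hy : C.Adj (p 2) y := by
      have := C.smul_adj g⁻¹ (C.symm ha)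
      rwa [show g⁻¹ • a = p 2 by rw [inv_smul_eq_iff, hg]] at this
    obtain ⟨y', y'', hy1, hy2, n1, n2, n3, -⟩ := C.exists_others hy
    obtain ⟨d, d1, d2⟩ := exists_common h2 hb hp hA hy hy1 n1.symm
    have h := hf y y' y'' hy hy1 hy2 n1.symm n2.symm n3 d d1 d2
    refine ⟨g * d * g⁻¹, g * X.z y'' * g⁻¹, ?_, ?_, fun e => X.z_ne_one _ (hA.nbr hy2)
      (conj_eq_one_iff.mp e), fun e => ?_, ?_⟩
    · have := Cos_smul (hA.nbr hy) (g := g) d1
      rwa [hy', smul_inv_smul, hg] at this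
    · rw [← X.z_smul g _ (hA.nbr hy2), ← hg]
      exact z_mem_Z (C.smul_adj g hy2)
    · rw [← X.z_smul g _ (hA.nbr hy2), show p 1 = g • y by rw [hy', smul_inv_smul]] at e
      exact z_ne haA (hg ▸ C.smul_adj g hy2) (hg ▸ C.smul_adj g hy)
        (fun e' => n2 (smul_left_cancel g e')) e
    · rw [← hg, Y.z_smul g _ (hYB _ hA), hYz, ← h]; group
  obtain ⟨a, a', ha, ha', ha2, ha'2, haa, -⟩ := C.exists_others h12
  have hd := hform (p 2) h12
  obtain ⟨d, r, hd1, hr, hr1, hrz, hd2⟩ := hd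
  obtain ⟨b', b'', u, w, g1, g2, g3, g4, g5, hu, hu1, huz, hw, hw1, hwz, rfl⟩ := hd1
  -- the values at the other two neighbours agree up to the central involution
  have key : ∀ (e e' : V) (u w : G), C.Adj (p 1) e → C.Adj (p 1) e' → e ≠ p 2 → e' ≠ p 2 →
      e ≠ e' → u ∈ X.Z e → u ≠ 1 → u ≠ X.z (p 1) → w ∈ X.Z e' → w ≠ 1 → w ≠ X.z (p 1) →
      u * w * r = Y.z (p 2) → Y.z e = Y.z (p 2) ∨ Y.z e = Y.z (p 2) * X.z (p 1) := by
    intro e e' u w he he' n1 n2 n3 hu hu1 huz hw hw1 hwz hval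
    obtain ⟨d, r', hd, hr', hr'1, hr'z, hYe⟩ := hform e he
    have hwr : w * r ∈ X.Cos (p 1) e :=
      ⟨e', p 2, w, r, he', h12, n3.symm, n1.symm, n2, hw, hw1, hwz, hr, hr1, hrz, rfl⟩
    have hzV : X.z (p 1) ∈ X.Vy (p 1) := Z_le_Vy h12 (z_mem_Z h21)
    have huV : u ∈ X.Vy (p 1) := Z_le_Vy he hu
    have hbase : w * r * u = Y.z (p 2) := by
      rw [Vy_comm hb3 hB1 (mul_mem (Z_le_Vy he' hw) (Z_le_Vy h12 hr)) huV, ← mul_assoc, hval]
    rcases Cos_eq h2 hb3 hB1 he hwr hd with e1 | e1 <;>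
      rcases Z_two h2 (hB1.nbr he) (C.symm he) hu hu1 huz hr' hr'1 hr'z with e2 | e2 <;>
      rw [hYe, e1, e2, ← hbase]
    · exact Or.inl rfl
    · exact Or.inr (by simp only [mul_assoc])
    · exact Or.inr (by rw [mul_assoc (w * r), Vy_comm hb3 hB1 hzV huV, ← mul_assoc (w * r)])
    · left
      rw [mul_assoc (w * r), ← mul_assoc (X.z (p 1)), Vy_comm hb3 hB1 hzV huV, mul_assoc u,
        X.z_mul_self _ hB1, mul_one]
  have k1 := key b' b'' u w g1 g2 g3 g4 g5 hu hu1 huz hw hw1 hwz hd2.symm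
  have k2 := key b'' b' w u g2 g1 g4 g3 g5.symm hw hw1 hwz hu hu1 huz (by
    rw [hd2, Vy_comm hb3 hB1 (Z_le_Vy g2 hw) (Z_le_Vy g1 hu)])
  rcases k1 with k1 | k1
  · exact z_ne hYA1 g1 h12 g3 k1
  rcases k2 with k2 | k2
  · exact z_ne hYA1 g2 h12 g4 k2
  · exact z_ne hYA1 g1 g2 g5 (k1.trans k2.symm)

theorem three (h2 : X.Dim2) (hb : X.b = 3) {p : ℕ → V} (hp : X.Crit p) : C.Bound := by
  rcases three_cases h2 hb hp with h | hcos
  · exact h
  have hb3 : 3 ≤ X.b := hb.ge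
  have h01 := hp.adj 0 (by omega)
  have h12 := hp.adj 1 (by omega)
  have h21 := C.symm h12
  have h23 := hp.adj 2 (by omega)
  set a := p 2 with ha'
  have hA : X.IsA a := hp.isA_even (by omega) even_two
  have h13 : p 1 ≠ p 3 := hp.isPath.ne 1 (by omega)
  obtain ⟨m, hm, hm1, hm3, hall⟩ := C.exists_third h21 h23 h13
  set Za := X.Z a with hZa
  have hZV : ∀ y, C.Adj a y → Za ≤ X.Vy y := fun y hy => Z_le_Vy (C.symm hy)
  have hVQ : ∀ y, C.Adj a y → X.Vy y ≤ C.Q a := fun y hy =>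
    Vy_le_Q (hA.nbr hy) (.single (C.symm hy)) (by omega)
  -- representatives
  have hrep : ∀ y, C.Adj a y → ∃ a' x, C.Adj y a' ∧ a' ≠ a ∧ x ∈ X.Z a' ∧ x ≠ 1 ∧ x ≠ X.z y := by
    intro y hy
    obtain ⟨a', -, ha', -, hne, -⟩ := C.exists_others (C.symm hy)
    obtain ⟨w, -, hw, -, hwy, -⟩ := C.exists_others (C.symm ha')
    have hA' := (hA.nbr hy).nbr ha'
    exact ⟨a', X.z w, ha', hne, z_mem_Z hw, X.z_ne_one w (hA'.nbr hw),
      z_ne hA' hw (C.symm ha') hwy⟩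
  -- outside `Za` the elements lie in no other kernel
  have houter : ∀ y y' a' x, C.Adj a y → C.Adj a y' → y ≠ y' → C.Adj y a' → a' ≠ a →
      x ∈ X.Z a' → x ≠ 1 → x ≠ X.z y → x ∉ C.Q y' := by
    intro y y' a' x hy hy' hne ha' hane hx hx1 hxz hxQ
    have hA' := (hA.nbr hy).nbr ha'
    rcases Z_inter h2 hA' (C.symm ha') (H := C.Q y')
      (Z_le_Q_of_walk hA (.single hy') (by omega) (z_mem_Z hy))
      (crit_three hb hp hA' (C.symm ha') (C.symm hy) hy' hane hne) hx hxQ with e | e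
    · exact hx1 e
    · exact hxz e
  have hcoset : ∀ y a' x, C.Adj a y → C.Adj y a' → a' ≠ a → x ∈ X.Z a' → x ≠ 1 → x ≠ X.z y →
      ∀ u ∈ X.Vy y, u ∈ Za ∨ x⁻¹ * u ∈ Za := by
    intro y a' x hy ha' hne hx hx1 hxz u hu
    have hB := hA.nbr hy
    have hxV := Z_le_Vy ha' hx
    have hxc : ∀ z ∈ Za, x * z = z * x := fun z hz => Vy_comm hb3 hB hxV (hZV y hy hz)
    have hle : X.Vy y ≤ Subgroup.closure ((Za : Set G) ∪ {x, 1}) := Vy_le fun b hb' w hw => by
      have hxM : x ∈ Subgroup.closure ((Za : Set G) ∪ {x, 1}) :=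
        Subgroup.subset_closure (Or.inr (by simp))
      have hzM : ∀ z ∈ Za, z ∈ Subgroup.closure ((Za : Set G) ∪ {x, 1}) := fun z hz =>
        Subgroup.subset_closure (Or.inl hz)
      by_cases hba : b = a
      · subst hba; exact hzM w hw
      by_cases hw1 : w = 1
      · rw [hw1]; exact one_mem _
      by_cases hwz : w = X.z y
      · rw [hwz]; exact hzM _ (z_mem_Z hy)
      by_cases hbb : b = a'
      · subst hbb
        rcases Z_two h2 (hB.nbr hb') (C.symm hb') hx hx1 hxz hw hw1 hwz with e | e <;> rw [e]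
        · exact hxM
        · exact mul_mem hxM (hzM _ (z_mem_Z hy))
      have hmem : x * w ∈ X.Cos y a :=
        ⟨a', b, x, w, ha', hb', hne, hba, Ne.symm hbb, hx, hx1, hxz, hw, hw1, hwz, rfl⟩
      obtain ⟨y', y'', hy', hy'', n1, n2, n3, -⟩ := C.exists_others hy
      have hk : x * w ∈ Za := by
        rcases Cos_eq h2 hb3 hB (C.symm hy) (hcos y y' y'' hy hy' hy'' n1.symm n2.symm n3) hmem
          with e | e <;> rw [e]
        · exact z_mem_Z hy''
        · exact mul_mem (z_mem_Z hy'') (z_mem_Z hy)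
      rw [show w = x⁻¹ * (x * w) by group]
      exact mul_mem (inv_mem hxM) (hzM _ hk)
    rcases four_cosets (Z := Za) (a := x) (b := 1) (by simp) hxc (by simp)
      (by rw [Z_mul_self ((hA.nbr hy).nbr ha') hx]; exact one_mem _) (by simp) (hle hu)
      with e | e | e | e
    · exact Or.inl e
    · exact Or.inr e
    · exact Or.inl (by simpa using e)
    · exact Or.inr (by simpa using e)
  -- commutators across two neighbours
  have hcomm : ∀ y y' y'', C.Adj a y → C.Adj a y' → C.Adj a y'' → y ≠ y' → y ≠ y'' → y' ≠ y'' →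
      ∀ a' x b' w, C.Adj y a' → a' ≠ a → x ∈ X.Z a' → x ≠ 1 → x ≠ X.z y →
      C.Adj y' b' → b' ≠ a → w ∈ X.Z b' → w ≠ 1 → w ≠ X.z y' →
      x * w * x * w = X.z y'' := by
    intro y y' y'' hy hy' hy'' n1 n2 n3 a' x b' w ha' hane hx hx1 hxz hb' hbne hw hw1 hwz
    have hA' := (hA.nbr hy).nbr ha'
    let r : ℕ → V := fun j => if j = 0 then a' else if j = 1 then y else if j = 2 then a else y'
    have hr : X.Crit r := by
      refine ⟨fun i hi => ?_, by simpa [r] using hA', ?_⟩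
      · rw [hb] at hi
        interval_cases i
        · simpa [r] using C.symm ha'
        · simpa [r] using C.symm hy
        · simpa [r] using hy'
      · rw [hb]
        simpa [r] using crit_three hb hp hA' (C.symm ha') (C.symm hy) hy' hane n1
    have h := comm_mem h2 hr (by rw [hb]; decide) hb3 (μ := b') (by rw [hb]; simpa [r] using hb')
      (t := x) (v := w) (by simpa [r] using hx)
      (by rw [hb]; simpa [r] using houter y y' a' x hy hy' n1 ha' hane hx hx1 hxz) hw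
      (by simpa [r] using houter y' y b' w hy' hy n1.symm hb' hbne hw hw1 hwz)
    rw [hb] at h
    exact Cos_inter h2 hb3 (hA.nbr hy) (C.symm hy) (hA.nbr hy') (C.symm hy')
      (z_ne hA hy hy' n1) (hcos y y' y'' hy hy' hy'' n1 n2 n3)
      (hcos y' y y'' hy' hy hy'' n1.symm n3 n2) (by simpa [r] using h.1) (by simpa [r] using h.2)
  obtain ⟨b₁, t, hb₁, hb₁a, ht, ht1, htz⟩ := hrep _ h21
  obtain ⟨μ, v, hμ, hμa, hv, hv1, hvz⟩ := hrep _ h23
  obtain ⟨b₅, u, hb₅, hb₅a, hu, hu1, huz⟩ := hrep _ hm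
  have htV : t ∈ X.Vy (p 1) := Z_le_Vy hb₁ ht
  have hvV : v ∈ X.Vy (p 3) := Z_le_Vy hμ hv
  have huV : u ∈ X.Vy m := Z_le_Vy hb₅ hu
  have ht2 : t * t = 1 := Z_mul_self ((hA.nbr h21).nbr hb₁) ht
  have hμA : X.IsA μ := (hA.nbr h23).nbr hμ
  have hv2 : v * v = 1 := Z_mul_self hμA hv
  have hu2 : u * u = 1 := Z_mul_self ((hA.nbr hm).nbr hb₅) hu
  set z1 := X.z (p 1) with hz1
  set z3 := X.z (p 3) with hz3
  set zm := X.z m with hzm
  have z1Z : z1 ∈ Za := z_mem_Z h21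
  have z3Z : z3 ∈ Za := z_mem_Z h23
  have zmZ : zm ∈ Za := z_mem_Z hm
  have htc : ∀ z ∈ Za, Commute t z := fun z hz =>
    Vy_comm hb3 (hA.nbr h21) htV (hZV _ h21 hz)
  have hvc : ∀ z ∈ Za, Commute v z := fun z hz =>
    Vy_comm hb3 (hA.nbr h23) hvV (hZV _ h23 hz)
  have huc : ∀ z ∈ Za, Commute u z := fun z hz =>
    Vy_comm hb3 (hA.nbr hm) huV (hZV _ hm hz)
  have swap : ∀ (x w z : G), x * x = 1 → w * w = 1 → z * z = 1 → x * w * x * w = z →
      Commute x z → Commute w z → w * x = x * w * z := by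
    intro x w z hx hw hz h cx cw
    calc w * x = x⁻¹ * (x * w * x * w) * w⁻¹ := by group
      _ = x * z * w := by
        rw [h, inv_eq_of_mul_eq_one_right hx, inv_eq_of_mul_eq_one_right hw]
      _ = x * w * z := by rw [mul_assoc, ← cw.eq, ← mul_assoc]
  have hzi : ∀ z ∈ Za, z * z = 1 := fun z hz => Z_mul_self hA hz
  have tv : v * t = t * v * zm := swap t v zm ht2 hv2 (hzi _ zmZ)
    (hcomm _ _ _ h21 h23 hm h13 hm1.symm hm3.symm _ _ _ _ hb₁ hb₁a ht ht1 htz hμ hμa hv hv1 hvz)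
    (htc _ zmZ) (hvc _ zmZ)
  have tu : u * t = t * u * z3 := swap t u z3 ht2 hu2 (hzi _ z3Z)
    (hcomm _ _ _ h21 hm h23 hm1.symm h13 hm3 _ _ _ _ hb₁ hb₁a ht ht1 htz hb₅ hb₅a hu hu1 huz)
    (htc _ z3Z) (huc _ z3Z)
  have vu : u * v = v * u * z1 := swap v u z1 hv2 hu2 (hzi _ z1Z)
    (hcomm _ _ _ h23 hm h21 hm3.symm h13.symm hm1 _ _ _ _ hμ hμa hv hv1 hvz hb₅ hb₅a hu hu1 huz)
    (hvc _ z1Z) (huc _ z1Z)
  have hz13m : z1 * z3 = zm := z_mul h2 hA h21 h23 hm h13 hm1.symm hm3.symm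
  have htQ : t ∈ C.Q a := hVQ _ h21 htV
  have hvQ : v ∈ C.Q a := hVQ _ h23 hvV
  have huQ : u ∈ C.Q a := hVQ _ hm huV
  -- the subgroup of order sixteen
  have hcab : t * v * (v * u) = v * u * (t * v) := by
    have lhs : t * v * (v * u) = t * u := by
      rw [mul_assoc t, ← mul_assoc v v, hv2, one_mul]
    have rhs : v * u * (t * v) = t * u * (z1 * zm * z3) := by
      calc v * u * (t * v) = v * (u * t) * v := by group
        _ = v * t * u * (z3 * v) := by rw [tu]; group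
        _ = v * t * (u * v) * z3 := by rw [(hvc _ z3Z).symm.eq]; group
        _ = t * v * (zm * v) * (u * (z1 * z3)) := by rw [tv, vu]; group
        _ = t * (v * v) * (zm * u) * (z1 * z3) := by rw [(hvc _ zmZ).symm.eq]; group
        _ = t * u * (zm * (z1 * z3)) := by rw [hv2, (huc _ zmZ).symm.eq]; group
        _ = t * u * (z1 * zm * z3) := by rw [← mul_assoc zm z1, Z_comm hA zmZ z1Z]
    rw [lhs, rhs, mul_assoc z1, Z_comm hA zmZ z3Z, ← mul_assoc z1, hz13m, hzi _ zmZ, mul_one]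
  have hsq1 : t * v * (t * v) = zm := by
    rw [mul_assoc t, ← mul_assoc v t, tv]
    calc t * (t * v * zm * v) = t * t * v * (zm * v) := by group
      _ = v * v * zm := by rw [ht2, (hvc _ zmZ).symm.eq]; group
      _ = zm := by rw [hv2, one_mul]
  have hsq2 : v * u * (v * u) = z1 := by
    rw [mul_assoc v, ← mul_assoc u v, vu]
    calc v * (v * u * z1 * u) = v * v * u * (z1 * u) := by group
      _ = u * u * z1 := by rw [hv2, (huc _ z1Z).symm.eq]; group
      _ = z1 := by rw [hu2, one_mul]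
  set P := Subgroup.closure ((Za : Set G) ∪ {t * v, v * u}) with hP
  have hPZ : Za ≤ P := fun x hx => Subgroup.subset_closure (Or.inl hx)
  have htvP : t * v ∈ P := Subgroup.subset_closure (Or.inr (by simp))
  have hvuP : v * u ∈ P := Subgroup.subset_closure (Or.inr (by simp))
  have hPQ : P ≤ C.Q a := (Subgroup.closure_le _).mpr (by
    rintro x (hx | rfl | rfl)
    · exact Z_le_Q hA hx
    · exact mul_mem htQ hvQ
    · exact mul_mem hvQ huQ)
  have htuP : t * u ∈ P := by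
    have := mul_mem htvP hvuP
    rwa [mul_assoc t, ← mul_assoc v v, hv2, one_mul] at this
  -- products of elements from two different neighbours
  have hout : ∀ y, C.Adj a y → ∀ w ∈ X.Vy y, w ∉ Za →
      (y = p 1 → t⁻¹ * w ∈ Za) ∧ (y = p 3 → v⁻¹ * w ∈ Za) ∧ (y = m → u⁻¹ * w ∈ Za) :=
    fun y hy w hw hwZ =>
    ⟨fun e => (hcoset y b₁ t hy (by rw [e]; exact hb₁) hb₁a ht ht1 (by rw [e]; exact htz) w
        hw).resolve_left hwZ,
      fun e => (hcoset y μ v hy (by rw [e]; exact hμ) hμa hv hv1 (by rw [e]; exact hvz) w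
        hw).resolve_left hwZ,
      fun e => (hcoset y b₅ u hy (by rw [e]; exact hb₅) hb₅a hu hu1 (by rw [e]; exact huz) w
        hw).resolve_left hwZ⟩
  have hprod : ∀ (A B x w : G), (∀ z ∈ Za, Commute B z) → A⁻¹ * x ∈ Za → B⁻¹ * w ∈ Za →
      A * B ∈ P → x * w ∈ P := by
    intro A B x w hB hx hw hAB
    have e : x * w = A * B * ((A⁻¹ * x) * (B⁻¹ * w)) := by
      calc x * w = A * ((A⁻¹ * x) * B) * (B⁻¹ * w) := by group
        _ = A * (B * (A⁻¹ * x)) * (B⁻¹ * w) := by rw [(hB _ hx).symm.eq]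
        _ = _ := by group
    rw [e]
    exact mul_mem hAB (hPZ (mul_mem hx hw))
  have hpair : ∀ y y', C.Adj a y → C.Adj a y' → y ≠ y' → ∀ x ∈ X.Vy y, x ∉ Za →
      ∀ w ∈ X.Vy y', w ∉ Za → x * w ∈ P := by
    intro y y' hy hy' hne x hx hxZ w hw hwZ
    have h := hout y hy x hx hxZ
    have h' := hout y' hy' w hw hwZ
    rcases hall y hy with rfl | rfl | rfl <;> rcases hall y' hy' with rfl | rfl | rfl
    · exact absurd rfl hne
    · exact hprod t v x w hvc (h.1 rfl) (h'.2.1 rfl) htvP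
    · exact hprod t u x w huc (h.1 rfl) (h'.2.2 rfl) htuP
    · exact hprod v t x w htc (h.2.1 rfl) (h'.1 rfl) (by rw [tv]; exact mul_mem htvP (hPZ zmZ))
    · exact absurd rfl hne
    · exact hprod v u x w huc (h.2.1 rfl) (h'.2.2 rfl) hvuP
    · exact hprod u t x w htc (h.2.2 rfl) (h'.1 rfl) (by rw [tu]; exact mul_mem htuP (hPZ z3Z))
    · exact hprod u v x w hvc (h.2.2 rfl) (h'.2.1 rfl) (by rw [vu]; exact mul_mem hvuP (hPZ z1Z))
    · exact absurd rfl hne
  have htQ3 : t ∉ C.Q (p 3) := houter _ _ _ _ h21 h23 h13 hb₁ hb₁a ht ht1 htz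
  have hvQ1 : v ∉ C.Q (p 1) := houter _ _ _ _ h23 h21 h13.symm hμ hμa hv hv1 hvz
  have huQ3 : u ∉ C.Q (p 3) := houter _ _ _ _ hm h23 hm3 hb₅ hb₅a hu hu1 huz
  have hvQm : v ∉ C.Q m := houter _ _ _ _ h23 hm hm3.symm hμ hμa hv hv1 hvz
  have htQ1 : t ∈ C.Q (p 1) := Vy_le_Q (hA.nbr h21) (.nil _) (by omega) htV
  have hvQ3 : v ∈ C.Q (p 3) := Vy_le_Q (hA.nbr h23) (.nil _) (by omega) hvV
  have huQm : u ∈ C.Q m := Vy_le_Q (hA.nbr hm) (.nil _) (by omega) huV
  have hnotZ : ∀ x, ∀ y, C.Adj a y → x ∉ C.Q y → x ∉ Za := fun x y hy hx h =>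
    hx (Z_le_Q_of_walk hA (.single hy) (by omega) h)
  have htnZ : t ∉ Za := hnotZ t _ h23 htQ3
  have hvnZ : v ∉ Za := hnotZ v _ h21 hvQ1
  have hunZ : u ∉ Za := hnotZ u _ h23 huQ3
  have hgZ : ∀ g : G, g • a = a → ∀ x, x ∉ Za → g * x * g⁻¹ ∉ Za := by
    intro g hg x hx h
    refine hx ?_
    have := conj_mem_Z_self hA (g := g⁻¹) (inv_smul_eq_iff.mpr hg.symm) h
    rwa [inv_inv, show g⁻¹ * (g * x * g⁻¹) * g = x by group] at this
  have hn : ∀ g : G, g • a = a → ∀ x ∈ P, g * x * g⁻¹ ∈ P := by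
    intro g hg x hx
    have hnb : ∀ y, C.Adj a y → C.Adj a (g • y) := fun y hy => by
      simpa [hg] using C.smul_adj g hy
    have hle : P ≤ P.comap (MulAut.conj g).toMonoidHom := (Subgroup.closure_le _).mpr (by
      rintro w (hw | rfl | rfl)
      · exact hPZ (conj_mem_Z_self hA hg hw)
      · show g * (t * v) * g⁻¹ ∈ P
        rw [show g * (t * v) * g⁻¹ = g * t * g⁻¹ * (g * v * g⁻¹) by group]
        exact hpair _ _ (hnb _ h21) (hnb _ h23) (fun e => h13 (smul_left_cancel g e)) _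
          (conj_mem_Vy (hA.nbr h21) htV) (hgZ g hg t htnZ) _ (conj_mem_Vy (hA.nbr h23) hvV)
          (hgZ g hg v hvnZ)
      · show g * (v * u) * g⁻¹ ∈ P
        rw [show g * (v * u) * g⁻¹ = g * v * g⁻¹ * (g * u * g⁻¹) by group]
        exact hpair _ _ (hnb _ h23) (hnb _ hm) (fun e => hm3 (smul_left_cancel g e).symm) _
          (conj_mem_Vy (hA.nbr h23) hvV) (hgZ g hg v hvnZ) _ (conj_mem_Vy (hA.nbr hm) huV)
          (hgZ g hg u hunZ))
    exact hle hx
  have hfour : ∀ x ∈ P, x ∈ Za ∨ (t * v)⁻¹ * x ∈ Za ∨ (v * u)⁻¹ * x ∈ Za ∨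
      (t * v * (v * u))⁻¹ * x ∈ Za := fun x hx =>
    four_cosets hcab (fun z hz => ((htc z hz).mul_left (hvc z hz)).eq)
      (fun z hz => ((hvc z hz).mul_left (huc z hz)).eq)
      (by rw [hsq1]; exact zmZ) (by rw [hsq2]; exact z1Z) hx
  have hsqc : ∀ A x, A ∈ C.Q a → A⁻¹ * x ∈ Za → x * x = A * A := by
    intro A x hA' hx
    have c1 : Commute A (A⁻¹ * x) := comm_Z hA hA' hx
    calc x * x = A * ((A⁻¹ * x) * A) * (A⁻¹ * x) := by group
      _ = A * (A * (A⁻¹ * x)) * (A⁻¹ * x) := by rw [c1.symm.eq]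
      _ = A * A * ((A⁻¹ * x) * (A⁻¹ * x)) := by group
      _ = A * A := by rw [hzi _ hx, mul_one]
  have hsq3 : t * v * (v * u) * (t * v * (v * u)) = zm * z1 := by
    have c : Commute (t * v) (v * u) := hcab
    rw [c.symm.mul_mul_mul_comm, hsq1, hsq2]
  have hQP : ∀ x ∈ P, x ∈ C.Q a := fun x hx => hPQ hx
  have hsq : ∀ x ∈ P, x * x ∈ Za := by
    intro x hx
    rcases hfour x hx with e | e | e | e
    · rw [hzi _ e]; exact one_mem _
    · rw [hsqc _ _ (hQP _ htvP) e, hsq1]; exact zmZ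
    · rw [hsqc _ _ (hQP _ hvuP) e, hsq2]; exact z1Z
    · rw [hsqc _ _ (mul_mem (hQP _ htvP) (hQP _ hvuP)) e, hsq3]; exact mul_mem zmZ z1Z
  have hinv : ∀ x ∈ P, x * x = 1 → x ∈ Za := by
    intro x hx hx2
    rcases hfour x hx with e | e | e | e
    · exact e
    · rw [hsqc _ _ (hQP _ htvP) e, hsq1] at hx2
      exact absurd hx2 (X.z_ne_one _ (hA.nbr hm))
    · rw [hsqc _ _ (hQP _ hvuP) e, hsq2] at hx2
      exact absurd hx2 (X.z_ne_one _ (hA.nbr h21))
    · rw [hsqc _ _ (mul_mem (hQP _ htvP) (hQP _ hvuP)) e, hsq3, hzm, hz1,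
        z_mul h2 hA hm h21 h23 hm1 hm3 h13] at hx2
      exact absurd hx2 (X.z_ne_one _ (hA.nbr h23))
  have hPc : ∀ x ∈ P, ∀ y ∈ P, x * y = y * x := by
    have hgc : ∀ x ∈ (Za : Set G) ∪ {t * v, v * u}, ∀ y ∈ (Za : Set G) ∪ {t * v, v * u},
        x * y = y * x := by
      rintro x (hx | rfl | rfl) y (hy | rfl | rfl)
      · exact Z_comm hA hx hy
      · exact ((htc x hx).mul_left (hvc x hx)).eq.symm
      · exact ((hvc x hx).mul_left (huc x hx)).eq.symm
      · exact ((htc y hy).mul_left (hvc y hy)).eq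
      · rfl
      · exact hcab
      · exact ((hvc y hy).mul_left (huc y hy)).eq
      · exact hcab.symm
      · rfl
    intro x hx y hy
    have : P ≤ Subgroup.centralizer {y} := (Subgroup.closure_le _).mpr fun w hw => by
      have h' : P ≤ Subgroup.centralizer {w} := (Subgroup.closure_le _).mpr fun r hr =>
        Subgroup.mem_centralizer_singleton_iff.mpr (hgc r hr w hw)
      exact Subgroup.mem_centralizer_singleton_iff.mpr
        (Subgroup.mem_centralizer_singleton_iff.mp (h' hy)).symm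
    exact Subgroup.mem_centralizer_singleton_iff.mp (this hx)
  have hPout : ∀ y, C.Adj a y → ¬ P ≤ C.Q y := by
    intro y hy hle
    rcases hall y hy with rfl | rfl | rfl
    · exact hvQ1 (by simpa using mul_mem (inv_mem htQ1) (hle htvP))
    · exact htQ3 (by simpa using mul_mem (hle htvP) (inv_mem hvQ3))
    · exact hvQm (by simpa using mul_mem (hle hvuP) (inv_mem huQm))
  -- the involution acting trivially modulo the join of the modules
  set s := t * v * u with hs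
  have hs2 : s * s = 1 := by
    calc s * s = t * v * (u * t) * (v * u) := by rw [hs]; group
      _ = t * v * t * u * (z3 * (v * u)) := by rw [tu]; group
      _ = t * (v * t) * (u * v) * u * z3 := by
          rw [((hvc _ z3Z).mul_left (huc _ z3Z)).symm.eq]; group
      _ = (t * t) * v * (zm * v) * u * (z1 * u) * z3 := by rw [tv, vu]; group
      _ = (v * v) * (zm * u) * u * z1 * z3 := by
          rw [ht2, (hvc _ zmZ).symm.eq, (huc _ z1Z).symm.eq]; group
      _ = (u * zm) * u * z1 * z3 := by rw [hv2, (huc _ zmZ).symm.eq, one_mul]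
      _ = u * (zm * u) * (z1 * z3) := by group
      _ = (u * u) * (zm * zm) := by rw [(huc _ zmZ).symm.eq, hz13m]; group
      _ = 1 := by rw [hu2, hzi _ zmZ, one_mul]
  have hsne : s * v ≠ v * s := by
    have e1 : s * v = t * u * z1 := by
      calc s * v = t * v * (u * v) := by rw [hs]; group
        _ = t * (v * v) * u * z1 := by rw [vu]; group
        _ = t * u * z1 := by rw [hv2, mul_one]
    have e2 : v * s = t * u * zm := by
      calc v * s = (v * t) * v * u := by rw [hs]; group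
        _ = t * v * (zm * v) * u := by rw [tv]; group
        _ = t * (v * v) * (zm * u) := by rw [(hvc _ zmZ).symm.eq]; group
        _ = t * u * zm := by rw [hv2, (huc _ zmZ).symm.eq]; group
    rw [e1, e2]
    exact fun e => z_ne hA h21 hm hm1.symm (mul_left_cancel e)
  have hsμ : s ∉ C.Q μ := fun e => hsne (comm_Z hμA e hv)
  have hsQ : s ∈ C.Q a := mul_mem (mul_mem htQ hvQ) huQ
  have hsQ3 : s ∈ C.Q (p 3) := by
    have e : s = t * v * t⁻¹ * (t * u) := by rw [hs]; group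
    rw [e]
    exact mul_mem (conj_mem_Q_self (htQ.2 _ h23) hvQ3)
      (mul_mem_Q (C.symm h23) (Q_le_S' h23 htQ) htQ3 (Q_le_S' h23 huQ) huQ3)
  obtain ⟨a₃, ha₃, ha₃a, ha₃μ, -⟩ := C.exists_third (C.symm h23) hμ hμa.symm
  obtain ⟨g, hg3, hga₃, hg⟩ := C.exists_swap ha₃
  have hgQ : g ∉ C.Q (p 3) := fun e => hg _ hμ ha₃μ.symm (e.2 _ hμ)
  have hgμ : g • μ = a := smul_eq_of_notMem_Q ha₃ (mem_S.mpr ⟨hg3, hga₃⟩) hgQ hμ ha₃μ.symm
    (C.symm h23) ha₃a.symm hμa
  have hga : g • a = μ := smul_eq_of_notMem_Q ha₃ (mem_S.mpr ⟨hg3, hga₃⟩) hgQ (C.symm h23)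
    ha₃a.symm hμ ha₃μ.symm hμa.symm
  set σ := g * s * g⁻¹ with hσ
  have hσ3 : σ ∈ C.Q (p 3) := conj_mem_Q_self hg3 hsQ3
  have hσa : σ • a = a := hσ3.2 a (C.symm h23)
  have hσQ : σ ∉ C.Q a := by rw [← hgμ, hσ, conj_mem_Q_iff]; exact hsμ
  have hσ2 : σ * σ = 1 := by
    rw [hσ, show g * s * g⁻¹ * (g * s * g⁻¹) = g * (s * s) * g⁻¹ by group, hs2, mul_one,
      mul_inv_cancel]
  set W := Subgroup.closure {x | ∃ y, C.Adj a y ∧ x ∈ X.Vy y} with hW
  have hVW : ∀ y, C.Adj a y → X.Vy y ≤ W := fun y hy x hx =>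
    Subgroup.subset_closure ⟨y, hy, hx⟩
  have hWn : ∀ g : G, g • a = a → ∀ w ∈ W, g * w * g⁻¹ ∈ W := by
    intro g hg w hw
    have hle : W ≤ W.comap (MulAut.conj g).toMonoidHom := (Subgroup.closure_le _).mpr (by
      rintro x ⟨y, hy, hx⟩
      exact hVW (g • y) (by simpa [hg] using C.smul_adj g hy) (conj_mem_Vy (hA.nbr hy) hx))
    exact hle hw
  have hWQ : W ≤ C.Q a := (Subgroup.closure_le _).mpr fun x ⟨y, hy, hx⟩ => hVQ y hy hx
  have hmix : ∀ A B D A' B' D' : G, (∀ z ∈ Za, Commute B z) → (∀ z ∈ Za, Commute D z) →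
      A⁻¹ * A' ∈ Za → B⁻¹ * B' ∈ Za → D⁻¹ * D' ∈ Za → (A * B * D)⁻¹ * (A' * B' * D') ∈ Za := by
    intro A B D A' B' D' hB hD h1 h2' h3
    have e : (A * B * D)⁻¹ * (A' * B' * D') =
        (A⁻¹ * A') * (B⁻¹ * B') * (D⁻¹ * D') := by
      calc (A * B * D)⁻¹ * (A' * B' * D') = D⁻¹ * B⁻¹ * ((A⁻¹ * A') * B) * (B⁻¹ * B') * D' := by
            group
        _ = D⁻¹ * B⁻¹ * (B * (A⁻¹ * A')) * (B⁻¹ * B') * D' := by rw [(hB _ h1).eq]
        _ = D⁻¹ * ((A⁻¹ * A') * (B⁻¹ * B') * D) * (D⁻¹ * D') := by group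
        _ = D⁻¹ * (D * ((A⁻¹ * A') * (B⁻¹ * B'))) * (D⁻¹ * D') := by
            rw [(hD _ (mul_mem h1 h2')).eq]
        _ = _ := by group
    rw [e]
    exact mul_mem (mul_mem h1 h2') h3
  -- conjugates of `s` by elements fixing `a` and `p 3`
  have hys : ∀ y : G, y • a = a → y • p 3 = p 3 → s⁻¹ * (y * s * y⁻¹) ∈ Za := by
    intro y hya hy3
    have hyV : ∀ c, C.Adj a c → ∀ x ∈ X.Vy c, x ∉ Za →
        y * x * y⁻¹ ∈ X.Vy (y • c) ∧ y * x * y⁻¹ ∉ Za :=
      fun c hc x hx hxZ => ⟨conj_mem_Vy (hA.nbr hc) hx, hgZ y hya x hxZ⟩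
    have hnb : ∀ c, C.Adj a c → C.Adj a (y • c) := fun c hc => by
      simpa [hya] using C.smul_adj y hc
    have k3 := hyV _ h23 v hvV hvnZ
    have e3 := (hout _ (hnb _ h23) _ k3.1 k3.2).2.1 hy3
    have k1 := hyV _ h21 t htV htnZ
    have km := hyV _ hm u huV hunZ
    rw [hs, show y * (t * v * u) * y⁻¹ = y * t * y⁻¹ * (y * v * y⁻¹) * (y * u * y⁻¹) by group]
    rcases hall _ (hnb _ h21) with e | e | e
    · have em : y • m = m := by
        rcases hall _ (hnb _ hm) with f | f | f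
        · exact absurd (smul_left_cancel y (f.trans e.symm)) hm1
        · exact absurd (smul_left_cancel y (f.trans hy3.symm)) hm3
        · exact f
      exact hmix _ _ _ _ _ _ hvc huc ((hout _ (hnb _ h21) _ k1.1 k1.2).1 e) e3
        ((hout _ (hnb _ hm) _ km.1 km.2).2.2 em)
    · exact absurd (smul_left_cancel y (e.trans hy3.symm)) h13
    · have em : y • m = p 1 := by
        rcases hall _ (hnb _ hm) with f | f | f
        · exact f
        · exact absurd (smul_left_cancel y (f.trans hy3.symm)) hm3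
        · exact absurd (smul_left_cancel y (f.trans e.symm)) hm1
      have h := hmix u v t _ _ _ hvc htc ((hout _ (hnb _ h21) _ k1.1 k1.2).2.2 e) e3
        ((hout _ (hnb _ hm) _ km.1 km.2).1 em)
      have es : u * v * t = t * v * u := by
        calc u * v * t = u⁻¹ * v⁻¹ * t⁻¹ := by
              rw [inv_eq_of_mul_eq_one_right hu2, inv_eq_of_mul_eq_one_right hv2,
                inv_eq_of_mul_eq_one_right ht2]
          _ = s⁻¹ := by rw [hs]; group
          _ = t * v * u := by rw [inv_eq_of_mul_eq_one_right hs2]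
      rwa [es] at h
  have hσW : ∀ q ∈ C.Q a, σ * q * σ⁻¹ * q⁻¹ ∈ W := by
    intro q hq
    have k3 : ∀ q ∈ C.Q a, q ∈ C.Q (p 3) → σ * q * σ⁻¹ * q⁻¹ ∈ W := by
      intro q hq hq3
      set y := g⁻¹ * q * g with hy
      have hya : y • a = a := by
        rw [hy, mul_smul, mul_smul, hga, hq3.2 μ hμ, inv_smul_eq_iff, hga]
      have hy3 : y • p 3 = p 3 := by
        rw [hy, mul_smul, mul_smul, hg3, hq.2 _ h23, inv_smul_eq_iff, hg3]
      have h := conj_mem_Z hA (g := g) (inv_mem (hys y hya hy3))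
      rw [hga] at h
      refine hVW _ h23 (Z_le_Vy hμ ?_)
      -- `s` commutes with `Za` as it lies in `Q a`
      have hz := hys y hya hy3
      have e : g * (s⁻¹ * (y * s * y⁻¹))⁻¹ * g⁻¹ = σ * q * σ⁻¹ * q⁻¹ := by
        have hc : s * (s⁻¹ * (y * s * y⁻¹))⁻¹ = (s⁻¹ * (y * s * y⁻¹))⁻¹ * s :=
          comm_Z hA hsQ (inv_mem hz)
        calc g * (s⁻¹ * (y * s * y⁻¹))⁻¹ * g⁻¹ =
            g * (s * (s⁻¹ * (y * s * y⁻¹))⁻¹ * s⁻¹) * g⁻¹ := by rw [hc, mul_inv_cancel_right]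
          _ = _ := by rw [hσ, hy]; group
      rwa [e] at h
    by_cases hq3 : q ∈ C.Q (p 3)
    · exact k3 q hq hq3
    · have h' := k3 (t⁻¹ * q) (mul_mem (inv_mem htQ) hq)
        (inv_mul_mem_Q (C.symm h23) (Q_le_S' h23 htQ) htQ3 (Q_le_S' h23 hq) hq3)
      have e : σ * q * σ⁻¹ * q⁻¹ =
          σ * t * σ⁻¹ * (σ * (t⁻¹ * q) * σ⁻¹ * (t⁻¹ * q)⁻¹) * t⁻¹ := by group
      rw [e]
      exact mul_mem (mul_mem (hWn σ hσa t (hVW _ h21 htV)) h') (inv_mem (hVW _ h21 htV))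
  obtain ⟨h, hha, hh1⟩ := C.trans_nbr h23 h21
  have hσS : σ ∈ C.S a (p 3) := mem_S.mpr ⟨hσa, hσ3.1⟩
  have hσ'S : h * σ * h⁻¹ ∈ C.S a (p 1) := by
    have := conj_mem_S (g := h) hσS
    rwa [hha, hh1] at this
  obtain ⟨d, hdM, hda, hdQ, hd3, hσd⟩ := exists_three h23 h21 h13.symm hσS hσQ hσ2 hσ'S
    (fun e => hσQ (by
      have e' : h * σ * h⁻¹ ∈ C.Q (h • a) := by rw [hha]; exact e
      exact conj_mem_Q_iff.mp e'))
    (by rw [show h * σ * h⁻¹ * (h * σ * h⁻¹) = h * (σ * σ) * h⁻¹ by group, hσ2, mul_one,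
      mul_inv_cancel])
    (M := { carrier := {g | g • a = a ∧ ∀ q ∈ C.Q a, g * q * g⁻¹ * q⁻¹ ∈ W}
            one_mem' := ⟨one_smul _ _, fun q _ => by simp⟩
            mul_mem' := fun {g g'} hg hg' => ⟨by rw [mul_smul, hg'.1, hg.1], fun q hq => by
              rw [show g * g' * q * (g * g')⁻¹ * q⁻¹ =
                g * (g' * q * g'⁻¹ * q⁻¹) * g⁻¹ * (g * q * g⁻¹ * q⁻¹) by group]
              exact W.mul_mem (hWn g hg.1 _ (hg'.2 q hq)) (hg.2 q hq)⟩
            inv_mem' := fun {g} hg => ⟨inv_smul_eq_iff.mpr hg.1.symm, fun q hq => by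
              have hgi : g⁻¹ • a = a := inv_smul_eq_iff.mpr hg.1.symm
              have h1 := hWn g⁻¹ hgi _ (W.inv_mem (hg.2 q hq))
              convert h1 using 1
              group⟩ })
    ⟨hσa, hσW⟩
    ⟨(mem_S.mp hσ'S).1, fun q hq => by
      have hhi : h⁻¹ • a = a := by rw [inv_smul_eq_iff, hha]
      have h1 := hWn h hha _ (hσW _ (conj_mem_Q_self hhi hq))
      convert h1 using 1
      group⟩
  have hdmove : ∀ y, C.Adj a y → d • y ≠ y := by
    intro y hy hdy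
    obtain ⟨k, hk⟩ := (C.two_group hy) ⟨d, (mem_S (C := C)).mpr ⟨hda, hdy⟩⟩
    have hk' : d ^ 2 ^ k = 1 := by simpa using congrArg Subtype.val hk
    refine hdQ ?_
    rw [orderOf_eq_one_iff.mp (Nat.eq_one_of_dvd_coprimes
      (Nat.Coprime.pow_right k (show Nat.Coprime 3 2 by norm_num))
      (orderOf_dvd_of_pow_eq_one hd3) (orderOf_dvd_of_pow_eq_one hk'))]
    exact one_mem _
  have hdW : ∀ w ∈ W, d * w * d⁻¹ * w⁻¹ ∈ P := by
    intro w hw
    induction hw using Subgroup.closure_induction with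
    | mem x hx =>
      obtain ⟨y, hy, hx⟩ := hx
      by_cases hxZ : x ∈ Za
      · exact mul_mem (hPZ (conj_mem_Z_self hA hda hxZ)) (inv_mem (hPZ hxZ))
      · exact hpair (d • y) y (by simpa [hda] using C.smul_adj d hy) hy (hdmove y hy) _
          (conj_mem_Vy (hA.nbr hy) hx) (hgZ d hda x hxZ) _ (inv_mem hx)
          (fun e => hxZ (by simpa using inv_mem e))
    | one => simp
    | mul x x' hx hx' ih ih' =>
      rw [show d * (x * x') * d⁻¹ * (x * x')⁻¹ =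
        d * x * d⁻¹ * x⁻¹ * (x * (d * x' * d⁻¹ * x'⁻¹) * x⁻¹) by group]
      exact mul_mem ih (hn x (hWQ hx).1 _ ih')
    | inv x hx ih =>
      rw [show d * x⁻¹ * d⁻¹ * x⁻¹⁻¹ = x⁻¹ * (d * x * d⁻¹ * x⁻¹)⁻¹ * x⁻¹⁻¹ by group]
      exact hn x⁻¹ (inv_mem (hWQ hx)).1 _ (inv_mem ih)
  have hact : ∀ q ∈ C.Q a, d * q * d⁻¹ * q⁻¹ ∈ P := by
    intro q hq
    obtain ⟨w, hw⟩ : ∃ w, w = d * q * d⁻¹ * q⁻¹ := ⟨_, rfl⟩
    rw [← hw]
    have hwW : w ∈ W := hw ▸ hdM.2 q hq
    have hwa := (hWQ hwW).1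
    have hp1 := hdW w hwW
    set p' := d * w * d⁻¹ * w⁻¹ with hp'
    have h3 : d * d * d = 1 := by rw [← hd3, pow_succ, pow_two]
    have hrel : d * p' * d⁻¹ * p' * w * (p' * w) * w = 1 := by
      calc d * p' * d⁻¹ * p' * w * (p' * w) * w = (d * d * d) * q * (d * d * d)⁻¹ * q⁻¹ := by
            rw [hp', hw]; group
        _ = 1 := by rw [h3]; group
    set A := d * p' * d⁻¹ * p' with hA'
    have hAP : A ∈ P := mul_mem (hn d hda _ hp1) hp1
    have hw3 : w * w * w ∈ P := by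
      have e : w * w * w = (A * (w * p' * w⁻¹))⁻¹ := by
        refine (inv_eq_of_mul_eq_one_right ?_).symm
        rw [← hrel]; group
      rw [e]
      exact inv_mem (mul_mem hAP (hn w hwa _ hp1))
    obtain ⟨k, hk⟩ := (C.two_group h21) ⟨w, Q_le_S h21 (hWQ hwW)⟩
    have hk' : w ^ 2 ^ k = 1 := by simpa using congrArg Subtype.val hk
    obtain ⟨n, hn'⟩ : ∃ n : ℕ, (w ^ 3) ^ n = w := exists_pow_eq_self_of_coprime
      (Nat.Coprime.coprime_dvd_right (orderOf_dvd_of_pow_eq_one hk')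
        (Nat.Coprime.pow_right k (by norm_num)))
    rw [← hn']
    refine pow_mem ?_ n
    rwa [pow_succ, pow_two]
  exact bound_of_P h2 (by omega) hA hPQ hPZ hn hPc hinv hPout hsq
    ![t * v, v * u, t * v * (v * u)]
    (fun x hx => by
      rcases hfour x hx with e | e | e | e
      · exact Or.inl e
      · exact Or.inr ⟨0, e⟩
      · exact Or.inr ⟨1, e⟩
      · exact Or.inr ⟨2, e⟩)
    hσa hσQ hσ2 hda hdQ hd3 hσd hact

end Choice

end CfsgLib.CubicAmalgam
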