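/-
The order bound for an edge stabiliser.
-/
import Cfsg.Agent.Lib.CubicAmalgam.Three

set_option autoImplicit false

namespace CfsgLib.CubicAmalgam

open MulAction Cubic

variable {G : Type*} [Group G] {V : Type*} [MulAction G V] {C : Cubic G V}

theorem Choice.bound_of_dim2 {X : Choice C} (h2 : X.Dim2) {p : ℕ → V} (hp : X.Crit p) :
    C.Bound := by
  rcases Nat.lt_or_ge X.b 3 with h | h
  · exact Choice.bound_of_b_le_two (by omega) hp
  rcases Nat.eq_or_lt_of_le h with h3 | h4
  · exact Choice.three h2 h3.symm hp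
  rcases Nat.even_or_odd X.b with he | ho
  · exact (Choice.even_ge_four_dim2 h2 he (by omega) hp).elim
  · rcases Nat.lt_or_ge X.b 7 with h7 | h7
    · exact (Choice.five h2 (by rw [Nat.odd_iff] at ho; omega) hp).elim
    · exact (Choice.seven_le h2 ho h7 hp).elim

/-- Goldschmidt: the edge stabilisers have order at most `2 ^ 7`. -/
theorem Cubic.card_S_le_128 (C : Cubic G V) {a b : V} (hab : C.Adj a b) :
    Nat.card (C.S a b) ≤ 128 := by
  suffices h : C.Bound from h a b hab
  by_cases h2 : C.Char2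
  swap
  · exact Cubic.bound_of_not_char2 h2
  by_cases hn : C.NoCentral
  · exact Cubic.bound_of_noCentral h2 hn hab
  by_cases hex : ∃ X : Choice C, X.Dim2
  · obtain ⟨X, hX⟩ := hex
    obtain ⟨p, hp⟩ := X.exists_crit a
    exact Choice.bound_of_dim2 hX hp
  push Not at hex
  obtain ⟨X₀⟩ := Choice.exists_choice h2 hn
  classical
  have hne : ∃ n, ∃ X : Choice C, X.b = n := ⟨X₀.b, X₀, rfl⟩
  obtain ⟨X, hX⟩ := Nat.find_spec hne
  have hmin : ∀ Y : Choice C, X.b ≤ Y.b := fun Y => hX ▸ Nat.find_min' hne ⟨Y, rfl⟩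
  obtain ⟨p, hp⟩ := X.exists_crit a
  rcases Nat.lt_or_ge X.b 3 with h | h
  · exact Choice.bound_of_b_le_two (by omega) hp
  rcases Nat.even_or_odd X.b with he | ho
  · exact (Choice.even_ge_four_dim3 hex he (by rw [Nat.even_iff] at he; omega) hp).elim
  · exact (Choice.odd_dim3 hex hmin ho h hp).elim

end CfsgLib.CubicAmalgam
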