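/-
The graph of cosets of two subgroups over their intersection.
-/
import Cfsg.Agent.Lib.CubicAmalgam.Main
import Cfsg.Agent.Lib.Cores.PCore

set_option autoImplicit false

namespace CfsgLib.CubicAmalgam

open MulAction

variable {G : Type*} [Group G]

/-- The index and the failure of normality of a Sylow 2-subgroup when the quotient by the 2-core is
`S₃`. -/
theorem index_three {M : Type*} [Group M] [Finite M] (P : Sylow 2 M)
    (e : M ⧸ Cfsg.pCore 2 M ≃* Equiv.Perm (Fin 3)) :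
    (P : Subgroup M).index = 3 ∧ ¬ (P : Subgroup M).Normal := by
  have : Fact (Nat.Prime 2) := ⟨Nat.prime_two⟩
  set O := Cfsg.pCore 2 M
  have hO : O.index = 6 := by
    rw [Subgroup.index_eq_card, Nat.card_congr e.toEquiv, Nat.card_perm, Nat.card_fin]
    rfl
  have hOP : O ≤ (P : Subgroup M) := by
    obtain ⟨Q, hQ⟩ := (Cores.isPGroup_pCore 2 M).exists_le_sylow
    obtain ⟨g, hg⟩ := MulAction.exists_smul_eq M Q P
    intro x hx
    rw [← hg, Sylow.coe_subgroup_smul, Subgroup.mem_pointwise_smul_iff_inv_smul_mem]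
    refine hQ ?_
    simpa [MulAut.conj_apply] using (inferInstance : O.Normal).conj_mem x hx g⁻¹
  have hdvd : (P : Subgroup M).index ∣ 6 := hO ▸ Subgroup.index_dvd_of_le hOP
  have hodd : ¬ 2 ∣ (P : Subgroup M).index := P.not_dvd_index
  have hne1 : (P : Subgroup M).index ≠ 1 := by
    intro h1
    have htop : (P : Subgroup M) = ⊤ := Subgroup.index_eq_one.mp h1
    obtain ⟨k, hk⟩ := IsPGroup.iff_card.1 P.2
    rw [htop, Subgroup.card_top] at hk
    have h6 : 6 ∣ 2 ^ k := by rw [← hk, ← hO]; exact Subgroup.index_dvd_card O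
    have : 3 ∣ 2 := Nat.prime_three.dvd_of_dvd_pow (dvd_trans (by norm_num) h6)
    norm_num at this
  have hle : (P : Subgroup M).index ≤ 6 := Nat.le_of_dvd (by norm_num) hdvd
  have h3 : (P : Subgroup M).index = 3 := by
    interval_cases h : (P : Subgroup M).index <;> omega
  refine ⟨h3, fun hn => ?_⟩
  have hPO : (P : Subgroup M) ≤ O := Cores.le_pCore P.2
  have : O.index ∣ (P : Subgroup M).index := Subgroup.index_dvd_of_le hPO
  rw [h3, hO] at this
  norm_num at this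

/-- The cosets of `M ⊓ N` in `M`, with an element swapping the two nontrivial ones. -/
theorem base_data (M N : Subgroup G) (h3 : ((M ⊓ N).subgroupOf M).index = 3)
    (hn : ¬ ((M ⊓ N).subgroupOf M).Normal) :
    ∃ m₁ m₂ : G, m₁ ∈ M ∧ m₂ ∈ M ∧ m₁ ∉ N ∧ m₂ ∉ N ∧ m₁⁻¹ * m₂ ∉ N ∧
      (∀ m ∈ M, m ∈ N ∨ m₁⁻¹ * m ∈ N ∨ m₂⁻¹ * m ∈ N) ∧
      ∃ s ∈ M ⊓ N, ∀ m ∈ M, m ∉ N → m⁻¹ * s * m ∉ N := by
  set K := (M ⊓ N).subgroupOf M with hK
  have hmem : ∀ x : M, x ∈ K ↔ (x : G) ∈ N := fun x => by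
    rw [hK, Subgroup.mem_subgroupOf, Subgroup.mem_inf]
    exact ⟨fun h => h.2, fun h => ⟨x.2, h⟩⟩
  have hcard : Nat.card (M ⧸ K) = 3 := by rw [← Subgroup.index_eq_card, h3]
  obtain ⟨u, w, hu, hw, huw, hall⟩ : ∃ u w : M ⧸ K, u ≠ ((1 : M) : M ⧸ K) ∧
      w ≠ ((1 : M) : M ⧸ K) ∧ u ≠ w ∧ ∀ c, c = ((1 : M) : M ⧸ K) ∨ c = u ∨ c = w := by
    have : Finite (M ⧸ K) := Nat.finite_of_card_ne_zero (by omega)
    let e : M ⧸ K ≃ Fin 3 := (Finite.equivFin _).trans (finCongr hcard)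
    refine ⟨e.symm (e ((1 : M) : M ⧸ K) + 1), e.symm (e ((1 : M) : M ⧸ K) + 2), ?_, ?_, ?_, ?_⟩
    · intro h; have := congrArg e h; simp at this
    · intro h; have := congrArg e h; simp at this
    · intro h; have := e.symm.injective h; simp at this
    · intro c
      have : ∀ i j : Fin 3, j = i ∨ j = i + 1 ∨ j = i + 2 := by decide
      rcases this (e ((1 : M) : M ⧸ K)) (e c) with h | h | h
      · exact Or.inl (e.injective h)
      · exact Or.inr (Or.inl (e.eq_symm_apply.mpr h))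
      · exact Or.inr (Or.inr (e.eq_symm_apply.mpr h))
  obtain ⟨u, rfl⟩ := QuotientGroup.mk_surjective u
  obtain ⟨w, rfl⟩ := QuotientGroup.mk_surjective w
  have heq : ∀ x y : M, ((x : M ⧸ K) = (y : M ⧸ K)) ↔ ((x : G)⁻¹ * y) ∈ N := fun x y => by
    rw [QuotientGroup.eq, hmem]; rfl
  have h1N : ∀ x : M, ((1 : M) : M ⧸ K) = (x : M ⧸ K) ↔ (x : G) ∈ N := fun x => by
    rw [heq]; simp
  refine ⟨u, w, u.2, w.2, fun h => hu ((h1N u).mpr h).symm, fun h => hw ((h1N w).mpr h).symm,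
    fun h => huw ((heq u w).mpr h), fun m hm => ?_, ?_⟩
  · rcases hall ((⟨m, hm⟩ : M) : M ⧸ K) with h | h | h
    · exact Or.inl ((h1N _).mp h.symm)
    · exact Or.inr (Or.inl ((heq u _).mp h.symm))
    · exact Or.inr (Or.inr ((heq w _).mp h.symm))
  -- an element swapping the two nontrivial cosets
  have key : ∀ s : M, s ∈ K → ∀ x y : M, ((s * x : M) : M ⧸ K) = ((s * y : M) : M ⧸ K) →
      (x : M ⧸ K) = (y : M ⧸ K) := fun s _ x y h => by
    rw [QuotientGroup.eq] at h ⊢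
    simpa [mul_assoc] using h
  have hfix1 : ∀ s : M, s ∈ K → ((s * 1 : M) : M ⧸ K) = ((1 : M) : M ⧸ K) := fun s hs => by
    rw [mul_one, eq_comm, h1N, ← hmem]; exact hs
  by_contra hcon
  push Not at hcon
  refine hn ⟨fun k hk g => ?_⟩
  have hfix : ∀ s : M, s ∈ K → ∀ x : M, ((s * x : M) : M ⧸ K) = (x : M ⧸ K) := by
    intro s hs
    obtain ⟨m, hm, hmN, hms⟩ := hcon s ⟨s.2, (hmem s).mp hs⟩
    set mm : M := ⟨m, hm⟩
    have hsm : ((s * mm : M) : M ⧸ K) = (mm : M ⧸ K) := by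
      rw [eq_comm, heq]
      simpa [mm, mul_assoc] using hms
    have hm1 : (mm : M ⧸ K) ≠ ((1 : M) : M ⧸ K) := fun h => hmN ((h1N mm).mp h.symm)
    -- the remaining coset is fixed as well
    have huv : ∀ u w : M, (∀ c : M ⧸ K, c = ((1 : M) : M ⧸ K) ∨ c = u ∨ c = w) →
        (w : M ⧸ K) ≠ ((1 : M) : M ⧸ K) → (u : M ⧸ K) ≠ w → (mm : M ⧸ K) = u →
        ∀ x : M, ((s * x : M) : M ⧸ K) = (x : M ⧸ K) := by
      intro u w hall hw huw hmu
      have hu' : ((s * u : M) : M ⧸ K) = (u : M ⧸ K) := by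
        rw [← hmu, ← hsm, QuotientGroup.eq]
        have := (QuotientGroup.eq).mp hmu.symm
        simpa [mul_assoc] using this
      have hw' : ((s * w : M) : M ⧸ K) = (w : M ⧸ K) := by
        rcases hall ((s * w : M) : M ⧸ K) with h | h | h
        · exact absurd (key s hs w 1 (h.trans (hfix1 s hs).symm)) hw
        · exact absurd (key s hs w u (h.trans hu'.symm)).symm huw
        · exact h
      intro x
      rcases hall (x : M ⧸ K) with h | h | h <;> rw [h] <;>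
        have h' := (QuotientGroup.eq).mp h.symm
      · refine Eq.trans ?_ (hfix1 s hs)
        rw [eq_comm, QuotientGroup.eq]; simpa [mul_assoc] using h'
      · refine Eq.trans ?_ hu'
        rw [eq_comm, QuotientGroup.eq]; simpa [mul_assoc] using h'
      · refine Eq.trans ?_ hw'
        rw [eq_comm, QuotientGroup.eq]; simpa [mul_assoc] using h'
    rcases (hall (mm : M ⧸ K)).resolve_left hm1 with h | h
    · exact huv u w hall hw huw h
    · exact huv w u (fun c => by rcases hall c with e | e | e <;> simp [e]) hu huw.symm h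
  have h := hfix k hk g⁻¹
  rw [eq_comm, QuotientGroup.eq, inv_inv, ← mul_assoc] at h
  exact h

variable (M₁ M₂ : Subgroup G)

/-- The vertex for `M₁`. -/
def o₁ : (G ⧸ M₁) ⊕ (G ⧸ M₂) := Sum.inl ((1 : G) : G ⧸ M₁)

/-- The vertex for `M₂`. -/
def o₂ : (G ⧸ M₁) ⊕ (G ⧸ M₂) := Sum.inr ((1 : G) : G ⧸ M₂)

theorem smul_o₁_eq (g h : G) : g • o₁ M₁ M₂ = h • o₁ M₁ M₂ ↔ g⁻¹ * h ∈ M₁ := by
  simp [o₁, MulAction.Quotient.smul_coe, QuotientGroup.eq]

theorem smul_o₂_eq (g h : G) : g • o₂ M₁ M₂ = h • o₂ M₁ M₂ ↔ g⁻¹ * h ∈ M₂ := by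
  simp [o₂, MulAction.Quotient.smul_coe, QuotientGroup.eq]

theorem fix_o₁ (g : G) : g • o₁ M₁ M₂ = o₁ M₁ M₂ ↔ g ∈ M₁ := by
  have := smul_o₁_eq M₁ M₂ g 1
  rw [one_smul, mul_one, inv_mem_iff] at this
  exact this

theorem fix_o₂ (g : G) : g • o₂ M₁ M₂ = o₂ M₁ M₂ ↔ g ∈ M₂ := by
  have := smul_o₂_eq M₁ M₂ g 1
  rw [one_smul, mul_one, inv_mem_iff] at this
  exact this

theorem o₁_ne_o₂ (g h : G) : g • o₁ M₁ M₂ ≠ h • o₂ M₁ M₂ := by
  simp [o₁, o₂]

variable {M₁ M₂}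

/-- Neighbours of a vertex, seen from the base vertices. -/
theorem graph_local {V : Type*} [MulAction G V] {Adj : V → V → Prop} {o o' : V}
    {M N : Subgroup G} (hadj : ∀ (g : G) a b, Adj a b → Adj (g • a) (g • b))
    (ho : ∀ g : G, g • o = o ↔ g ∈ M) (ho' : ∀ g : G, g • o' = o' ↔ g ∈ N)
    (hoo : Adj o o') (hnb : ∀ x, Adj o x → ∃ m ∈ M, m • o' = x)
    (h3 : ((M ⊓ N).subgroupOf M).index = 3) (hn : ¬ ((M ⊓ N).subgroupOf M).Normal) (g : G) :
    (∃ b c d : V, Adj (g • o) b ∧ Adj (g • o) c ∧ Adj (g • o) d ∧ b ≠ c ∧ b ≠ d ∧ c ≠ d ∧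
      ∀ x, Adj (g • o) x → x = b ∨ x = c ∨ x = d) ∧
    (∀ b c, Adj (g • o) b → Adj (g • o) c → ∃ k : G, k • g • o = g • o ∧ k • b = c) ∧
    ∀ b, Adj (g • o) b → ∃ k : G, k • g • o = g • o ∧ k • b = b ∧
      ∀ c, Adj (g • o) c → c ≠ b → k • c ≠ c := by
  obtain ⟨m₁, m₂, hm₁, hm₂, h1, h2, h12, hcov, s, hs, hswap⟩ := base_data M N h3 hn
  have hnb' : ∀ x, Adj (g • o) x → ∃ m ∈ M, g • m • o' = x := by
    intro x hx
    have := hadj g⁻¹ _ _ hx
    rw [inv_smul_smul] at this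
    obtain ⟨m, hm, he⟩ := hnb _ this
    exact ⟨m, hm, by rw [he, smul_inv_smul]⟩
  have heq : ∀ m m' : G, g • m • o' = g • m' • o' ↔ m⁻¹ * m' ∈ N := fun m m' => by
    rw [smul_left_cancel_iff, eq_comm, ← inv_smul_eq_iff, ← mul_smul, ho']
  have hadj' : ∀ m ∈ M, Adj (g • o) (g • m • o') := fun m hm => by
    have := hadj g _ _ (hadj m _ _ hoo)
    rwa [(ho m).mpr hm] at this
  refine ⟨⟨g • (1 : G) • o', g • m₁ • o', g • m₂ • o', hadj' 1 M.one_mem, hadj' _ hm₁,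
    hadj' _ hm₂, fun e => h1 (by simpa using (heq 1 m₁).mp e),
    fun e => h2 (by simpa using (heq 1 m₂).mp e), fun e => h12 ((heq m₁ m₂).mp e), ?_⟩, ?_, ?_⟩
  · intro x hx
    obtain ⟨m, hm, rfl⟩ := hnb' x hx
    rcases hcov m hm with e | e | e
    · exact Or.inl ((heq 1 m).mpr (by simpa using e)).symm
    · exact Or.inr (Or.inl ((heq m₁ m).mpr e).symm)
    · exact Or.inr (Or.inr ((heq m₂ m).mpr e).symm)
  · intro b c hb hc
    obtain ⟨m, hm, rfl⟩ := hnb' b hb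
    obtain ⟨m', hm', rfl⟩ := hnb' c hc
    refine ⟨g * (m' * m⁻¹) * g⁻¹, ?_, ?_⟩
    · rw [mul_smul, inv_smul_smul, mul_smul, (ho _).mpr (M.mul_mem hm' (M.inv_mem hm))]
    · simp [mul_smul]
  · intro b hb
    obtain ⟨m, hm, rfl⟩ := hnb' b hb
    refine ⟨g * (m * s * m⁻¹) * g⁻¹, ?_, ?_, fun c hc hcb => ?_⟩
    · rw [mul_smul, inv_smul_smul, mul_smul,
        (ho _).mpr (M.mul_mem (M.mul_mem hm hs.1) (M.inv_mem hm))]
    · simp [mul_smul, (ho' s).mpr hs.2]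
    · obtain ⟨m', hm', rfl⟩ := hnb' c hc
      intro e
      rw [mul_smul, inv_smul_smul, mul_smul, ← mul_smul (m * s * m⁻¹), eq_comm, heq] at e
      refine hswap (m⁻¹ * m') (M.mul_mem (M.inv_mem hm) hm') (fun h => hcb
        ((heq m m').mpr h).symm) ?_
      simpa [mul_assoc] using e

/-- The coset graph of an amalgam. -/
theorem card_inf_le (hfin₁ : Finite M₁) (hfin₂ : Finite M₂)
    (hp : IsPGroup 2 (M₁ ⊓ M₂ : Subgroup G))
    (h1 : ((M₁ ⊓ M₂).subgroupOf M₁).index = 3) (hn1 : ¬ ((M₁ ⊓ M₂).subgroupOf M₁).Normal)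
    (h2 : ((M₁ ⊓ M₂).subgroupOf M₂).index = 3) (hn2 : ¬ ((M₁ ⊓ M₂).subgroupOf M₂).Normal)
    (hc : ∀ N : Subgroup G, N ≤ M₁ ⊓ M₂ → (N.subgroupOf M₁).Normal → (N.subgroupOf M₂).Normal →
      N = ⊥) : Nat.card (M₁ ⊓ M₂ : Subgroup G) ≤ 128 := by
  let V := (G ⧸ M₁) ⊕ (G ⧸ M₂)
  let x₁ : V := o₁ M₁ M₂
  let x₂ : V := o₂ M₁ M₂
  let Adj : V → V → Prop := fun a b =>
    ∃ g : G, (g • x₁ = a ∧ g • x₂ = b) ∨ (g • x₂ = a ∧ g • x₁ = b)
  have hadj : ∀ (g : G) a b, Adj a b → Adj (g • a) (g • b) := by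
    rintro g a b ⟨k, ⟨rfl, rfl⟩ | ⟨rfl, rfl⟩⟩
    · exact ⟨g * k, Or.inl ⟨mul_smul _ _ _, mul_smul _ _ _⟩⟩
    · exact ⟨g * k, Or.inr ⟨mul_smul _ _ _, mul_smul _ _ _⟩⟩
  have hall : ∀ a : V, (∃ g : G, g • x₁ = a) ∨ ∃ g : G, g • x₂ = a := by
    rintro (a | a)
    · obtain ⟨g, rfl⟩ := QuotientGroup.mk_surjective a
      exact Or.inl ⟨g, congrArg Sum.inl
        (show g • ((1 : G) : G ⧸ M₁) = (g : G ⧸ M₁) by simp [MulAction.Quotient.smul_coe])⟩
    · obtain ⟨g, rfl⟩ := QuotientGroup.mk_surjective a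
      exact Or.inr ⟨g, congrArg Sum.inr
        (show g • ((1 : G) : G ⧸ M₂) = (g : G ⧸ M₂) by simp [MulAction.Quotient.smul_coe])⟩
  have hnb1 : ∀ x, Adj x₁ x → ∃ m ∈ M₁, m • x₂ = x := by
    rintro x ⟨g, ⟨e, rfl⟩ | ⟨e, -⟩⟩
    · exact ⟨g, (fix_o₁ M₁ M₂ g).mp e, rfl⟩
    · exact absurd (by rw [one_smul]; exact e.symm) (o₁_ne_o₂ M₁ M₂ 1 g)
  have hnb2 : ∀ x, Adj x₂ x → ∃ m ∈ M₂, m • x₁ = x := by
    rintro x ⟨g, ⟨e, -⟩ | ⟨e, rfl⟩⟩
    · exact absurd (by rw [one_smul]; exact e) (o₁_ne_o₂ M₁ M₂ g 1)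
    · exact ⟨g, (fix_o₂ M₁ M₂ g).mp e, rfl⟩
  have ha12 : Adj x₁ x₂ := ⟨1, Or.inl ⟨one_smul _ _, one_smul _ _⟩⟩
  have ha21 : Adj x₂ x₁ := ⟨1, Or.inr ⟨one_smul _ _, one_smul _ _⟩⟩
  have L1 := fun g => graph_local (Adj := Adj) hadj (fix_o₁ M₁ M₂) (fix_o₂ M₁ M₂) ha12 hnb1 h1 hn1 g
  have h2' : ((M₂ ⊓ M₁).subgroupOf M₂).index = 3 := by rwa [inf_comm]
  have hn2' : ¬ ((M₂ ⊓ M₁).subgroupOf M₂).Normal := by rwa [inf_comm]
  have L2 := fun g => graph_local (Adj := Adj) hadj (fix_o₂ M₁ M₂) (fix_o₁ M₁ M₂) ha21 hnb2 h2'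
    hn2' g
  have hstab : ∀ (g : G) (o : V) (M : Subgroup G), (∀ k : G, k • o = o ↔ k ∈ M) → Finite M →
      Finite (stabilizer G (g • o)) := by
    intro g o M ho hM
    refine Finite.of_injective (fun k => (⟨g⁻¹ * k * g, ?_⟩ : M)) fun k k' h => ?_
    · rw [← ho, mul_smul, mul_smul, inv_smul_eq_iff]
      exact k.2
    · exact Subtype.ext (mul_left_cancel (mul_right_cancel (congrArg Subtype.val h :)))
  let C : Cubic G V :=
    { Adj := Adj
      typ := fun a => a.isLeft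
      symm := by
        rintro a b ⟨g, h | h⟩
        · exact ⟨g, Or.inr ⟨h.2, h.1⟩⟩
        · exact ⟨g, Or.inl ⟨h.2, h.1⟩⟩
      flip := by
        rintro a b ⟨g, ⟨rfl, rfl⟩ | ⟨rfl, rfl⟩⟩ <;> rfl
      smul_adj := fun g _ _ h => hadj g _ _ h
      typ_smul := by rintro g (a | a) <;> rfl
      trans := by
        intro a b h
        rcases hall a with ⟨g, rfl⟩ | ⟨g, rfl⟩ <;> rcases hall b with ⟨k, rfl⟩ | ⟨k, rfl⟩
        · exact ⟨k * g⁻¹, by rw [mul_smul, inv_smul_smul]⟩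
        · exact Bool.noConfusion (show true = false from h)
        · exact Bool.noConfusion (show false = true from h)
        · exact ⟨k * g⁻¹, by rw [mul_smul, inv_smul_smul]⟩
      three := by
        intro a
        rcases hall a with ⟨g, rfl⟩ | ⟨g, rfl⟩
        · exact (L1 g).1
        · exact (L2 g).1
      finite_stab := by
        intro a
        rcases hall a with ⟨g, rfl⟩ | ⟨g, rfl⟩
        · exact hstab g _ _ (fix_o₁ M₁ M₂) hfin₁
        · exact hstab g _ _ (fix_o₂ M₁ M₂) hfin₂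
      two_group := by
        rintro a b ⟨g, h⟩ ⟨k, hk⟩
        have hk' : g⁻¹ * k * g ∈ M₁ ⊓ M₂ := by
          rw [Subgroup.mem_inf, mem_stabilizer_iff, mem_stabilizer_iff] at hk
          rw [Subgroup.mem_inf, ← fix_o₁ M₁ M₂, ← fix_o₂ M₁ M₂, mul_smul, mul_smul, mul_smul,
            mul_smul, inv_smul_eq_iff, inv_smul_eq_iff]
          rcases h with ⟨e1, e2⟩ | ⟨e2, e1⟩
          · subst e1 e2; exact hk
          · subst e1 e2; exact ⟨hk.2, hk.1⟩
        obtain ⟨n, hn⟩ := hp ⟨_, hk'⟩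
        refine ⟨n, Subtype.ext ?_⟩
        have h' : (g⁻¹ * k * g⁻¹⁻¹) ^ 2 ^ n = 1 := by
          simpa using congrArg Subtype.val hn
        rw [conj_pow] at h'
        simpa using conj_eq_one_iff.mp h'
      trans_nbr := by
        intro a b c hb hc
        rcases hall a with ⟨g, rfl⟩ | ⟨g, rfl⟩
        · exact (L1 g).2.1 b c hb hc
        · exact (L2 g).2.1 b c hb hc
      exists_swap := by
        intro a b hb
        rcases hall a with ⟨g, rfl⟩ | ⟨g, rfl⟩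
        · exact (L1 g).2.2 b hb
        · exact (L2 g).2.2 b hb
      faith := by
        rintro a b ⟨g, hg⟩ N hN hna hnb
        have hconj : ∀ (o : V) (M : Subgroup G), (∀ k : G, k • o = o ↔ k ∈ M) →
            stabilizer G (g • o) ≤ Subgroup.normalizer (N : Set G) →
            ((N.comap (MulAut.conj g).toMonoidHom).subgroupOf M).Normal := by
          intro o M ho hno
          refine ⟨fun x hx m => ?_⟩
          rw [Subgroup.mem_subgroupOf, Subgroup.mem_comap] at hx ⊢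
          have hk : g * m * g⁻¹ ∈ stabilizer G (g • o) := by
            rw [mem_stabilizer_iff, mul_smul, inv_smul_smul, mul_smul, (ho _).mpr m.2]
          have := ((Subgroup.mem_normalizer_iff.mp (hno hk)) (g * x * g⁻¹)).mp hx
          show g * ((m : G) * x * (m : G)⁻¹) * g⁻¹ ∈ N
          convert this using 1
          group
        have hle : N.comap (MulAut.conj g).toMonoidHom ≤ M₁ ⊓ M₂ := by
          intro x hx
          have hx' := hN hx
          rw [Subgroup.mem_inf, mem_stabilizer_iff, mem_stabilizer_iff] at hx'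
          rw [Subgroup.mem_inf, ← fix_o₁ M₁ M₂, ← fix_o₂ M₁ M₂]
          rcases hg with ⟨e1, e2⟩ | ⟨e2, e1⟩
          · subst e1 e2
            simpa [mul_smul, smul_left_cancel_iff, x₁, x₂] using hx'
          · subst e1 e2
            simpa [mul_smul, smul_left_cancel_iff, x₁, x₂, and_comm] using hx'
        have hbot : N.comap (MulAut.conj g).toMonoidHom = ⊥ := by
          rcases hg with ⟨e1, e2⟩ | ⟨e2, e1⟩
          · subst e1 e2
            exact hc _ hle (hconj _ _ (fix_o₁ M₁ M₂) hna) (hconj _ _ (fix_o₂ M₁ M₂) hnb)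
          · subst e1 e2
            exact hc _ hle (hconj _ _ (fix_o₁ M₁ M₂) hnb) (hconj _ _ (fix_o₂ M₁ M₂) hna)
        rw [Subgroup.eq_bot_iff_forall]
        intro x hx
        have : g⁻¹ * x * g ∈ N.comap (MulAut.conj g).toMonoidHom := by
          show g * (g⁻¹ * x * g) * g⁻¹ ∈ N
          rwa [show g * (g⁻¹ * x * g) * g⁻¹ = x by group]
        rw [hbot, Subgroup.mem_bot] at this
        calc x = g * (g⁻¹ * x * g) * g⁻¹ := by group
          _ = 1 := by rw [this]; group }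
  have hS : C.S x₁ x₂ = M₁ ⊓ M₂ := by
    ext k
    rw [Cubic.mem_S, Subgroup.mem_inf]
    exact and_congr (fix_o₁ M₁ M₂ k) (fix_o₂ M₁ M₂ k)
  have := C.card_S_le_128 ha12
  rwa [hS] at this

end CfsgLib.CubicAmalgam
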